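import Mathlib
import Cfsg.Prelude.Def_Sporadic_a
import Cfsg.Agent.Lib.Helper10.LeechCountNum
import Cfsg.Agent.Lib.Helper10.Lambda3

set_option autoImplicit false

namespace Cfsg.Agent.Lib.Helper10

open Cfsg Cfsg.Agent.Lib.Helper9

/-! ### Shapes of the vectors of squared length 48 -/

/-- A vector with all coordinates congruent to 1 modulo 4 and squared length 48 has one `5`
or three `-3`, and `1` elsewhere. -/
theorem odd48_shape {y : GolayPt → ℤ} (hy1 : ∀ i, y i % 4 = 1) (hyn : sqNorm y = 48) :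
    (∃ j, y j = 5 ∧ ∀ q, q ≠ j → y q = 1) ∨
      (∃ i j k, i ≠ j ∧ i ≠ k ∧ j ≠ k ∧ y i = -3 ∧ y j = -3 ∧ y k = -3 ∧
        ∀ q, q ≠ i → q ≠ j → q ≠ k → y q = 1) := by
  classical
  set F : Finset GolayPt := Finset.univ.filter (fun i => y i ≠ 1) with hF
  have hmemF : ∀ i, i ∈ F ↔ y i ≠ 1 := fun i => by rw [hF, Finset.mem_filter]; simp
  have hsplit : ∑ i ∈ F, y i ^ 2 + ∑ i ∈ Fᶜ, y i ^ 2 = 48 := by
    rw [Finset.sum_add_sum_compl]
    exact hyn
  have hcompl : ∑ i ∈ Fᶜ, y i ^ 2 = (Fᶜ.card : ℤ) := by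
    rw [Finset.sum_congr rfl (g := fun _ => (1 : ℤ))]
    · simp
    · intro i hi
      rw [Finset.mem_compl, hmemF, not_not] at hi
      rw [hi]
      norm_num
  have hge : ∀ i ∈ F, 9 ≤ y i ^ 2 := by
    intro i hi
    have h1 := hy1 i
    have h2 := (hmemF i).mp hi
    have h : y i ≤ -3 ∨ 5 ≤ y i := by omega
    rcases h with h | h <;> nlinarith
  have hval : ∀ i ∈ F, y i = -3 ∨ 25 ≤ y i ^ 2 := by
    intro i hi
    have h1 := hy1 i
    have h2 := (hmemF i).mp hi
    by_cases h3 : y i = -3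
    · exact Or.inl h3
    · right
      have h : y i ≤ -7 ∨ 5 ≤ y i := by omega
      rcases h with h | h <;> nlinarith
  have hcard := Finset.card_nsmul_le_sum F (fun i => y i ^ 2) 9 hge
  have hcc : F.card + Fᶜ.card = 24 := by
    rw [Finset.card_add_card_compl]
    exact card_golayPt
  have hcard' : (F.card : ℤ) * 9 ≤ ∑ i ∈ F, y i ^ 2 := by simpa [nsmul_eq_mul] using hcard
  have hyo : ∀ q, q ∉ F → y q = 1 := by
    intro q hq
    by_contra h
    exact hq ((hmemF q).mpr h)
  have hcases : F.card = 0 ∨ F.card = 1 ∨ F.card = 2 ∨ F.card = 3 := by omega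
  rcases hcases with h0 | h1 | h2 | h3
  · exfalso
    have : ∑ i ∈ F, y i ^ 2 = 0 := by rw [Finset.card_eq_zero.mp h0, Finset.sum_empty]
    omega
  · obtain ⟨j, hj⟩ := Finset.card_eq_one.mp h1
    have hFj : ∑ i ∈ F, y i ^ 2 = y j ^ 2 := by rw [hj, Finset.sum_singleton]
    have h25 : y j ^ 2 = 25 := by omega
    have hyj : y j = 5 := by
      have h1 := hy1 j
      have hb1 : -6 < y j := by nlinarith
      have hb2 : y j < 6 := by nlinarith
      generalize y j = t at h1 hb1 hb2 h25
      interval_cases t <;> omega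
    left
    exact ⟨j, hyj, fun q hq => hyo q (by rw [hj, Finset.mem_singleton]; exact hq)⟩
  · exfalso
    obtain ⟨i, j, hij, hFe⟩ := Finset.card_eq_two.mp h2
    have hFs : ∑ q ∈ F, y q ^ 2 = y i ^ 2 + y j ^ 2 := by rw [hFe, Finset.sum_pair hij]
    have hi := hval i (by rw [hFe]; simp)
    have hj := hval j (by rw [hFe]; simp)
    have hgi := hge i (by rw [hFe]; simp)
    have hgj := hge j (by rw [hFe]; simp)
    rcases hi with hi | hi
    · rcases hj with hj | hj
      · rw [hi, hj] at hFs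
        norm_num at hFs
        omega
      · omega
    · omega
  · obtain ⟨i, j, k, hij, hik, hjk, hFe⟩ := Finset.card_eq_three.mp h3
    have hFs : ∑ q ∈ F, y q ^ 2 = y i ^ 2 + (y j ^ 2 + y k ^ 2) := by
      rw [hFe, Finset.sum_insert (by simp [hij, hik]), Finset.sum_pair hjk]
    have hi := hval i (by rw [hFe]; simp)
    have hj := hval j (by rw [hFe]; simp)
    have hk := hval k (by rw [hFe]; simp)
    have hgi := hge i (by rw [hFe]; simp)
    have hgj := hge j (by rw [hFe]; simp)
    have hgk := hge k (by rw [hFe]; simp)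
    have hyi : y i = -3 := by
      rcases hi with hi | hi
      · exact hi
      · omega
    have hyj : y j = -3 := by
      rcases hj with hj | hj
      · exact hj
      · omega
    have hyk : y k = -3 := by
      rcases hk with hk | hk
      · exact hk
      · omega
    right
    refine ⟨i, j, k, hij, hik, hjk, hyi, hyj, hyk, fun q h1 h2 h3 => ?_⟩
    apply hyo
    rw [hFe, Finset.mem_insert, Finset.mem_insert, Finset.mem_singleton]
    tauto

/-- An even vector of squared length 48: `±2` on a set of 12 points, or `±2` on a set of 8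
points and `±4` at one further point. -/
theorem even48_shape {x : GolayPt → ℤ} (hn : sqNorm x = 48) {S : Finset GolayPt}
    (h4 : 4 ∣ S.card) (hin : ∀ i ∈ S, x i % 4 = 2) (hout : ∀ i, i ∉ S → x i % 4 = 0) :
    (S.card = 0) ∨
    (S.card = 12 ∧ (∀ i ∈ S, x i = 2 ∨ x i = -2) ∧ ∀ i, i ∉ S → x i = 0) ∨
      (S.card = 8 ∧ (∀ i ∈ S, x i = 2 ∨ x i = -2) ∧
        ∃ j, j ∉ S ∧ (x j = 4 ∨ x j = -4) ∧ ∀ i, i ∉ S → i ≠ j → x i = 0) ∨
      S.card = 4 := by
  classical
  have hsplit : ∑ i ∈ S, x i ^ 2 + ∑ i ∈ Sᶜ, x i ^ 2 = 48 := by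
    rw [Finset.sum_add_sum_compl]
    exact hn
  have hge : ∀ i ∈ S, 4 ≤ x i ^ 2 := by
    intro i hi
    have := hin i hi
    have h : x i ≤ -2 ∨ 2 ≤ x i := by omega
    rcases h with h | h <;> nlinarith
  have hcardS := Finset.card_nsmul_le_sum S (fun i => x i ^ 2) 4 hge
  have hcardS' : (S.card : ℤ) * 4 ≤ ∑ i ∈ S, x i ^ 2 := by simpa [nsmul_eq_mul] using hcardS
  have hnn : 0 ≤ ∑ i ∈ Sᶜ, x i ^ 2 := Finset.sum_nonneg (fun i _ => sq_nonneg _)
  have hT : ∑ i ∈ S, (x i ^ 2 - 4) = ∑ i ∈ S, x i ^ 2 - 4 * (S.card : ℤ) := by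
    rw [Finset.sum_sub_distrib, Finset.sum_const, nsmul_eq_mul]
    ring
  have hdvd : (32 : ℤ) ∣ ∑ i ∈ S, (x i ^ 2 - 4) := by
    apply Finset.dvd_sum
    intro i hi
    have := hin i hi
    have h : x i % 8 = 2 ∨ x i % 8 = 6 := by omega
    rcases h with h | h
    · obtain ⟨m, hm⟩ : ∃ m, x i = 8 * m + 2 := ⟨x i / 8, by omega⟩
      exact ⟨2 * m ^ 2 + m, by rw [hm]; ring⟩
    · obtain ⟨m, hm⟩ : ∃ m, x i = 8 * m + 6 := ⟨x i / 8, by omega⟩
      exact ⟨2 * m ^ 2 + 3 * m + 1, by rw [hm]; ring⟩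
  have hfour_of : ∑ i ∈ S, (x i ^ 2 - 4) = 0 → ∀ i ∈ S, x i = 2 ∨ x i = -2 := by
    intro h0 i hi
    have h1 := (Finset.sum_eq_zero_iff_of_nonneg (fun i hi => by have := hge i hi; omega)).mp h0 i hi
    have h : (x i - 2) * (x i + 2) = 0 := by nlinarith
    rcases mul_eq_zero.mp h with h | h
    · left; omega
    · right; omega
  have hcases : S.card = 0 ∨ S.card = 4 ∨ S.card = 8 ∨ S.card = 12 := by omega
  rcases hcases with h0 | hS4 | hS8 | hS12
  · exact Or.inl h0
  · right; right; right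
    exact hS4
  · right; right; left
    have hSsum : ∑ i ∈ S, x i ^ 2 = 32 := by
      obtain ⟨k, hk⟩ := hdvd
      rw [hT, hS8] at hk
      rw [hS8] at hcardS'
      push_cast at hcardS' hk
      omega
    have hCsum : ∑ i ∈ Sᶜ, x i ^ 2 = 16 := by omega
    have hpm : ∀ i ∈ S, x i = 2 ∨ x i = -2 := by
      apply hfour_of
      rw [hT, hSsum, hS8]
      norm_num
    have hGsum : ∑ i ∈ Sᶜ.filter (fun i => x i ≠ 0), x i ^ 2 = 16 := by
      rw [← hCsum]
      apply Finset.sum_filter_of_ne
      intro i _ h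
      exact fun h0 => h (by rw [h0]; norm_num)
    have hGge : ∀ i ∈ Sᶜ.filter (fun i => x i ≠ 0), 16 ≤ x i ^ 2 := by
      intro i hi
      rw [Finset.mem_filter, Finset.mem_compl] at hi
      exact sq_ge_16 (hout i hi.1) hi.2
    have hGcard := Finset.card_nsmul_le_sum _ (fun i => x i ^ 2) 16 hGge
    have hGcard' : ((Sᶜ.filter (fun i => x i ≠ 0)).card : ℤ) * 16 ≤
        ∑ i ∈ Sᶜ.filter (fun i => x i ≠ 0), x i ^ 2 := by simpa [nsmul_eq_mul] using hGcard
    have hG1 : (Sᶜ.filter (fun i => x i ≠ 0)).card = 1 := by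
      have h0 : (Sᶜ.filter (fun i => x i ≠ 0)).card ≠ 0 := by
        intro h0
        have : ∑ i ∈ Sᶜ.filter (fun i => x i ≠ 0), x i ^ 2 = 0 := by
          rw [Finset.card_eq_zero.mp h0, Finset.sum_empty]
        omega
      omega
    obtain ⟨j, hj⟩ := Finset.card_eq_one.mp hG1
    have hjmem : j ∈ Sᶜ.filter (fun i => x i ≠ 0) := by
      rw [hj]
      exact Finset.mem_singleton_self j
    have hjS : j ∉ S := by
      rw [Finset.mem_filter, Finset.mem_compl] at hjmem
      exact hjmem.1
    have hxj16 : x j ^ 2 = 16 := by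
      have : ∑ i ∈ Sᶜ.filter (fun i => x i ≠ 0), x i ^ 2 = x j ^ 2 := by
        rw [hj, Finset.sum_singleton]
      omega
    have hxj : x j = 4 ∨ x j = -4 := by
      have h : (x j - 4) * (x j + 4) = 0 := by nlinarith
      rcases mul_eq_zero.mp h with h | h
      · left; omega
      · right; omega
    refine ⟨hS8, hpm, j, hjS, hxj, fun i hi hij => ?_⟩
    by_contra h
    have : i ∈ Sᶜ.filter (fun i => x i ≠ 0) := by
      rw [Finset.mem_filter, Finset.mem_compl]
      exact ⟨hi, h⟩
    rw [hj, Finset.mem_singleton] at this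
    exact hij this
  · right; left
    have hSsum : ∑ i ∈ S, x i ^ 2 = 48 := by
      rw [hS12] at hcardS'
      push_cast at hcardS'
      omega
    have hCsum : ∑ i ∈ Sᶜ, x i ^ 2 = 0 := by omega
    refine ⟨hS12, ?_, fun i hi => ?_⟩
    · apply hfour_of
      rw [hT, hSsum, hS12]
      norm_num
    · have h := (Finset.sum_eq_zero_iff_of_nonneg (fun i _ => sq_nonneg (x i))).mp hCsum i
        (Finset.mem_compl.mpr hi)
      exact pow_eq_zero_iff (two_ne_zero) |>.mp h

/-! ### Counting a set of lattice vectors class by class -/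

theorem class_disjoint_par {par : ℕ} (hpar : par < 2) {N : ℕ} (hN : N ≤ 64) :
    ∀ μ ∈ (sums gB).toFinset, ∀ μ' ∈ (sums gB).toFinset, μ ≠ μ' →
      Disjoint (classSet par μ N) (classSet par μ' N) := by
  intro μ hμ μ' hμ' hne
  exact classSet_disjoint hN (x := (par, μ))
    (Finset.mem_coe.mpr (Finset.mem_product.mpr ⟨Finset.mem_range.mpr hpar, hμ⟩))
    (y := (par, μ'))
    (Finset.mem_coe.mpr (Finset.mem_product.mpr ⟨Finset.mem_range.mpr hpar, hμ'⟩))
    (fun h => hne (Prod.mk.inj h).2)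

theorem mem_LL_of_class {par : ℕ} (hpar : par < 2) {μ : ℕ} (hμ : μ ∈ sums gB) {N : ℕ}
    (hN : N ≤ 64) {x : GolayPt → ℤ} (hx : x ∈ classSet par μ N) : x ∈ leechLattice := by
  obtain ⟨h1, h2, -⟩ := (mem_classSet hpar μ hN x).mp hx
  exact (mem_leechLattice_iff x).mpr ((mem_leechSet_struct x).mpr ⟨par, hpar, μ, hμ, h1, h2⟩)

/-- A set of lattice vectors of one parity and norm is counted class by class. -/
theorem census_card {par : ℕ} (hpar : par < 2) {N : ℕ} (hN : N ≤ 64) (T : Set (GolayPt → ℤ))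
    [DecidablePred (· ∈ T)] (f : ℕ → ℕ)
    (hT : ∀ x ∈ T, x ∈ leechLattice ∧ sqNorm x = (N : ℤ) ∧ x none % 2 = (par : ℤ))
    (hf : ∀ μ ∈ sums gB, ((classSet par μ N).filter (· ∈ T)).card = f (popc μ)) :
    T.ncard = f 0 + 759 * f 8 + 2576 * f 12 + 759 * f 16 + f 24 := by
  have hset : T = ↑((sums gB).toFinset.biUnion (fun μ => (classSet par μ N).filter (· ∈ T))) := by
    ext x
    rw [Finset.mem_coe, Finset.mem_biUnion]
    constructor
    · intro hx
      obtain ⟨hL, hn, hp⟩ := hT x hx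
      obtain ⟨par', hpar', μ, hμ, h1, h2⟩ :=
        (mem_leechSet_struct x).mp ((mem_leechLattice_iff x).mp hL)
      have hpp : par' = par := by
        have := h1 none
        rcases bitZ_cases μ none with ⟨-, hz⟩ | ⟨-, hz⟩ <;> rw [hz] at this <;> omega
      subst hpp
      exact ⟨μ, List.mem_toFinset.mpr hμ,
        Finset.mem_filter.mpr ⟨(mem_classSet hpar μ hN x).mpr ⟨h1, h2, hn⟩, hx⟩⟩
    · rintro ⟨μ, -, hx⟩
      exact (Finset.mem_filter.mp hx).2
  rw [hset, Set.ncard_coe_finset, Finset.card_biUnion]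
  · rw [← sum_by_weight f, ← List.sum_toFinset _ nodup_sums_gB]
    apply Finset.sum_congr rfl
    intro μ hμ
    exact hf μ (List.mem_toFinset.mp hμ)
  · intro μ hμ μ' hμ' hne
    exact Finset.disjoint_filter_filter (class_disjoint_par hpar hN μ hμ μ' hμ' hne)

theorem popc_cases {μ : ℕ} (hμ : μ ∈ sums gB) :
    popc μ = 0 ∨ popc μ = 8 ∨ popc μ = 12 ∨ popc μ = 16 ∨ popc μ = 24 := by
  have h := wtOK_of_mem_sums hμ
  simp only [wtOK, Bool.or_eq_true, beq_iff_eq] at h
  rcases h with (((h | h) | h) | h) | h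
  · exact Or.inl h
  · exact Or.inr (Or.inl h)
  · exact Or.inr (Or.inr (Or.inl h))
  · exact Or.inr (Or.inr (Or.inr (Or.inl h)))
  · exact Or.inr (Or.inr (Or.inr (Or.inr h)))

/-- The set of points where the mask has a bit. -/
def bitSet (μ : ℕ) : Finset GolayPt := Finset.univ.filter (fun i : GolayPt => μ.testBit (idx i) = true)

theorem mem_bitSet (μ : ℕ) (i : GolayPt) : i ∈ bitSet μ ↔ μ.testBit (idx i) = true := by
  simp [bitSet]

theorem card_bitSet (μ : ℕ) : (bitSet μ).card = popc μ := card_bits μ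

theorem class0_in {μ : ℕ} {x : GolayPt → ℤ} (h1 : ∀ i, x i % 4 = ((0 : ℕ) : ℤ) + 2 * bitZ μ i) :
    (∀ i ∈ bitSet μ, x i % 4 = 2) ∧ (∀ i, i ∉ bitSet μ → x i % 4 = 0) := by
  constructor
  · intro i hi
    have := h1 i
    rcases bitZ_cases μ i with ⟨hb, hz⟩ | ⟨hb, hz⟩
    · rw [hz] at this
      push_cast at this
      omega
    · rw [mem_bitSet, hb] at hi
      exact absurd hi (by decide)
  · intro i hi
    have := h1 i
    rcases bitZ_cases μ i with ⟨hb, hz⟩ | ⟨hb, hz⟩
    · exact absurd ((mem_bitSet μ i).mpr hb) hi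
    · rw [hz] at this
      push_cast at this
      omega

/-! ### The census of the vectors of squared length 48 -/

/-- The vectors of shape `(2^12, 0^12)`. -/
def setA : Set (GolayPt → ℤ) :=
  {x | x ∈ leechLattice ∧ sqNorm x = 48 ∧ ∀ i, x i = 0 ∨ x i = 2 ∨ x i = -2}

/-- The vectors of shape `(4, 2^8, 0^15)`. -/
def setB : Set (GolayPt → ℤ) :=
  {x | x ∈ leechLattice ∧ sqNorm x = 48 ∧ ∃ i, |x i| = 4}

/-- The vectors of shape `(3^3, 1^21)`. -/
def setC : Set (GolayPt → ℤ) :=
  {x | x ∈ leechLattice ∧ sqNorm x = 48 ∧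
    ∃ i j k, i ≠ j ∧ j ≠ k ∧ i ≠ k ∧ |x i| = 3 ∧ |x j| = 3 ∧ |x k| = 3}

/-- The vectors of shape `(5, 1^23)`. -/
def setD : Set (GolayPt → ℤ) :=
  {x | x ∈ leechLattice ∧ sqNorm x = 48 ∧ ∃ i, |x i| = 5}

theorem even_of_coord {x : GolayPt → ℤ} (hx : x ∈ leechLattice) {i : GolayPt}
    (hi : x i % 2 = 0) : x none % 2 = ((0 : ℕ) : ℤ) := by
  obtain ⟨par, hpar, μ, hμ, h1, -⟩ := (mem_leechSet_struct x).mp ((mem_leechLattice_iff x).mp hx)
  have a := h1 i
  have b := h1 none
  rcases bitZ_cases μ i with ⟨-, hz⟩ | ⟨-, hz⟩ <;>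
    rcases bitZ_cases μ none with ⟨-, hz'⟩ | ⟨-, hz'⟩ <;> rw [hz] at a <;> rw [hz'] at b <;>
    push_cast <;> omega

theorem odd_of_coord {x : GolayPt → ℤ} (hx : x ∈ leechLattice) {i : GolayPt}
    (hi : x i % 2 = 1) : x none % 2 = ((1 : ℕ) : ℤ) := by
  obtain ⟨par, hpar, μ, hμ, h1, -⟩ := (mem_leechSet_struct x).mp ((mem_leechLattice_iff x).mp hx)
  have a := h1 i
  have b := h1 none
  rcases bitZ_cases μ i with ⟨-, hz⟩ | ⟨-, hz⟩ <;>
    rcases bitZ_cases μ none with ⟨-, hz'⟩ | ⟨-, hz'⟩ <;> rw [hz] at a <;> rw [hz'] at b <;>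
    push_cast <;> omega

theorem card_setA : setA.ncard = 5275648 := by
  classical
  have h := census_card (par := 0) (by norm_num) (N := 48) (by norm_num) setA
    (fun t => if t = 12 then 2048 else 0)
    (fun x hx => ⟨hx.1, by exact_mod_cast hx.2.1, by
      apply even_of_coord hx.1 (i := none)
      rcases hx.2.2 none with h | h | h <;> rw [h] <;> rfl⟩)
    (fun μ hμ => by
      show _ = if popc μ = 12 then 2048 else 0
      by_cases h12 : popc μ = 12
      · rw [if_pos h12, Finset.filter_true_of_mem, card_classSet (by norm_num) μ (by norm_num), h12]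
        · exact kc_0_12.2.1
        · intro x hx
          obtain ⟨h1, h2, h3⟩ := (mem_classSet (by norm_num) μ (by norm_num) x).mp hx
          refine ⟨mem_LL_of_class (by norm_num) hμ (by norm_num) hx, by exact_mod_cast h3, ?_⟩
          obtain ⟨hin, hout⟩ := class0_in h1
          have h4 : 4 ∣ (bitSet μ).card := by rw [card_bitSet, h12]; norm_num
          rcases even48_shape (by exact_mod_cast h3) h4 hin hout with h | h | h | h
          · rw [card_bitSet] at h; omega
          · intro i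
            by_cases hi : i ∈ bitSet μ
            · exact Or.inr (h.2.1 i hi)
            · exact Or.inl (h.2.2 i hi)
          · rw [card_bitSet] at h; omega
          · rw [card_bitSet] at h; omega
      · rw [if_neg h12, Finset.card_eq_zero, Finset.filter_eq_empty_iff]
        intro x hx hxA
        obtain ⟨h1, h2, h3⟩ := (mem_classSet (by norm_num) μ (by norm_num) x).mp hx
        obtain ⟨hin, hout⟩ := class0_in h1
        apply h12
        have hval : ∀ i, x i ^ 2 = if i ∈ bitSet μ then 4 else 0 := by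
          intro i
          by_cases hi : i ∈ bitSet μ
          · rw [if_pos hi]
            have := hin i hi
            rcases hxA.2.2 i with h | h | h
            all_goals (rw [h] at this; first | omega | (rw [h]; norm_num))
          · rw [if_neg hi]
            have := hout i hi
            rcases hxA.2.2 i with h | h | h
            all_goals (rw [h] at this; first | omega | (rw [h]; norm_num))
        have hsum : sqNorm x = 4 * ((bitSet μ).card : ℤ) := by
          unfold sqNorm
          rw [Finset.sum_congr rfl (fun i _ => hval i), Finset.sum_ite_mem, Finset.univ_inter,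
            Finset.sum_const, nsmul_eq_mul]
          ring
        rw [card_bitSet] at hsum
        have := hxA.2.1
        omega)
  rw [show setA.ncard = _ from h]
  norm_num

theorem card_setB : setB.ncard = 3108864 := by
  classical
  have h := census_card (par := 0) (by norm_num) (N := 48) (by norm_num) setB
    (fun t => if t = 8 then 4096 else 0)
    (fun x hx => ⟨hx.1, by exact_mod_cast hx.2.1, by
      obtain ⟨i, hi⟩ := hx.2.2
      apply even_of_coord hx.1 (i := i)
      rcases (abs_eq (by norm_num : (0 : ℤ) ≤ 4)).mp hi with h | h <;> rw [h] <;> rfl⟩)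
    (fun μ hμ => by
      show _ = if popc μ = 8 then 4096 else 0
      by_cases h8 : popc μ = 8
      · rw [if_pos h8, Finset.filter_true_of_mem, card_classSet (by norm_num) μ (by norm_num), h8]
        · exact kc_0_8.2.1
        · intro x hx
          obtain ⟨h1, h2, h3⟩ := (mem_classSet (by norm_num) μ (by norm_num) x).mp hx
          refine ⟨mem_LL_of_class (by norm_num) hμ (by norm_num) hx, by exact_mod_cast h3, ?_⟩
          obtain ⟨hin, hout⟩ := class0_in h1
          have h4 : 4 ∣ (bitSet μ).card := by rw [card_bitSet, h8]; norm_num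
          rcases even48_shape (by exact_mod_cast h3) h4 hin hout with h | h | h | h
          · rw [card_bitSet] at h; omega
          · rw [card_bitSet] at h; omega
          · obtain ⟨-, -, j, -, hj, -⟩ := h
            refine ⟨j, ?_⟩
            rcases hj with hj | hj <;> rw [hj] <;> norm_num
          · rw [card_bitSet] at h; omega
      · rw [if_neg h8, Finset.card_eq_zero, Finset.filter_eq_empty_iff]
        intro x hx hxB
        obtain ⟨h1, h2, h3⟩ := (mem_classSet (by norm_num) μ (by norm_num) x).mp hx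
        obtain ⟨hin, hout⟩ := class0_in h1
        obtain ⟨i, hi⟩ := hxB.2.2
        have hxi : x i = 4 ∨ x i = -4 := (abs_eq (by norm_num)).mp hi
        have h4 : 4 ∣ (bitSet μ).card := by
          rw [card_bitSet]
          rcases popc_cases hμ with h | h | h | h | h <;> rw [h] <;> norm_num
        rcases even48_shape (by exact_mod_cast h3) h4 hin hout with h | h | h | h
        · apply no_zero48 hxB.1 hxB.2.1
          intro q
          apply hout
          rw [Finset.card_eq_zero] at h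
          rw [h]
          exact Finset.notMem_empty q
        · by_cases hq : i ∈ bitSet μ
          · rcases h.2.1 i hq with h' | h' <;> rcases hxi with h'' | h'' <;> omega
          · have := h.2.2 i hq
            rcases hxi with h'' | h'' <;> omega
        · rw [card_bitSet] at h
          exact h8 h.1
        · rw [card_bitSet] at h
          rcases popc_cases hμ with h' | h' | h' | h' | h' <;> omega)
  rw [show setB.ncard = _ from h]
  norm_num

/-- The sign at a point given by the mask. -/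
def sgnB (μ : ℕ) (q : GolayPt) : ℤ := 1 - 2 * bitZ μ q

theorem sgnB_cases (μ : ℕ) (q : GolayPt) :
    (bitZ μ q = 0 ∧ sgnB μ q = 1) ∨ (bitZ μ q = 1 ∧ sgnB μ q = -1) := by
  unfold sgnB
  rcases bitZ_cases μ q with ⟨-, hz⟩ | ⟨-, hz⟩ <;> rw [hz] <;> simp

/-- The vector of the class of `μ` with `±5` at `i` and `±1` elsewhere. -/
def dvec (μ : ℕ) (i : GolayPt) : GolayPt → ℤ := fun q => sgnB μ q * (if q = i then 5 else 1)

theorem sum_bitZ (μ : ℕ) : ∑ q, bitZ μ q = (popc μ : ℤ) := by
  rw [← card_bitSet, bitSet, Finset.card_filter]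
  push_cast
  rfl

theorem dvec_mem {μ : ℕ} (hμ : μ ∈ sums gB) (i : GolayPt) : dvec μ i ∈ classSet 1 μ 48 := by
  rw [mem_classSet (by norm_num) μ (by norm_num)]
  refine ⟨fun q => ?_, ?_, ?_⟩
  · unfold dvec
    rcases sgnB_cases μ q with ⟨hz, hs⟩ | ⟨hz, hs⟩ <;> rw [hz, hs] <;> split_ifs <;> norm_num
  · have h1 : ∀ q, dvec μ i q = sgnB μ q + (if q = i then 4 * sgnB μ i else 0) := by
      intro q
      unfold dvec
      split_ifs with h
      · rw [h]; ring
      · ring
    have h2 : ∑ q, sgnB μ q = 24 - 2 * (popc μ : ℤ) := by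
      unfold sgnB
      rw [Finset.sum_sub_distrib, ← Finset.mul_sum, sum_bitZ, Finset.sum_const, card_golayPt,
        nsmul_eq_mul]
      push_cast
      ring
    rw [Finset.sum_congr rfl (fun q _ => h1 q), Finset.sum_add_distrib, Finset.sum_ite_eq',
      if_pos (Finset.mem_univ i), h2]
    have hp := popc_cases hμ
    generalize popc μ = P at hp ⊢
    rcases hp with h | h | h | h | h <;>
      rcases sgnB_cases μ i with ⟨-, hs⟩ | ⟨-, hs⟩ <;> rw [h, hs] <;> norm_num
  · unfold sqNorm
    have h1 : ∀ q, dvec μ i q ^ 2 = 1 + (if q = i then 24 else 0) := by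
      intro q
      unfold dvec
      rcases sgnB_cases μ q with ⟨-, hs⟩ | ⟨-, hs⟩ <;> rw [hs] <;> split_ifs <;> norm_num
    rw [Finset.sum_congr rfl (fun q _ => h1 q), Finset.sum_add_distrib, Finset.sum_const,
      Finset.sum_ite_eq', if_pos (Finset.mem_univ i), card_golayPt]
    norm_num

theorem dvec_injective (μ : ℕ) : Function.Injective (dvec μ) := by
  intro i i' h
  by_contra hne
  have h1 := congrFun h i
  unfold dvec at h1
  rw [if_pos rfl, if_neg hne] at h1
  rcases sgnB_cases μ i with ⟨-, hs⟩ | ⟨-, hs⟩ <;> rw [hs] at h1 <;> norm_num at h1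

/-- Vectors of an odd class: the normalised vector has one `5` or three `-3`. -/
theorem odd_class_shape {μ : ℕ} {x : GolayPt → ℤ} (hx : x ∈ classSet 1 μ 48) :
    (∃ j, sgnB μ j * x j = 5 ∧ ∀ q, q ≠ j → sgnB μ q * x q = 1) ∨
      (∃ i j k, i ≠ j ∧ i ≠ k ∧ j ≠ k ∧ sgnB μ i * x i = -3 ∧ sgnB μ j * x j = -3 ∧
        sgnB μ k * x k = -3 ∧ ∀ q, q ≠ i → q ≠ j → q ≠ k → sgnB μ q * x q = 1) := by
  obtain ⟨h1, h2, h3⟩ := (mem_classSet (by norm_num) μ (by norm_num) x).mp hx
  have hy1 : ∀ q, (sgnB μ q * x q) % 4 = 1 := by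
    intro q
    have := h1 q
    rcases sgnB_cases μ q with ⟨hz, hs⟩ | ⟨hz, hs⟩ <;> rw [hz] at this <;> rw [hs] <;>
      push_cast at this <;> omega
  have hyn : sqNorm (fun q => sgnB μ q * x q) = 48 := by
    have h3' : sqNorm x = 48 := by exact_mod_cast h3
    rw [← h3']
    unfold sqNorm
    apply Finset.sum_congr rfl
    intro q _
    show (sgnB μ q * x q) ^ 2 = x q ^ 2
    rcases sgnB_cases μ q with ⟨-, hs⟩ | ⟨-, hs⟩ <;> rw [hs] <;> ring
  exact odd48_shape hy1 hyn

theorem abs_of_sgnB {μ : ℕ} {q : GolayPt} {x v : ℤ} (h : sgnB μ q * x = v) : |x| = |v| := by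
  rw [← h]
  rcases sgnB_cases μ q with ⟨-, hs⟩ | ⟨-, hs⟩ <;> rw [hs] <;> simp

theorem eq_of_sgnB {μ : ℕ} {q : GolayPt} {x v : ℤ} (h : sgnB μ q * x = v) : x = sgnB μ q * v := by
  rw [← h]
  rcases sgnB_cases μ q with ⟨-, hs⟩ | ⟨-, hs⟩ <;> rw [hs] <;> ring

theorem filter_setD {μ : ℕ} (hμ : μ ∈ sums gB) [DecidablePred (· ∈ setD)] :
    (classSet 1 μ 48).filter (· ∈ setD) = Finset.univ.image (dvec μ) := by
  ext x
  rw [Finset.mem_filter, Finset.mem_image]
  constructor
  · rintro ⟨hx, hxD⟩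
    obtain ⟨i, hi⟩ := hxD.2.2
    rcases odd_class_shape hx with ⟨j, hj5, hjo⟩ | ⟨a, b, c, -, -, -, ha, hb, hc, ho⟩
    · have hij : i = j := by
        by_contra hne
        have := abs_of_sgnB (hjo i hne)
        rw [hi] at this
        norm_num at this
      subst hij
      refine ⟨i, Finset.mem_univ _, ?_⟩
      funext q
      unfold dvec
      by_cases hq : q = i
      · rw [if_pos hq, hq]
        exact (eq_of_sgnB hj5).symm
      · rw [if_neg hq]
        exact (eq_of_sgnB (hjo q hq)).symm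
    · exfalso
      have : |x i| = 3 ∨ |x i| = 1 := by
        by_cases h1 : i = a
        · left; rw [h1, abs_of_sgnB ha]; norm_num
        · by_cases h2 : i = b
          · left; rw [h2, abs_of_sgnB hb]; norm_num
          · by_cases h3 : i = c
            · left; rw [h3, abs_of_sgnB hc]; norm_num
            · right; rw [abs_of_sgnB (ho i h1 h2 h3)]; norm_num
      omega
  · rintro ⟨i, -, rfl⟩
    have hm := dvec_mem hμ i
    refine ⟨hm, mem_LL_of_class (by norm_num) hμ (by norm_num) hm, ?_, i, ?_⟩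
    · exact_mod_cast ((mem_classSet (by norm_num) μ (by norm_num) _).mp hm).2.2
    · unfold dvec
      rw [if_pos rfl]
      rcases sgnB_cases μ i with ⟨-, hs⟩ | ⟨-, hs⟩ <;> rw [hs] <;> norm_num

theorem card_setD : setD.ncard = 98304 := by
  classical
  have h := census_card (par := 1) (by norm_num) (N := 48) (by norm_num) setD (fun _ => 24)
    (fun x hx => ⟨hx.1, by exact_mod_cast hx.2.1, by
      obtain ⟨i, hi⟩ := hx.2.2
      apply odd_of_coord hx.1 (i := i)
      rcases (abs_eq (by norm_num : (0 : ℤ) ≤ 5)).mp hi with h | h <;> rw [h] <;> rfl⟩)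
    (fun μ hμ => by
      rw [filter_setD hμ, Finset.card_image_of_injective _ (dvec_injective μ)]
      exact card_golayPt)
  rw [show setD.ncard = _ from h]

theorem setC_iff {μ : ℕ} {x : GolayPt → ℤ} (hμ : μ ∈ sums gB) (hx : x ∈ classSet 1 μ 48) :
    x ∈ setC ↔ x ∉ setD := by
  have hL := mem_LL_of_class (by norm_num) hμ (by norm_num) hx
  have hn : sqNorm x = 48 := by
    exact_mod_cast ((mem_classSet (by norm_num) μ (by norm_num) x).mp hx).2.2
  rcases odd_class_shape hx with ⟨j, hj5, hjo⟩ | ⟨a, b, c, hab, hac, hbc, ha, hb, hc, ho⟩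
  · have hall : ∀ q, |x q| = 5 ∨ |x q| = 1 := by
      intro q
      by_cases hq : q = j
      · left; rw [hq, abs_of_sgnB hj5]; norm_num
      · right; rw [abs_of_sgnB (hjo q hq)]; norm_num
    constructor
    · rintro ⟨-, -, i, -, -, -, -, -, hi, -, -⟩
      rcases hall i with h | h <;> omega
    · intro h
      exfalso
      apply h
      refine ⟨hL, hn, j, ?_⟩
      rw [abs_of_sgnB hj5]
      norm_num
  · have hall : ∀ q, |x q| = 3 ∨ |x q| = 1 := by
      intro q
      by_cases h1 : q = a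
      · left; rw [h1, abs_of_sgnB ha]; norm_num
      · by_cases h2 : q = b
        · left; rw [h2, abs_of_sgnB hb]; norm_num
        · by_cases h3 : q = c
          · left; rw [h3, abs_of_sgnB hc]; norm_num
          · right; rw [abs_of_sgnB (ho q h1 h2 h3)]; norm_num
    constructor
    · rintro - ⟨-, -, i, hi⟩
      rcases hall i with h | h <;> omega
    · intro _
      refine ⟨hL, hn, a, b, c, hab, hbc, hac, ?_, ?_, ?_⟩
      · rw [abs_of_sgnB ha]; norm_num
      · rw [abs_of_sgnB hb]; norm_num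
      · rw [abs_of_sgnB hc]; norm_num

theorem card_setC : setC.ncard = 8290304 := by
  classical
  have h := census_card (par := 1) (by norm_num) (N := 48) (by norm_num) setC
    (fun t => kCnt 1 t 48 - 24)
    (fun x hx => ⟨hx.1, by exact_mod_cast hx.2.1, by
      obtain ⟨i, -, -, -, -, -, hi, -, -⟩ := hx.2.2
      apply odd_of_coord hx.1 (i := i)
      rcases (abs_eq (by norm_num : (0 : ℤ) ≤ 3)).mp hi with h | h <;> rw [h] <;> rfl⟩)
    (fun μ hμ => by
      have e : (classSet 1 μ 48).filter (· ∈ setC) = (classSet 1 μ 48).filter (fun x => ¬ x ∈ setD) :=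
        Finset.filter_congr (fun x hx => setC_iff hμ hx)
      have h1 := Finset.card_filter_add_card_filter_not (s := classSet 1 μ 48) (· ∈ setD)
      rw [filter_setD hμ, Finset.card_image_of_injective _ (dvec_injective μ), card_golayPt,
        card_classSet (by norm_num) μ (by norm_num)] at h1
      rw [e]
      show _ = kCnt 1 (popc μ) 48 - 24
      omega)
  rw [show setC.ncard = _ from h]
  simp only [kc_1_0.2.1, kc_1_8.2.1, kc_1_12.2.1, kc_1_16.2.1, kc_1_24.2.1]

end Cfsg.Agent.Lib.Helper10
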