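import Cfsg.Agent.Lib.Helper10.McLSimple2
import Cfsg.Agent.Lib.Helper10.Census48
import Cfsg.Agent.Lib.Helper10.Co0Order
import Cfsg.Agent.S1573
import Cfsg.Agent.S1574

/-! # Orbits of the stabiliser of the standard cross on the minimal vectors -/

set_option autoImplicit false

namespace Cfsg.Agent.Lib.Helper10

open Cfsg Cfsg.Agent.Lib.Helper9
open scoped Pointwise

/-- Two vectors of the lattice in one orbit of a subgroup of the automorphism group. -/
def ORel (K : Subgroup ↥Co0) (x y : GolayPt → ℤ) : Prop :=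
  ∃ (hx : x ∈ leechLattice) (g : ↥Co0), g ∈ K ∧
    ((g • (⟨x, hx⟩ : leechLattice) : leechLattice) : GolayPt → ℤ) = y

theorem ORel.mem_left {K : Subgroup ↥Co0} {x y : GolayPt → ℤ} (h : ORel K x y) :
    x ∈ leechLattice := h.1

theorem ORel.mem_right {K : Subgroup ↥Co0} {x y : GolayPt → ℤ} (h : ORel K x y) :
    y ∈ leechLattice := by
  obtain ⟨hx, g, -, rfl⟩ := h
  exact (g • (⟨x, hx⟩ : leechLattice)).2

theorem ORel.refl {K : Subgroup ↥Co0} {x : GolayPt → ℤ} (hx : x ∈ leechLattice) : ORel K x x :=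
  ⟨hx, 1, K.one_mem, by rw [one_smul]⟩

theorem orel_iff {K : Subgroup ↥Co0} (v w : leechLattice) :
    ORel K (v : GolayPt → ℤ) (w : GolayPt → ℤ) ↔ ∃ g : ↥Co0, g ∈ K ∧ g • v = w := by
  constructor
  · rintro ⟨hx, g, hg, h⟩
    exact ⟨g, hg, Subtype.ext h⟩
  · rintro ⟨g, hg, rfl⟩
    exact ⟨v.2, g, hg, rfl⟩

theorem ORel.symm {K : Subgroup ↥Co0} {x y : GolayPt → ℤ} (h : ORel K x y) : ORel K y x := by
  have hy := h.mem_right
  have hx := h.mem_left
  obtain ⟨g, hg, e⟩ := (orel_iff (K := K) ⟨x, hx⟩ ⟨y, hy⟩).mp h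
  refine (orel_iff (K := K) ⟨y, hy⟩ ⟨x, hx⟩).mpr ⟨g⁻¹, K.inv_mem hg, ?_⟩
  rw [← e, inv_smul_smul]

theorem ORel.trans {K : Subgroup ↥Co0} {x y z : GolayPt → ℤ} (h : ORel K x y) (h' : ORel K y z) :
    ORel K x z := by
  have hx := h.mem_left
  have hy := h.mem_right
  have hz := h'.mem_right
  obtain ⟨g, hg, e⟩ := (orel_iff (K := K) ⟨x, hx⟩ ⟨y, hy⟩).mp h
  obtain ⟨g', hg', e'⟩ := (orel_iff (K := K) ⟨y, hy⟩ ⟨z, hz⟩).mp h'
  refine (orel_iff (K := K) ⟨x, hx⟩ ⟨z, hz⟩).mpr ⟨g' * g, K.mul_mem hg' hg, ?_⟩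
  rw [mul_smul, e, e']

theorem ORel.norm {K : Subgroup ↥Co0} {x y : GolayPt → ℤ} (h : ORel K x y) :
    sqNorm y = sqNorm x := by
  obtain ⟨hx, g, -, rfl⟩ := h
  exact g.2.2 ⟨x, hx⟩

theorem ORel.mono {K K' : Subgroup ↥Co0} (hK : K ≤ K') {x y : GolayPt → ℤ} (h : ORel K x y) :
    ORel K' x y := by
  obtain ⟨hx, g, hg, e⟩ := h
  exact ⟨hx, g, hK hg, e⟩

/-- A coordinate permutation as an element of the automorphism group. -/
def permEl (σ : Equiv.Perm GolayPt) (hσ : σ ∈ M24) : ↥Co0 := ⟨permPerm σ hσ, permPerm_mem σ hσ⟩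

/-- A sign change as an element of the automorphism group. -/
def signEl (c : Finset GolayPt) (hc : c ∈ gsup) : ↥Co0 := ⟨signPerm c hc, signPerm_mem c hc⟩

theorem orel_perm {K : Subgroup ↥Co0} {σ : Equiv.Perm GolayPt} {hσ : σ ∈ M24}
    (hK : permEl σ hσ ∈ K) {x y : GolayPt → ℤ} (hx : x ∈ leechLattice)
    (h : ∀ q, y (σ q) = x q) : ORel K x y := by
  refine ⟨hx, permEl σ hσ, hK, ?_⟩
  funext i
  have e := h (σ.symm i)
  rw [Equiv.apply_symm_apply] at e
  rw [e]
  rfl

theorem orel_sign {K : Subgroup ↥Co0} {c : Finset GolayPt} {hc : c ∈ gsup}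
    (hK : signEl c hc ∈ K) {x y : GolayPt → ℤ} (hx : x ∈ leechLattice)
    (h : ∀ q, y q = if q ∈ c then -x q else x q) : ORel K x y := by
  refine ⟨hx, signEl c hc, hK, ?_⟩
  funext i
  rw [h i]
  rfl

theorem perm_mem_crossSub (σ : Equiv.Perm GolayPt) (hσ : σ ∈ M24) : permEl σ hσ ∈ crossSub := by
  intro v hv
  obtain ⟨i, s, hs, hv⟩ := hv
  refine ⟨σ i, s, hs, ?_⟩
  show ((permPerm σ hσ v : leechLattice) : GolayPt → ℤ) = _
  rw [permPerm_coe, hv, mono_single]

theorem sign_mem_crossSub (c : Finset GolayPt) (hc : c ∈ gsup) : signEl c hc ∈ crossSub := by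
  intro v hv
  obtain ⟨i, s, hs, hv⟩ := hv
  show ((signPerm c hc v : leechLattice) : GolayPt → ℤ) ∈ stdCross
  rw [signPerm_apply, hv]
  by_cases hi : i ∈ c
  · refine ⟨i, -s, by rcases hs with rfl | rfl <;> simp, ?_⟩
    funext q
    rw [signVec_apply]
    by_cases hq : q = i
    · subst hq
      rw [if_pos hi, Pi.single_eq_same, Pi.single_eq_same]
    · rw [Pi.single_eq_of_ne hq, Pi.single_eq_of_ne hq]
      split_ifs <;> simp
  · refine ⟨i, s, hs, ?_⟩
    funext q
    rw [signVec_apply]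
    by_cases hq : q = i
    · subst hq
      rw [if_neg hi]
    · rw [Pi.single_eq_of_ne hq]
      split_ifs <;> simp

/-! ### The three shapes of minimal vectors -/

theorem orel_shape1 {x : GolayPt → ℤ} (hx : x ∈ leechLattice) (hn : sqNorm x = 32)
    (h4 : ∀ i, x i % 4 = 0) : ORel crossSub x Spor.vecU := by
  classical
  set F : Finset GolayPt := Finset.univ.filter (fun i => x i ≠ 0) with hF
  have hmemF : ∀ i, i ∈ F ↔ x i ≠ 0 := fun i => by rw [hF, Finset.mem_filter]; simp
  have hsum : ∑ i ∈ F, x i ^ 2 = 32 := by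
    rw [← hn, sqNorm, hF]
    apply Finset.sum_filter_of_ne
    intro i _ h
    exact fun h0 => h (by rw [h0]; norm_num)
  have hge : ∀ i ∈ F, 16 ≤ x i ^ 2 := fun i hi => sq_ge_16 (h4 i) ((hmemF i).mp hi)
  have hcard := Finset.card_nsmul_le_sum F (fun i => x i ^ 2) 16 hge
  rw [hsum] at hcard
  have hc2 : F.card ≤ 2 := by
    have : (F.card : ℤ) * 16 ≤ 32 := by simpa [nsmul_eq_mul] using hcard
    omega
  have hc0 : F.card ≠ 0 := by
    intro h0
    rw [Finset.card_eq_zero] at h0
    rw [h0, Finset.sum_empty] at hsum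
    norm_num at hsum
  have hc1 : F.card ≠ 1 := by
    intro h1
    obtain ⟨j, hj⟩ := Finset.card_eq_one.mp h1
    rw [hj, Finset.sum_singleton] at hsum
    have hb1 : -6 < x j := by nlinarith
    have hb2 : x j < 6 := by nlinarith
    have h4j := h4 j
    generalize x j = t at hsum hb1 hb2 h4j
    interval_cases t <;> omega
  have hc : F.card = 2 := by omega
  obtain ⟨i, j, hij, hFe⟩ := Finset.card_eq_two.mp hc
  rw [hFe, Finset.sum_pair hij] at hsum
  have hi : 16 ≤ x i ^ 2 := hge i (by rw [hFe]; simp)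
  have hj : 16 ≤ x j ^ 2 := hge j (by rw [hFe]; simp)
  have hi' : x i = 4 ∨ x i = -4 := by
    have h : (x i - 4) * (x i + 4) = 0 := by nlinarith
    rcases mul_eq_zero.mp h with h | h
    · left; omega
    · right; omega
  have hj' : x j = 4 ∨ x j = -4 := by
    have h : (x j - 4) * (x j + 4) = 0 := by nlinarith
    rcases mul_eq_zero.mp h with h | h
    · left; omega
    · right; omega
  have h0 : ∀ q, q ≠ i → q ≠ j → x q = 0 := by
    intro q hqi hqj
    by_contra hq
    have : q ∈ F := (hmemF q).mpr hq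
    rw [hFe, Finset.mem_insert, Finset.mem_singleton] at this
    tauto
  obtain ⟨c, hc, hci, hcj⟩ := exists_sign_two hij (x i = -4) (x j = -4)
  have hy : ORel crossSub x (twoVec i j) := by
    apply orel_sign (sign_mem_crossSub c hc) hx
    intro q
    unfold twoVec
    by_cases hqi : q = i
    · subst hqi
      by_cases hm : q ∈ c
      · rw [if_pos (Or.inl rfl), if_pos hm, hci.mp hm]; norm_num
      · rw [if_pos (Or.inl rfl), if_neg hm]
        rcases hi' with h | h
        · exact h.symm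
        · exact absurd (hci.mpr h) hm
    · by_cases hqj : q = j
      · subst hqj
        by_cases hm : q ∈ c
        · rw [if_pos (Or.inr rfl), if_pos hm, hcj.mp hm]; norm_num
        · rw [if_pos (Or.inr rfl), if_neg hm]
          rcases hj' with h | h
          · exact h.symm
          · exact absurd (hcj.mpr h) hm
      · rw [if_neg (by tauto), h0 q hqi hqj]
        split_ifs <;> rfl
  obtain ⟨σ, hσ, h1, h2⟩ := m24_trans2 hij (show (none : GolayPt) ≠ some 0 by simp)
  refine hy.trans (orel_perm (perm_mem_crossSub σ hσ) hy.mem_right ?_)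
  intro q
  unfold Spor.vecU twoVec
  by_cases hqi : q = i
  · subst hqi
    rw [h1]
    simp
  · by_cases hqj : q = j
    · subst hqj
      rw [h2]
      simp
    · have e1 : σ q ≠ none := fun h => hqi (σ.injective (h.trans h1.symm))
      have e2 : σ q ≠ some 0 := fun h => hqj (σ.injective (h.trans h2.symm))
      rw [if_neg (by tauto), if_neg (by tauto)]

theorem orel_shape3 {x : GolayPt → ℤ} (hx : x ∈ leechLattice) (hn : sqNorm x = 32)
    {i0 : GolayPt} (h1 : x i0 % 2 = 1) : ORel crossSub x oddRep := by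
  classical
  obtain ⟨par, hpar, μ, hμ, hmod, hsum8⟩ :=
    (mem_leechSet_struct x).mp ((mem_leechLattice_iff x).mp hx)
  have hp1 : par = 1 := by
    have := hmod i0
    rcases bitZ_cases μ i0 with ⟨-, hz⟩ | ⟨-, hz⟩ <;> rw [hz] at this <;> omega
  subst hp1
  have hc : support₂ (dec μ) ∈ gsup := ⟨dec μ, dec_mem_golay hμ, rfl⟩
  have hxy : ORel crossSub x (signVec (support₂ (dec μ)) x) := orel_sign (sign_mem_crossSub _ hc) hx (fun q => signVec_apply _ _ q)
  have hyn : sqNorm (signVec (support₂ (dec μ)) x) = 32 := by rw [sqNorm_signVec, hn]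
  have hy1 : ∀ i, signVec (support₂ (dec μ)) x i % 4 = 1 := by
    intro i
    rw [signVec_apply]
    have := hmod i
    rcases bitZ_cases μ i with ⟨hb, hz⟩ | ⟨hb, hz⟩
    · rw [if_pos ((mem_supp_dec μ i).mpr hb)]
      rw [hz] at this
      push_cast at this
      omega
    · rw [if_neg (fun h => by rw [(mem_supp_dec μ i).mp h] at hb; exact absurd hb (by decide))]
      rw [hz] at this
      push_cast at this
      omega
  generalize signVec (support₂ (dec μ)) x = y at hxy hyn hy1
  set F : Finset GolayPt := Finset.univ.filter (fun i => y i ≠ 1) with hF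
  have hmemF : ∀ i, i ∈ F ↔ y i ≠ 1 := fun i => by rw [hF, Finset.mem_filter]; simp
  have hsplit : ∑ i ∈ F, y i ^ 2 + ∑ i ∈ Fᶜ, y i ^ 2 = 32 := by
    rw [Finset.sum_add_sum_compl]
    exact hyn
  have hcompl : ∑ i ∈ Fᶜ, y i ^ 2 = (Fᶜ.card : ℤ) := by
    rw [Finset.sum_congr rfl (g := fun _ => (1 : ℤ))]
    · simp
    · intro i hi
      rw [Finset.mem_compl, hmemF, not_not] at hi
      rw [hi]
      norm_num
  have hge : ∀ i ∈ F, 9 ≤ y i ^ 2 := by
    intro i hi
    have h1 := hy1 i
    have h2 := (hmemF i).mp hi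
    have h : y i ≤ -3 ∨ 5 ≤ y i := by omega
    rcases h with h | h <;> nlinarith
  have hcard := Finset.card_nsmul_le_sum F (fun i => y i ^ 2) 9 hge
  have hcc : F.card + Fᶜ.card = 24 := by
    rw [Finset.card_add_card_compl]
    exact card_golayPt
  have hcard' : (F.card : ℤ) * 9 ≤ ∑ i ∈ F, y i ^ 2 := by simpa [nsmul_eq_mul] using hcard
  have hc1 : F.card ≤ 1 := by omega
  have hc0 : F.card ≠ 0 := by
    intro h0
    have h0' : ∑ i ∈ F, y i ^ 2 = 0 := by
      rw [Finset.card_eq_zero.mp h0, Finset.sum_empty]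
    omega
  have hc : F.card = 1 := by omega
  obtain ⟨j, hj⟩ := Finset.card_eq_one.mp hc
  have hFj : ∑ i ∈ F, y i ^ 2 = y j ^ 2 := by rw [hj, Finset.sum_singleton]
  have hyj : y j = -3 := by
    have h1 := hy1 j
    have h9 : y j ^ 2 = 9 := by omega
    have hb1 : -4 < y j := by nlinarith
    have hb2 : y j < 4 := by nlinarith
    generalize y j = t at h1 hb1 hb2 h9
    interval_cases t <;> omega
  have hyo : ∀ q, q ≠ j → y q = 1 := by
    intro q hq
    by_contra h
    have : q ∈ F := (hmemF q).mpr h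
    rw [hj, Finset.mem_singleton] at this
    exact hq this
  obtain ⟨σ, hσ, h1⟩ := m24_trans1 j none
  refine hxy.trans (orel_perm (perm_mem_crossSub σ hσ) hxy.mem_right ?_)
  intro q
  unfold oddRep
  by_cases hq : q = j
  · subst hq
    rw [h1, if_pos rfl, hyj]
  · have e1 : σ q ≠ none := fun h => hq (σ.injective (h.trans h1.symm))
    rw [if_neg e1, hyo q hq]

theorem orel_shape2 {x : GolayPt → ℤ} (hx : x ∈ leechLattice) (hn : sqNorm x = 32)
    {i0 : GolayPt} (h2 : x i0 % 4 = 2) : ORel crossSub x (octRep O0f) := by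
  classical
  obtain ⟨par, hpar, μ, hμ, hmod, hsum8⟩ :=
    (mem_leechSet_struct x).mp ((mem_leechLattice_iff x).mp hx)
  have hp0 : par = 0 := by
    have := hmod i0
    rcases bitZ_cases μ i0 with ⟨-, hz⟩ | ⟨-, hz⟩ <;> rw [hz] at this <;> omega
  subst hp0
  have hSg : support₂ (dec μ) ∈ gsup := ⟨dec μ, dec_mem_golay hμ, rfl⟩
  have hin : ∀ i ∈ support₂ (dec μ), x i % 4 = 2 := by
    intro i hi
    have := hmod i
    rcases bitZ_cases μ i with ⟨hb, hz⟩ | ⟨hb, hz⟩
    · rw [hz] at this
      push_cast at this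
      omega
    · rw [mem_supp_dec, hb] at hi
      exact absurd hi (by decide)
  have hout : ∀ i, i ∉ support₂ (dec μ) → x i % 4 = 0 := by
    intro i hi
    have := hmod i
    rcases bitZ_cases μ i with ⟨hb, hz⟩ | ⟨hb, hz⟩
    · exact absurd ((mem_supp_dec μ i).mpr hb) hi
    · rw [hz] at this
      push_cast at this
      omega
  generalize support₂ (dec μ) = S at hSg hin hout
  have hi0 : i0 ∈ S := by
    by_contra h
    have := hout i0 h
    omega
  have hcard8 : 8 ≤ S.card := by
    have h4 := golay_doubly_even hSg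
    have hne := no_weight4 hSg
    have hpos : 0 < S.card := Finset.card_pos.mpr ⟨i0, hi0⟩
    omega
  have hsplit : ∑ i ∈ S, x i ^ 2 + ∑ i ∈ Sᶜ, x i ^ 2 = 32 := by
    rw [Finset.sum_add_sum_compl]
    exact hn
  have hge : ∀ i ∈ S, 4 ≤ x i ^ 2 := by
    intro i hi
    have := hin i hi
    have h : x i ≤ -2 ∨ 2 ≤ x i := by omega
    rcases h with h | h <;> nlinarith
  have hcardS := Finset.card_nsmul_le_sum S (fun i => x i ^ 2) 4 hge
  have hcardS' : (S.card : ℤ) * 4 ≤ ∑ i ∈ S, x i ^ 2 := by simpa [nsmul_eq_mul] using hcardS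
  have hnn : 0 ≤ ∑ i ∈ Sᶜ, x i ^ 2 := Finset.sum_nonneg (fun i _ => sq_nonneg _)
  have hS8 : S.card = 8 := by omega
  have hSsum : ∑ i ∈ S, x i ^ 2 = 32 := by
    rw [hS8] at hcardS'
    push_cast at hcardS'
    omega
  have hCsum : ∑ i ∈ Sᶜ, x i ^ 2 = 0 := by omega
  have hzero : ∀ i, i ∉ S → x i = 0 := by
    intro i hi
    have h := (Finset.sum_eq_zero_iff_of_nonneg (fun i _ => sq_nonneg (x i))).mp hCsum i
      (Finset.mem_compl.mpr hi)
    exact pow_eq_zero_iff (two_ne_zero) |>.mp h
  have hfour : ∀ i ∈ S, x i ^ 2 = 4 := by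
    have h0 : ∑ i ∈ S, (x i ^ 2 - 4) = 0 := by
      rw [Finset.sum_sub_distrib, hSsum, Finset.sum_const, hS8]
      norm_num
    intro i hi
    have := (Finset.sum_eq_zero_iff_of_nonneg (fun i hi => by have := hge i hi; omega)).mp h0 i hi
    omega
  have hpm : ∀ i ∈ S, x i = 2 ∨ x i = -2 := by
    intro i hi
    have h : (x i - 2) * (x i + 2) = 0 := by
      have := hfour i hi
      nlinarith
    rcases mul_eq_zero.mp h with h | h
    · left; omega
    · right; omega
  have hoct : S ∈ octads := ⟨hSg, hS8⟩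
  have hEsub : S.filter (fun i => x i = -2) ⊆ S := Finset.filter_subset _ _
  have hEeven : ∃ n, (S.filter (fun i => x i = -2)).card = 2 * n := by
    have hs1 : ∑ i, x i = ∑ i ∈ S, x i := by
      rw [← Finset.sum_add_sum_compl S]
      rw [Finset.sum_eq_zero (s := Sᶜ) (fun i hi => hzero i (Finset.mem_compl.mp hi)), add_zero]
    have hs2 : ∑ i ∈ S, x i = ∑ i ∈ S, (2 - 4 * (if x i = -2 then (1 : ℤ) else 0)) := by
      apply Finset.sum_congr rfl
      intro i hi
      rcases hpm i hi with h | h <;> rw [h] <;> norm_num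
    have hs3 : ∑ i ∈ S, (2 - 4 * (if x i = -2 then (1 : ℤ) else 0)) =
        16 - 4 * ((S.filter (fun i => x i = -2)).card : ℤ) := by
      rw [Finset.sum_sub_distrib, Finset.sum_const, ← Finset.mul_sum, hS8, Finset.card_filter]
      push_cast
      norm_num
    rw [hs1, hs2, hs3] at hsum8
    refine ⟨(S.filter (fun i => x i = -2)).card / 2, ?_⟩
    omega
  obtain ⟨n, hn2⟩ := hEeven
  obtain ⟨c, hc, hcE⟩ := exists_inter_eq hoct n _ hEsub hn2
  have hy : ORel crossSub x (octRep S) := by
    apply orel_sign (sign_mem_crossSub c hc) hx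
    intro q
    unfold octRep
    by_cases hq : q ∈ S
    · rw [if_pos hq]
      have hqc : q ∈ c ↔ x q = -2 := by
        have : q ∈ c ∩ S ↔ q ∈ S.filter (fun i => x i = -2) := by rw [hcE]
        rw [Finset.mem_inter, Finset.mem_filter] at this
        tauto
      by_cases hm : q ∈ c
      · rw [if_pos hm, hqc.mp hm]
        norm_num
      · rw [if_neg hm]
        rcases hpm q hq with h | h
        · exact h.symm
        · exact absurd (hqc.mpr h) hm
    · rw [if_neg hq, hzero q hq]
      split_ifs <;> rfl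
  obtain ⟨g, hg⟩ := Cfsg.Agent.S0367.result S O0f hoct O0f_mem
  refine hy.trans (orel_perm (perm_mem_crossSub g.1 g.2) hy.mem_right ?_)
  intro q
  unfold octRep
  have hiff : (g : Equiv.Perm GolayPt) q ∈ O0f ↔ q ∈ S := by
    rw [← hg]
    exact Finset.smul_mem_smul_finset_iff g
  by_cases hq : q ∈ S
  · rw [if_pos hq, if_pos (hiff.mpr hq)]
  · rw [if_neg hq, if_neg (fun h => hq (hiff.mp h))]

/-! ### Census of the minimal vectors by shape -/

theorem popc_zero_bit {μ : ℕ} (h : popc μ = 0) (i : GolayPt) : bitZ μ i = 0 := by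
  unfold bitZ
  have hb : bitSet μ = ∅ := Finset.card_eq_zero.mp (by rw [card_bitSet, h])
  have hn : ¬ μ.testBit (idx i) = true := fun hi => by
    have hm : i ∈ bitSet μ := (mem_bitSet μ i).mpr hi
    rw [hb] at hm
    exact Finset.notMem_empty _ hm
  rw [if_neg hn]

/-- The minimal vectors with odd coordinates. -/
def oddSet : Set (GolayPt → ℤ) := {x | x ∈ leechLattice ∧ sqNorm x = 32 ∧ x none % 2 = 1}

/-- The minimal vectors with all coordinates divisible by 4. -/
def fourSet : Set (GolayPt → ℤ) := {x | x ∈ leechLattice ∧ sqNorm x = 32 ∧ ∀ i, x i % 4 = 0}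

theorem card_oddSet : oddSet.ncard = 98304 := by
  classical
  have h := census_card (par := 1) (by norm_num) (N := 32) (by norm_num) oddSet (fun _ => 24)
    (fun x hx => ⟨hx.1, by exact_mod_cast hx.2.1, by exact_mod_cast hx.2.2⟩)
    (fun μ hμ => by
      rw [Finset.filter_true_of_mem, card_classSet (by norm_num) μ (by norm_num)]
      · rcases popc_cases hμ with h | h | h | h | h <;> rw [h]
        exacts [kc_1_0.1, kc_1_8.1, kc_1_12.1, kc_1_16.1, kc_1_24.1]
      · intro x hx
        obtain ⟨h1, h2, h3⟩ := (mem_classSet (by norm_num) μ (by norm_num) x).mp hx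
        refine ⟨mem_LL_of_class (by norm_num) hμ (by norm_num) hx, by exact_mod_cast h3, ?_⟩
        have := h1 none
        rcases bitZ_cases μ none with ⟨-, hz⟩ | ⟨-, hz⟩ <;> rw [hz] at this <;>
          push_cast at this <;> omega)
  rw [h]

theorem card_fourSet : fourSet.ncard = 1104 := by
  classical
  have h := census_card (par := 0) (by norm_num) (N := 32) (by norm_num) fourSet
    (fun t => if t = 0 then 1104 else 0)
    (fun x hx => ⟨hx.1, by exact_mod_cast hx.2.1, by
      have := hx.2.2 none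
      push_cast
      omega⟩)
    (fun μ hμ => by
      show _ = if popc μ = 0 then 1104 else 0
      by_cases h0 : popc μ = 0
      · rw [if_pos h0, Finset.filter_true_of_mem, card_classSet (by norm_num) μ (by norm_num), h0]
        · exact kc_0_0.1
        · intro x hx
          obtain ⟨h1, h2, h3⟩ := (mem_classSet (by norm_num) μ (by norm_num) x).mp hx
          refine ⟨mem_LL_of_class (by norm_num) hμ (by norm_num) hx, by exact_mod_cast h3, ?_⟩
          intro i
          have := h1 i
          rw [popc_zero_bit h0 i] at this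
          push_cast at this
          omega
      · rw [if_neg h0, Finset.card_eq_zero, Finset.filter_eq_empty_iff]
        intro x hx hxF
        obtain ⟨h1, h2, h3⟩ := (mem_classSet (by norm_num) μ (by norm_num) x).mp hx
        apply h0
        rw [← card_bitSet, Finset.card_eq_zero, Finset.eq_empty_iff_forall_notMem]
        intro i hi
        have a := h1 i
        have b := hxF.2.2 i
        rcases bitZ_cases μ i with ⟨hb, hz⟩ | ⟨hb, hz⟩
        · rw [hz] at a
          push_cast at a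
          omega
        · rw [mem_bitSet, hb] at hi
          exact absurd hi (by decide))
  rw [h]
  norm_num

end Cfsg.Agent.Lib.Helper10
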