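import Cfsg.Agent.Lib.Helper10.CrossMax1

/-! # A subgroup properly containing the stabiliser of the standard cross is transitive on the
minimal vectors -/

set_option autoImplicit false

namespace Cfsg.Agent.Lib.Helper10

open Cfsg Cfsg.Agent.Lib.Helper9

/-- `± 4 e_k ± 4 e_p` is in the lattice. -/
theorem four_pair_mem {k p : GolayPt} (hkp : k ≠ p) {s t : ℤ} (hs : s = 4 ∨ s = -4)
    (ht : t = 4 ∨ t = -4) : (Pi.single k s + Pi.single p t : GolayPt → ℤ) ∈ leechLattice := by
  obtain ⟨σ, hσ, h1, h2⟩ := m24_trans2 (show (none : GolayPt) ≠ some 0 by simp) hkp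
  have e : ((permPerm σ hσ ⟨_, vecT0_mem⟩ : leechLattice) : GolayPt → ℤ) =
      Pi.single k 4 + Pi.single p 4 := by
    rw [permPerm_coe, signedPerm_add, mono_single, mono_single, h1, h2]
  have hb : (Pi.single k 4 + Pi.single p 4 : GolayPt → ℤ) ∈ leechLattice := by
    rw [← e]
    exact (permPerm σ hσ ⟨_, vecT0_mem⟩).2
  have hk : (Pi.single k 8 : GolayPt → ℤ) ∈ leechLattice := (axisVec k).2
  have hp : (Pi.single p 8 : GolayPt → ℤ) ∈ leechLattice := (axisVec p).2
  have e1 : (Pi.single k (-4) + Pi.single p 4 : GolayPt → ℤ) =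
      Pi.single k 4 + Pi.single p 4 - Pi.single k 8 := by
    rw [add_sub_right_comm, ← Pi.single_sub]
    norm_num
  have e2 : (Pi.single k 4 + Pi.single p (-4) : GolayPt → ℤ) =
      Pi.single k 4 + Pi.single p 4 - Pi.single p 8 := by
    rw [add_sub_assoc, ← Pi.single_sub]
    norm_num
  have e3 : (Pi.single k (-4) + Pi.single p (-4) : GolayPt → ℤ) =
      Pi.single k 4 + Pi.single p 4 - Pi.single k 8 - Pi.single p 8 := by
    rw [add_sub_right_comm, ← Pi.single_sub, add_sub_assoc, ← Pi.single_sub]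
    norm_num
  rcases hs with rfl | rfl <;> rcases ht with rfl | rfl
  · exact hb
  · rw [e2]
    exact leechLattice.sub_mem hb hp
  · rw [e1]
    exact leechLattice.sub_mem hb hk
  · rw [e3]
    exact leechLattice.sub_mem (leechLattice.sub_mem hb hk) hp

theorem four_pair_fourSet {k p : GolayPt} (hkp : k ≠ p) {s t : ℤ} (hs : s = 4 ∨ s = -4)
    (ht : t = 4 ∨ t = -4) : (Pi.single k s + Pi.single p t : GolayPt → ℤ) ∈ fourSet := by
  refine ⟨four_pair_mem hkp hs ht, ?_, ?_⟩
  · rw [sqNorm_add, sqNorm_single, sqNorm_single, dotInt_single, Pi.single_eq_of_ne hkp.symm]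
    rcases hs with rfl | rfl <;> rcases ht with rfl | rfl <;> norm_num
  · intro i
    rw [Pi.add_apply, Pi.single_apply, Pi.single_apply]
    rcases hs with rfl | rfl <;> rcases ht with rfl | rfl <;> split_ifs <;> norm_num

/-- An automorphism that, with its inverse, maps the minimal vectors with coordinates divisible
by 4 among themselves preserves the standard cross. -/
theorem cross_of_four {g : ↥Co0}
    (hg : ∀ a : leechLattice, (a : GolayPt → ℤ) ∈ fourSet →
      ((g • a : leechLattice) : GolayPt → ℤ) ∈ fourSet)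
    (hg' : ∀ a : leechLattice, (a : GolayPt → ℤ) ∈ fourSet →
      ((g⁻¹ • a : leechLattice) : GolayPt → ℤ) ∈ fourSet) : g ∈ crossSub := by
  classical
  intro v hv
  obtain ⟨i, s, hs, hvs⟩ := hv
  obtain ⟨j, hj⟩ : ∃ j : GolayPt, i ≠ j := by
    by_cases hi : i = none
    · exact ⟨some 0, by rw [hi]; simp⟩
    · exact ⟨none, hi⟩
  have hs2 : s / 2 = 4 ∨ s / 2 = -4 := by rcases hs with rfl | rfl <;> norm_num
  have hz4 : ∀ q, ((g • v : leechLattice) : GolayPt → ℤ) q % 4 = 0 := by
    have hsum : v = (⟨_, four_pair_mem hj hs2 (Or.inl rfl)⟩ : leechLattice) +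
        ⟨_, four_pair_mem hj hs2 (Or.inr rfl)⟩ := by
      apply Subtype.ext
      show (v : GolayPt → ℤ) = (Pi.single i (s / 2) + Pi.single j 4) +
        (Pi.single i (s / 2) + Pi.single j (-4))
      rw [hvs]
      funext q
      simp only [Pi.add_apply, Pi.single_apply]
      rcases hs with rfl | rfl <;> split_ifs <;> norm_num
    have e : g • v = g • (⟨_, four_pair_mem hj hs2 (Or.inl rfl)⟩ : leechLattice) +
        g • (⟨_, four_pair_mem hj hs2 (Or.inr rfl)⟩ : leechLattice) := by
      conv_lhs => rw [hsum]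
      exact g.2.1 _ _
    intro q
    have a1 := (hg ⟨_, four_pair_mem hj hs2 (Or.inl rfl)⟩
      (four_pair_fourSet hj hs2 (Or.inl rfl))).2.2 q
    have a2 := (hg ⟨_, four_pair_mem hj hs2 (Or.inr rfl)⟩
      (four_pair_fourSet hj hs2 (Or.inr rfl))).2.2 q
    rw [e]
    show (((g • (⟨_, four_pair_mem hj hs2 (Or.inl rfl)⟩ : leechLattice) : leechLattice) :
      GolayPt → ℤ) q + ((g • (⟨_, four_pair_mem hj hs2 (Or.inr rfl)⟩ : leechLattice) :
      leechLattice) : GolayPt → ℤ) q) % 4 = 0
    omega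
  have hzn : sqNorm ((g • v : leechLattice) : GolayPt → ℤ) = 64 := by
    show sqNorm ((g.1 v : leechLattice) : GolayPt → ℤ) = 64
    rw [g.2.2, hvs, sqNorm_single]
    rcases hs with rfl | rfl <;> norm_num
  have hdot : ∀ d : leechLattice, (d : GolayPt → ℤ) ∈ fourSet →
      (32 : ℤ) ∣ dotInt ((g • v : leechLattice) : GolayPt → ℤ) (d : GolayPt → ℤ) := by
    intro d hd
    have e := co0_dot g.2 v (g⁻¹ • d)
    have e2 : g.1 (g⁻¹ • d) = d := by
      show g • (g⁻¹ • d) = d
      rw [smul_inv_smul]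
    rw [e2] at e
    show (32 : ℤ) ∣ dotInt ((g.1 v : leechLattice) : GolayPt → ℤ) (d : GolayPt → ℤ)
    rw [e, hvs, dotInt_comm, dotInt_single]
    have h4 := (hg' d hd).2.2 i
    rcases hs with rfl | rfl <;> omega
  generalize ((g • v : leechLattice) : GolayPt → ℤ) = z at hz4 hzn hdot ⊢
  have hall8 : ∀ k, z k % 8 = 0 := by
    intro k
    by_contra hk
    have hk4 : z k % 8 = 4 := by
      have := hz4 k
      omega
    have hp : ∃ p, p ≠ k ∧ z p % 8 = 0 := by
      by_contra hcon
      push Not at hcon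
      have hge : ∀ q ∈ (Finset.univ : Finset GolayPt), 16 ≤ z q ^ 2 := by
        intro q _
        have h8 : z q % 8 = 4 := by
          by_cases hq : q = k
          · rw [hq]
            exact hk4
          · have := hcon q hq
            have := hz4 q
            omega
        have h : z q ≤ -4 ∨ 4 ≤ z q := by omega
        rcases h with h | h <;> nlinarith
      have hc := Finset.card_nsmul_le_sum Finset.univ (fun q => z q ^ 2) 16 hge
      rw [card_golayPt] at hc
      have hc' : (24 : ℤ) * 16 ≤ sqNorm z := by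
        have h24 : ((24 : ℕ) • (16 : ℤ)) ≤ ∑ q, z q ^ 2 := hc
        rw [nsmul_eq_mul] at h24
        exact_mod_cast h24
      omega
    obtain ⟨p, hpk, hp8⟩ := hp
    have hd := hdot ⟨_, four_pair_mem hpk.symm (Or.inl rfl) (Or.inl rfl)⟩
      (four_pair_fourSet hpk.symm (Or.inl rfl) (Or.inl rfl))
    have hd' : (32 : ℤ) ∣ dotInt z (Pi.single k 4 + Pi.single p 4) := hd
    rw [dotInt_add_right, dotInt_single, dotInt_single] at hd'
    omega
  have hne : ∃ k, z k ≠ 0 := by
    by_contra hcon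
    push Not at hcon
    have h0 : sqNorm z = 0 := by
      unfold sqNorm
      exact Finset.sum_eq_zero (fun q _ => by rw [hcon q]; norm_num)
    omega
  obtain ⟨k, hk⟩ := hne
  have hk64 : 64 ≤ z k ^ 2 := by
    have := hall8 k
    have h : z k ≤ -8 ∨ 8 ≤ z k := by omega
    rcases h with h | h <;> nlinarith
  have hsplit : sqNorm z = z k ^ 2 + ∑ q ∈ Finset.univ.erase k, z q ^ 2 := by
    exact (Finset.add_sum_erase Finset.univ (fun q => z q ^ 2) (Finset.mem_univ k)).symm
  have hnn : 0 ≤ ∑ q ∈ Finset.univ.erase k, z q ^ 2 := Finset.sum_nonneg (fun q _ => sq_nonneg _)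
  have hrest : ∑ q ∈ Finset.univ.erase k, z q ^ 2 = 0 := by omega
  have hzero : ∀ q, q ≠ k → z q = 0 := by
    intro q hq
    have h := (Finset.sum_eq_zero_iff_of_nonneg (fun q _ => sq_nonneg (z q))).mp hrest q
      (Finset.mem_erase.mpr ⟨hq, Finset.mem_univ q⟩)
    exact pow_eq_zero_iff (two_ne_zero) |>.mp h
  have hk8 : z k = 8 ∨ z k = -8 := by
    have h64 : z k ^ 2 = 64 := by omega
    have h : (z k - 8) * (z k + 8) = 0 := by nlinarith
    rcases mul_eq_zero.mp h with h | h
    · left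
      omega
    · right
      omega
  refine ⟨k, z k, hk8, ?_⟩
  funext q
  by_cases hq : q = k
  · rw [hq, Pi.single_eq_same]
  · rw [Pi.single_eq_of_ne hq, hzero q hq]

/-! ### Transitivity on the minimal vectors -/

/-- The base minimal vector `(4, 4, 0, …, 0)`. -/
def w0 : leechLattice := ⟨Pi.single none 4 + Pi.single (some 0) 4, vecT0_mem⟩

theorem w0_coe : (w0 : GolayPt → ℤ) = Spor.vecU := vecU_eq.symm

theorem w0_four : (w0 : GolayPt → ℤ) ∈ fourSet :=
  four_pair_fourSet (by simp) (Or.inl rfl) (Or.inl rfl)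

theorem shape_cases {x : GolayPt → ℤ} (hx : x ∈ leechLattice) :
    x none % 2 = 1 ∨ (∃ i, x i % 4 = 2) ∨ ∀ i, x i % 4 = 0 := by
  by_cases hodd : x none % 2 = 1
  · exact Or.inl hodd
  · by_cases h2 : ∃ i, x i % 4 = 2
    · exact Or.inr (Or.inl h2)
    · refine Or.inr (Or.inr ?_)
      intro i
      obtain ⟨par, hpar, μ, hμ, hmod, -⟩ :=
        (mem_leechSet_struct x).mp ((mem_leechLattice_iff x).mp hx)
      have hp0 : par = 0 := by
        have := hmod none
        rcases bitZ_cases μ none with ⟨-, hz⟩ | ⟨-, hz⟩ <;> rw [hz] at this <;> omega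
      subst hp0
      have h3 : x i % 4 ≠ 2 := fun h => h2 ⟨i, h⟩
      have := hmod i
      rcases bitZ_cases μ i with ⟨-, hz⟩ | ⟨-, hz⟩ <;> rw [hz] at this <;> omega

/-- The minimal vectors, as lattice elements. -/
def minL : Set leechLattice := {x | sqNorm (x : GolayPt → ℤ) = 32}

/-- The minimal vectors with odd coordinates, as lattice elements. -/
def oddL : Set leechLattice :=
  {x | sqNorm (x : GolayPt → ℤ) = 32 ∧ (x : GolayPt → ℤ) none % 2 = 1}

/-- The minimal vectors with coordinates divisible by 4, as lattice elements. -/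
def fourL : Set leechLattice :=
  {x | sqNorm (x : GolayPt → ℤ) = 32 ∧ ∀ i, (x : GolayPt → ℤ) i % 4 = 0}

theorem card_minL : minL.ncard = 196560 := by
  unfold minL
  rw [ncard_lattice_set (fun t => sqNorm t = 32)]
  exact leech_count_32

theorem card_oddL : oddL.ncard = 98304 := by
  unfold oddL
  rw [ncard_lattice_set (fun t => sqNorm t = 32 ∧ t none % 2 = 1)]
  exact card_oddSet

theorem card_fourL : fourL.ncard = 1104 := by
  unfold fourL
  rw [ncard_lattice_set (fun t => sqNorm t = 32 ∧ ∀ i, t i % 4 = 0)]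
  exact card_fourSet

theorem orbit_closed {L K : Subgroup ↥Co0} (hL : K ≤ L) {x y b : leechLattice}
    (hx : x ∈ MulAction.orbit L b)
    (h : ORel K (x : GolayPt → ℤ) (y : GolayPt → ℤ)) : y ∈ MulAction.orbit L b := by
  obtain ⟨g, hg, rfl⟩ := (orel_iff x y).mp h
  obtain ⟨l, rfl⟩ := hx
  exact ⟨⟨g, hL hg⟩ * l, mul_smul (⟨g, hL hg⟩ : ↥L) l b⟩

/-- A subgroup properly containing the stabiliser of the standard cross is transitive on the
minimal vectors. -/
theorem orbit_of_gt {L : Subgroup ↥Co0} (hL : crossSub < L) : MulAction.orbit L w0 = minL := by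
  have hw : w0 ∈ MulAction.orbit L w0 := MulAction.mem_orbit_self w0
  have hn32 : MulAction.orbit L w0 ⊆ minL := by
    rintro _ ⟨l, rfl⟩
    show sqNorm ((l.1.1 w0 : leechLattice) : GolayPt → ℤ) = 32
    rw [l.1.2.2]
    exact w0_four.2.1
  have hfourΩ : ∀ x : leechLattice, (x : GolayPt → ℤ) ∈ fourSet → x ∈ MulAction.orbit L w0 := by
    intro x hx
    have h1 := orel_shape1 hx.1 hx.2.1 hx.2.2
    rw [← w0_coe] at h1
    exact orbit_closed hL.le hw h1.symm
  have hout : ∃ x ∈ MulAction.orbit L w0, (x : GolayPt → ℤ) ∉ fourSet := by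
    by_contra hcon
    push Not at hcon
    apply not_le_of_gt hL
    have key : ∀ g : ↥Co0, g ∈ L → ∀ a : leechLattice, (a : GolayPt → ℤ) ∈ fourSet →
        ((g • a : leechLattice) : GolayPt → ℤ) ∈ fourSet := by
      intro g hgL a ha
      obtain ⟨l, rfl⟩ := hfourΩ a ha
      exact hcon _ ⟨⟨g, hgL⟩ * l, mul_smul (⟨g, hgL⟩ : ↥L) l w0⟩
    intro g hgL
    exact cross_of_four (key g hgL) (key g⁻¹ (L.inv_mem hgL))
  obtain ⟨x0, hx0Ω, hx0⟩ := hout
  have hodd : (∃ x ∈ MulAction.orbit L w0, (x : GolayPt → ℤ) none % 2 = 1) →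
      ∀ y : leechLattice, y ∈ oddL → y ∈ MulAction.orbit L w0 := by
    rintro ⟨x, hxΩ, hx⟩ y ⟨hy, hy1⟩
    exact orbit_closed hL.le hxΩ
      ((orel_shape3 x.2 (hn32 hxΩ) hx).trans (orel_shape3 y.2 hy hy1).symm)
  have heven : (∃ x ∈ MulAction.orbit L w0, ∃ i, (x : GolayPt → ℤ) i % 4 = 2) →
      ∀ y : leechLattice, y ∈ minL → (∃ i, (y : GolayPt → ℤ) i % 4 = 2) →
        y ∈ MulAction.orbit L w0 := by
    rintro ⟨x, hxΩ, i, hx⟩ y hy ⟨j, hy2⟩
    exact orbit_closed hL.le hxΩ
      ((orel_shape2 x.2 (hn32 hxΩ) hx).trans (orel_shape2 y.2 hy hy2).symm)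
  have hcardL := card_eq_orbit_mul_stab' L w0
  have hdvd : (MulAction.orbit L w0).ncard ∣ 8315553613086720000 := by
    rw [← card_co0]
    exact (Dvd.intro _ hcardL.symm).trans (Subgroup.card_subgroup_dvd_card L)
  have hfinT : minL.Finite := Set.finite_of_ncard_ne_zero (by rw [card_minL]; norm_num)
  have hfinO : oddL.Finite := Set.finite_of_ncard_ne_zero (by rw [card_oddL]; norm_num)
  have hfinF : fourL.Finite := Set.finite_of_ncard_ne_zero (by rw [card_fourL]; norm_num)
  generalize MulAction.orbit L w0 = Ω at hw hn32 hfourΩ hx0Ω hodd heven hdvd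
  by_cases h3 : ∃ x ∈ Ω, (x : GolayPt → ℤ) none % 2 = 1
  · by_cases h2 : ∃ x ∈ Ω, ∃ i, (x : GolayPt → ℤ) i % 4 = 2
    · apply Set.Subset.antisymm hn32
      intro y hy
      rcases shape_cases y.2 with h | h | h
      · exact hodd h3 y ⟨hy, h⟩
      · exact heven h2 y hy h
      · exact hfourΩ y ⟨y.2, hy, h⟩
    · exfalso
      have hΩeq : Ω = fourL ∪ oddL := by
        ext y
        constructor
        · intro hy
          rcases shape_cases y.2 with h | h | h
          · exact Or.inr ⟨hn32 hy, h⟩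
          · exact absurd ⟨y, hy, h⟩ h2
          · exact Or.inl ⟨hn32 hy, h⟩
        · rintro (⟨hy, h⟩ | hy)
          · exact hfourΩ y ⟨y.2, hy, h⟩
          · exact hodd h3 y hy
      have hdisj : Disjoint fourL oddL := by
        rw [Set.disjoint_left]
        rintro y ⟨-, h4⟩ ⟨-, h1⟩
        have := h4 none
        omega
      rw [hΩeq, Set.ncard_union_eq hdisj hfinF hfinO, card_fourL, card_oddL] at hdvd
      norm_num at hdvd
  · by_cases h2 : ∃ x ∈ Ω, ∃ i, (x : GolayPt → ℤ) i % 4 = 2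
    · exfalso
      have hΩeq : minL = Ω ∪ oddL := by
        ext y
        constructor
        · intro hy
          rcases shape_cases y.2 with h | h | h
          · exact Or.inr ⟨hy, h⟩
          · exact Or.inl (heven h2 y hy h)
          · exact Or.inl (hfourΩ y ⟨y.2, hy, h⟩)
        · rintro (hy | ⟨hy, -⟩)
          · exact hn32 hy
          · exact hy
      have hdisj : Disjoint Ω oddL := by
        rw [Set.disjoint_left]
        rintro y hy ⟨-, h1⟩
        exact h3 ⟨y, hy, h1⟩
      have hc := Set.ncard_union_eq hdisj (hfinT.subset hn32) hfinO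
      rw [← hΩeq, card_minL, card_oddL] at hc
      have h98 : Ω.ncard = 98256 := by omega
      rw [h98] at hdvd
      norm_num at hdvd
    · exfalso
      rcases shape_cases x0.2 with h | h | h
      · exact h3 ⟨x0, hx0Ω, h⟩
      · exact h2 ⟨x0, hx0Ω, h⟩
      · exact hx0 ⟨x0.2, hn32 hx0Ω, h⟩

end Cfsg.Agent.Lib.Helper10
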