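import Cfsg.Agent.Lib.Helper10.CrossMax2

/-! # Orbits of the monomial stabiliser of `(4, 4, 0, …)` on the minimal vectors with inner
product `-16` -/

set_option autoImplicit false

namespace Cfsg.Agent.Lib.Helper10

open Cfsg Cfsg.Agent.Lib.Helper9

/-- The stabiliser of `(4, 4, 0, …)` in the stabiliser of the standard cross. -/
def kSub : Subgroup ↥Co0 := crossSub ⊓ MulAction.stabilizer ↥Co0 w0

theorem perm_mem_kSub {σ : Equiv.Perm GolayPt} (hσ : σ ∈ M24)
    (h : (σ none = none ∧ σ (some 0) = some 0) ∨ (σ none = some 0 ∧ σ (some 0) = none)) :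
    permEl σ hσ ∈ kSub := by
  refine ⟨perm_mem_crossSub σ hσ, ?_⟩
  show permEl σ hσ • w0 = w0
  apply Subtype.ext
  show ((permPerm σ hσ w0 : leechLattice) : GolayPt → ℤ) = (w0 : GolayPt → ℤ)
  rw [permPerm_coe]
  show signedPerm σ ∅ (Pi.single none 4 + Pi.single (some 0) 4) =
    Pi.single none 4 + Pi.single (some 0) 4
  rw [signedPerm_add, mono_single, mono_single]
  rcases h with ⟨h1, h2⟩ | ⟨h1, h2⟩
  · rw [h1, h2]
  · rw [h1, h2, add_comm]

theorem sign_mem_kSub {c : Finset GolayPt} (hc : c ∈ gsup) (h1 : none ∉ c)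
    (h2 : (some 0 : GolayPt) ∉ c) : signEl c hc ∈ kSub := by
  refine ⟨sign_mem_crossSub c hc, ?_⟩
  show signEl c hc • w0 = w0
  apply Subtype.ext
  show signVec c (Pi.single none 4 + Pi.single (some 0) 4) =
    Pi.single none 4 + Pi.single (some 0) 4
  funext q
  rw [signVec_apply]
  by_cases hq : q ∈ c
  · have e1 : q ≠ none := fun h => h1 (h ▸ hq)
    have e2 : q ≠ some 0 := fun h => h2 (h ▸ hq)
    rw [if_pos hq, Pi.add_apply, Pi.single_eq_of_ne e1, Pi.single_eq_of_ne e2]
    norm_num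
  · rw [if_neg hq]

theorem coord_sq_le {x : GolayPt → ℤ} (hn : sqNorm x = 32) (i : GolayPt) : x i ^ 2 ≤ 32 := by
  have h1 : x i ^ 2 ≤ sqNorm x :=
    Finset.single_le_sum (f := fun j => x j ^ 2) (fun j _ => sq_nonneg (x j)) (Finset.mem_univ i)
  rw [hn] at h1
  exact h1

/-! ### Coordinates divisible by 4 -/

/-- The vector `(-4, 0, 4, 0, …)`. -/
def yRep1 : GolayPt → ℤ := Pi.single none (-4) + Pi.single (some 1) 4

theorem c1_mem : support₂ (dec 525274) ∈ gsup :=
  ⟨dec 525274, dec_mem_golay (mem_sums_of_inCode (by decide +kernel)), rfl⟩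

theorem y4_base {y : GolayPt → ℤ} (hy : y ∈ leechLattice) (hn : sqNorm y = 32)
    (h1 : y none = -4) (h0 : y (some 0) = 0) : ORel kSub y yRep1 := by
  have hneg : -y ∈ leechLattice := leechLattice.neg_mem hy
  obtain ⟨j, hj, s, hs, e⟩ := min_four hneg (by rw [sqNorm_neg, hn])
    (by rw [Pi.neg_apply, h1]; norm_num)
  have ey : y = Pi.single none (-4) + Pi.single j (-s) := by
    have h2 : y = -(-y) := (neg_neg y).symm
    rw [h2, e, neg_add, ← Pi.single_neg, ← Pi.single_neg]
  have hj0 : j ≠ some 0 := by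
    rintro rfl
    rw [ey, Pi.add_apply, Pi.single_eq_of_ne (show (some 0 : GolayPt) ≠ none by simp),
      Pi.single_eq_same] at h0
    rcases hs with rfl | rfl <;> omega
  obtain ⟨σ, hσ, s1, s2, s3⟩ := m24_trans3 (p := none) (p' := some 0) (p'' := j) (q := none)
    (q' := some 0) (q'' := some 1) (by simp) (Ne.symm hj) (Ne.symm hj0) (by simp) (by simp)
    (by decide)
  have step1 : ORel kSub y (Pi.single none (-4) + Pi.single (some 1) (-s)) := by
    apply orel_perm (perm_mem_kSub hσ (Or.inl ⟨s1, s2⟩)) hy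
    intro q
    rw [ey]
    have e1 : σ q = none ↔ q = none :=
      ⟨fun h => σ.injective (h.trans s1.symm), fun h => by rw [h, s1]⟩
    have e2 : σ q = some 1 ↔ q = j :=
      ⟨fun h => σ.injective (h.trans s3.symm), fun h => by rw [h, s3]⟩
    simp only [Pi.add_apply, Pi.single_apply, e1, e2]
  rcases hs with rfl | rfl
  · refine step1.trans (orel_sign (sign_mem_kSub c1_mem ?_ ?_) step1.mem_right ?_)
    · rw [mem_supp_dec]
      decide
    · rw [mem_supp_dec]
      decide
    · intro q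
      unfold yRep1
      simp only [Pi.add_apply, Pi.single_apply]
      by_cases hq1 : q = some 1
      · subst hq1
        have hm : (some 1 : GolayPt) ∈ support₂ (dec 525274) := (mem_supp_dec _ _).mpr (by decide)
        rw [if_pos hm]
        simp
      · by_cases hq : q = none
        · subst hq
          have hm : (none : GolayPt) ∉ support₂ (dec 525274) := by
            rw [mem_supp_dec]
            decide
          rw [if_neg hm]
          simp
        · simp [hq, hq1]
  · have h4 : (-(-4 : ℤ)) = 4 := by norm_num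
    rw [h4] at step1
    exact step1

theorem y4_rel {y : GolayPt → ℤ} (hy : y ∈ leechLattice) (hn : sqNorm y = 32)
    (hs : y none + y (some 0) = -4) (h4 : ∀ i, y i % 4 = 0) : ORel kSub y yRep1 := by
  have b1 : y none ^ 2 ≤ 32 := coord_sq_le hn none
  have b0 : y (some 0) ^ 2 ≤ 32 := coord_sq_le hn (some 0)
  have c1 : -6 < y none ∧ y none < 6 := by constructor <;> nlinarith
  have c0 : -6 < y (some 0) ∧ y (some 0) < 6 := by constructor <;> nlinarith
  have a1 := h4 none
  have a0 := h4 (some 0)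
  have hcase : (y none = -4 ∧ y (some 0) = 0) ∨ (y none = 0 ∧ y (some 0) = -4) := by omega
  rcases hcase with ⟨e1, e0⟩ | ⟨e1, e0⟩
  · exact y4_base hy hn e1 e0
  · obtain ⟨τ, hτ, t1, t2⟩ := m24_trans2 (p := none) (p' := some 0) (q := some 0) (q' := none)
      (by simp) (by simp)
    have step : ORel kSub y (fun i => y (τ.symm i)) :=
      orel_perm (perm_mem_kSub hτ (Or.inr ⟨t1, t2⟩)) hy (fun q => by simp)
    refine step.trans (y4_base step.mem_right (by rw [step.norm, hn]) ?_ ?_)
    · show y (τ.symm none) = -4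
      rw [← t2, Equiv.symm_apply_apply]
      exact e0
    · show y (τ.symm (some 0)) = 0
      rw [← t1, Equiv.symm_apply_apply]
      exact e1

/-! ### Coordinates `±2` on an octad -/

/-- The vector with `-2` on a set of points. -/
def yRep2 (S : Finset GolayPt) : GolayPt → ℤ := fun q => if q ∈ S then -2 else 0

theorem y2_rel {y : GolayPt → ℤ} (hy : y ∈ leechLattice) (hn : sqNorm y = 32)
    (hs : y none + y (some 0) = -4) {i0 : GolayPt} (h2 : y i0 % 4 = 2) :
    ∃ S ∈ octads, none ∈ S ∧ (some 0 : GolayPt) ∈ S ∧ ORel kSub y (yRep2 S) := by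
  classical
  obtain ⟨S, hS, hi0, hsq, hout⟩ := min_even hy hn h2
  obtain ⟨-, -, -, -, -, -, hsum8⟩ := even_struct hy h2
  have hpm : ∀ i ∈ S, y i = 2 ∨ y i = -2 := fun i hi => sq_four_cases (hsq i hi)
  have hval : ∀ i, y i = 2 ∨ y i = -2 ∨ y i = 0 := by
    intro i
    by_cases hi : i ∈ S
    · rcases hpm i hi with h | h
      · exact Or.inl h
      · exact Or.inr (Or.inl h)
    · exact Or.inr (Or.inr (hout i hi))
  have e1 : y none = -2 := by
    rcases hval none with h | h | h <;> rcases hval (some 0) with h' | h' | h' <;> omega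
  have e0 : y (some 0) = -2 := by
    rcases hval none with h | h | h <;> rcases hval (some 0) with h' | h' | h' <;> omega
  have hnS : none ∈ S := by
    by_contra h
    have := hout none h
    omega
  have h0S : (some 0 : GolayPt) ∈ S := by
    by_contra h
    have := hout (some 0) h
    omega
  have hEsub : S.filter (fun i => y i = 2) ⊆ S := Finset.filter_subset _ _
  have hEeven : ∃ n, (S.filter (fun i => y i = 2)).card = 2 * n := by
    have hs1 : ∑ i, y i = ∑ i ∈ S, y i := by
      rw [← Finset.sum_add_sum_compl S]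
      rw [Finset.sum_eq_zero (s := Sᶜ) (fun i hi => hout i (Finset.mem_compl.mp hi)), add_zero]
    have hs2 : ∑ i ∈ S, y i = ∑ i ∈ S, (-2 + 4 * (if y i = 2 then (1 : ℤ) else 0)) := by
      apply Finset.sum_congr rfl
      intro i hi
      rcases hpm i hi with h | h <;> rw [h] <;> norm_num
    have hs3 : ∑ i ∈ S, (-2 + 4 * (if y i = 2 then (1 : ℤ) else 0)) =
        -16 + 4 * ((S.filter (fun i => y i = 2)).card : ℤ) := by
      rw [Finset.sum_add_distrib, Finset.sum_const, ← Finset.mul_sum, hS.2, Finset.card_filter]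
      push_cast
      norm_num
    rw [hs1, hs2, hs3] at hsum8
    refine ⟨(S.filter (fun i => y i = 2)).card / 2, ?_⟩
    omega
  obtain ⟨n, hn2⟩ := hEeven
  obtain ⟨c, hc, hcE⟩ := exists_inter_eq hS n _ hEsub hn2
  have hqc : ∀ q ∈ S, (q ∈ c ↔ y q = 2) := by
    intro q hq
    have h3 : q ∈ c ∩ S ↔ q ∈ S.filter (fun i => y i = 2) := by rw [hcE]
    rw [Finset.mem_inter, Finset.mem_filter] at h3
    tauto
  refine ⟨S, hS, hnS, h0S, orel_sign (sign_mem_kSub hc ?_ ?_) hy ?_⟩
  · intro h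
    have := (hqc none hnS).mp h
    omega
  · intro h
    have := (hqc (some 0) h0S).mp h
    omega
  · intro q
    unfold yRep2
    by_cases hq : q ∈ S
    · rw [if_pos hq]
      by_cases hm : q ∈ c
      · rw [if_pos hm, (hqc q hq).mp hm]
      · rw [if_neg hm]
        rcases hpm q hq with h | h
        · exact absurd ((hqc q hq).mpr h) hm
        · exact h.symm
    · rw [if_neg hq, hout q hq]
      split_ifs <;> rfl

theorem yRep2_rel {S S' : Finset GolayPt} (hS : S ∈ octads) (hS' : S' ∈ octads) (h1 : none ∈ S)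
    (h0 : (some 0 : GolayPt) ∈ S) (h1' : none ∈ S') (h0' : (some 0 : GolayPt) ∈ S')
    (hmem : yRep2 S ∈ leechLattice) : ORel kSub (yRep2 S) (yRep2 S') := by
  obtain ⟨σ, hσ, s1, s2, hσS⟩ := oct_trans_two hS hS' h1 h0 (by simp) h1' h0' (by simp)
  apply orel_perm (perm_mem_kSub hσ (Or.inl ⟨s1, s2⟩)) hmem
  intro q
  unfold yRep2
  simp only [hσS q]

/-! ### Odd coordinates -/

/-- The vector with `-3` at the extra point, `-1` on a set of points and `1` elsewhere. -/
def yRep3 (c : Finset GolayPt) : GolayPt → ℤ :=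
  fun q => if q = none then -3 else if q ∈ c then -1 else 1

theorem y3_base {y : GolayPt → ℤ} (hy : y ∈ leechLattice) (hn : sqNorm y = 32)
    (h1 : y none = -3) (h0 : y (some 0) = -1) :
    ∃ c ∈ gsup, none ∉ c ∧ (some 0 : GolayPt) ∈ c ∧ y = yRep3 c := by
  obtain ⟨k, c, hc, hval, hk, -⟩ := odd_struct2 hy hn (i0 := none) (by rw [h1]; decide)
  have hk1 : k = none := by
    by_contra h
    have := hval none (Ne.symm h)
    rw [h1] at this
    split_ifs at this <;> omega
  subst hk1
  have hnc : none ∉ c := by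
    intro h
    rw [if_pos h, h1] at hk
    norm_num at hk
  have h0c : (some 0 : GolayPt) ∈ c := by
    by_contra h
    have := hval (some 0) (by simp)
    rw [if_neg h, h0] at this
    norm_num at this
  refine ⟨c, hc, hnc, h0c, ?_⟩
  funext q
  unfold yRep3
  by_cases hq : q = none
  · rw [if_pos hq, hq, h1]
  · rw [if_neg hq, hval q hq]

theorem yRep3_rel {c c' : Finset GolayPt} (hc : c ∈ gsup) (hc' : c' ∈ gsup) (h1 : none ∉ c)
    (h0 : (some 0 : GolayPt) ∈ c) (h1' : none ∉ c') (h0' : (some 0 : GolayPt) ∈ c')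
    (hmem : yRep3 c ∈ leechLattice) : ORel kSub (yRep3 c) (yRep3 c') := by
  classical
  apply orel_sign (sign_mem_kSub (symmDiff_mem_gsup hc hc') ?_ ?_) hmem
  · intro q
    unfold yRep3
    by_cases hq : q = none
    · subst hq
      rw [if_pos rfl, if_pos rfl, if_neg (by rw [Finset.mem_symmDiff]; tauto)]
    · rw [if_neg hq, if_neg hq]
      by_cases a : q ∈ c <;> by_cases b : q ∈ c' <;> simp [Finset.mem_symmDiff, a, b]
  · rw [Finset.mem_symmDiff]
    tauto
  · rw [Finset.mem_symmDiff]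
    tauto

theorem y3_rel {y : GolayPt → ℤ} (hy : y ∈ leechLattice) (hn : sqNorm y = 32)
    (hs : y none + y (some 0) = -4) (h1 : y none % 2 = 1) :
    ∃ c ∈ gsup, none ∉ c ∧ (some 0 : GolayPt) ∈ c ∧ ORel kSub y (yRep3 c) := by
  obtain ⟨k, hk9, hk1⟩ := min_odd hy hn h1
  have hv : ∀ i, y i = 3 ∨ y i = -3 ∨ y i = 1 ∨ y i = -1 := by
    intro i
    by_cases h : i = k
    · rw [h]
      rcases sq_nine_cases hk9 with h' | h' <;> simp [h']
    · rcases sq_one_cases (hk1 i h) with h' | h' <;> simp [h']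
  have hcase : (y none = -3 ∧ y (some 0) = -1) ∨ (y none = -1 ∧ y (some 0) = -3) := by
    rcases hv none with h | h | h | h <;> rcases hv (some 0) with h' | h' | h' | h' <;> omega
  rcases hcase with ⟨e1, e0⟩ | ⟨e1, e0⟩
  · obtain ⟨c, hc, a1, a2, e⟩ := y3_base hy hn e1 e0
    refine ⟨c, hc, a1, a2, ?_⟩
    rw [← e]
    exact ORel.refl hy
  · obtain ⟨τ, hτ, t1, t2⟩ := m24_trans2 (p := none) (p' := some 0) (q := some 0) (q' := none)
      (by simp) (by simp)
    have step : ORel kSub y (fun i => y (τ.symm i)) :=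
      orel_perm (perm_mem_kSub hτ (Or.inr ⟨t1, t2⟩)) hy (fun q => by simp)
    obtain ⟨c, hc, a1, a2, e⟩ := y3_base step.mem_right (by rw [step.norm, hn])
      (by
        show y (τ.symm none) = -3
        rw [← t2, Equiv.symm_apply_apply]
        exact e0)
      (by
        show y (τ.symm (some 0)) = -1
        rw [← t1, Equiv.symm_apply_apply]
        exact e1)
    refine ⟨c, hc, a1, a2, ?_⟩
    rw [← e]
    exact step

/-! ### The three classes -/

/-- The minimal vectors with inner product `-16` with `w0`. -/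
def yL : Set leechLattice :=
  {y | sqNorm (y : GolayPt → ℤ) = 32 ∧
    dotInt (w0 : GolayPt → ℤ) (y : GolayPt → ℤ) = -16}

theorem yL_sum {y : leechLattice} (hy : y ∈ yL) :
    (y : GolayPt → ℤ) none + (y : GolayPt → ℤ) (some 0) = -4 := by
  have h := hy.2
  rw [show (w0 : GolayPt → ℤ) = Pi.single none 4 + Pi.single (some 0) 4 from rfl, dot_vecT0] at h
  omega

/-- Two vectors of `yL` of the same shape are in one orbit of `kSub`. -/
theorem y_same_shape {y y' : leechLattice} (hy : y ∈ yL) (hy' : y' ∈ yL)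
    (h : ((y : GolayPt → ℤ) none % 2 = 1 ∧ (y' : GolayPt → ℤ) none % 2 = 1) ∨
      ((∃ i, (y : GolayPt → ℤ) i % 4 = 2) ∧ ∃ i, (y' : GolayPt → ℤ) i % 4 = 2) ∨
      ((∀ i, (y : GolayPt → ℤ) i % 4 = 0) ∧ ∀ i, (y' : GolayPt → ℤ) i % 4 = 0)) :
    ∃ g : ↥Co0, g ∈ kSub ∧ g • y = y' := by
  rw [← orel_iff]
  rcases h with ⟨h, h'⟩ | ⟨⟨i, h⟩, ⟨i', h'⟩⟩ | ⟨h, h'⟩
  · obtain ⟨c, hc, a1, a2, r⟩ := y3_rel y.2 hy.1 (yL_sum hy) h
    obtain ⟨c', hc', a1', a2', r'⟩ := y3_rel y'.2 hy'.1 (yL_sum hy') h'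
    exact r.trans ((yRep3_rel hc hc' a1 a2 a1' a2' r.mem_right).trans r'.symm)
  · obtain ⟨S, hS, a1, a2, r⟩ := y2_rel y.2 hy.1 (yL_sum hy) h
    obtain ⟨S', hS', a1', a2', r'⟩ := y2_rel y'.2 hy'.1 (yL_sum hy') h'
    exact r.trans ((yRep2_rel hS hS' a1 a2 a1' a2' r.mem_right).trans r'.symm)
  · exact (y4_rel y.2 hy.1 (yL_sum hy) h).trans (y4_rel y'.2 hy'.1 (yL_sum hy') h').symm

end Cfsg.Agent.Lib.Helper10
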