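import Cfsg.Agent.Lib.Helper10.CrossMax3

/-! # Orders of some stabilisers -/

set_option autoImplicit false

namespace Cfsg.Agent.Lib.Helper10

open Cfsg Cfsg.Agent.Lib.Helper9

theorem finite_co0 : Finite ↥Co0 := Nat.finite_of_card_ne_zero (by rw [card_co0]; norm_num)

theorem orbit_co0_w0 : MulAction.orbit ↥Co0 w0 = minL := by
  ext y
  constructor
  · rintro ⟨g, rfl⟩
    show sqNorm ((g.1 w0 : leechLattice) : GolayPt → ℤ) = 32
    rw [g.2.2]
    exact w0_four.2.1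
  · intro hy
    obtain ⟨g, hg⟩ := trans_norm32 w0 y w0_four.2.1 hy
    exact ⟨g, hg⟩

theorem card_stab_w0 : Nat.card ↥(MulAction.stabilizer ↥Co0 w0) = 42305421312000 := by
  have h1 := Subgroup.index_mul_card (MulAction.stabilizer ↥Co0 w0)
  rw [MulAction.index_stabilizer, orbit_co0_w0, card_minL, card_co0] at h1
  omega

theorem cross_four {g : ↥Co0} (hg : g ∈ crossSub) {x : leechLattice} (hx : x ∈ fourL) :
    g • x ∈ fourL := by
  obtain ⟨σ, hσ, c, hc, hf⟩ := monomial_of_cross g.2 hg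
  refine ⟨?_, ?_⟩
  · show sqNorm ((g.1 x : leechLattice) : GolayPt → ℤ) = 32
    rw [g.2.2]
    exact hx.1
  · intro i
    show ((g.1 x : leechLattice) : GolayPt → ℤ) i % 4 = 0
    rw [hf x]
    unfold signedPerm
    have := hx.2 (σ.symm i)
    split_ifs <;> omega

theorem orbit_cross_w0 : MulAction.orbit ↥crossSub w0 = fourL := by
  ext y
  constructor
  · rintro ⟨g, rfl⟩
    exact cross_four g.2 ⟨w0_four.2.1, w0_four.2.2⟩
  · intro hy
    have h1 := orel_shape1 y.2 hy.1 hy.2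
    rw [← w0_coe] at h1
    obtain ⟨g, hg, e⟩ := (orel_iff w0 y).mp h1.symm
    exact ⟨⟨g, hg⟩, e⟩

theorem card_kSub : Nat.card ↥kSub = 908328960 := by
  have h1 := card_eq_orbit_mul_stab' crossSub w0
  rw [orbit_cross_w0, card_fourL, card_crossSub] at h1
  show Nat.card ↥(crossSub ⊓ MulAction.stabilizer ↥Co0 w0) = 908328960
  omega

theorem card_yL : yL.ncard = 4600 := by
  unfold yL
  rw [ncard_lattice_set (fun t => sqNorm t = 32 ∧ dotInt (w0 : GolayPt → ℤ) t = -16)]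
  exact (Cfsg.Agent.S1573.result (w0 : GolayPt → ℤ) w0.2 w0_four.2.1).1

/-- The minimal vectors with inner product `-8` with `w0`. -/
def xL : Set leechLattice :=
  {y | sqNorm (y : GolayPt → ℤ) = 32 ∧
    dotInt (w0 : GolayPt → ℤ) (y : GolayPt → ℤ) = -8}

theorem card_xL : xL.ncard = 47104 := by
  unfold xL
  rw [ncard_lattice_set (fun t => sqNorm t = 32 ∧ dotInt (w0 : GolayPt → ℤ) t = -8)]
  exact (Cfsg.Agent.S1573.result (w0 : GolayPt → ℤ) w0.2 w0_four.2.1).2.1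

theorem stab_dot {g : ↥Co0} (hg : g ∈ MulAction.stabilizer ↥Co0 w0) (y : leechLattice) :
    dotInt (w0 : GolayPt → ℤ) ((g • y : leechLattice) : GolayPt → ℤ) =
      dotInt (w0 : GolayPt → ℤ) (y : GolayPt → ℤ) := by
  have e := co0_dot g.2 w0 y
  have e2 : g.1 w0 = w0 := hg
  rw [e2] at e
  exact e

theorem stab_yL {g : ↥Co0} (hg : g ∈ MulAction.stabilizer ↥Co0 w0) {y : leechLattice}
    (hy : y ∈ yL) : g • y ∈ yL := by
  refine ⟨?_, ?_⟩
  · show sqNorm ((g.1 y : leechLattice) : GolayPt → ℤ) = 32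
    rw [g.2.2]
    exact hy.1
  · rw [stab_dot hg]
    exact hy.2

theorem orbit_stab_y {y : leechLattice} (hy : y ∈ yL) :
    MulAction.orbit ↥(MulAction.stabilizer ↥Co0 w0) y = yL := by
  ext z
  constructor
  · rintro ⟨g, rfl⟩
    exact stab_yL g.2 hy
  · intro hz
    obtain ⟨g, hg1, hg2⟩ := Cfsg.Agent.S1574.result w0 y z w0_four.2.1 hy.1 hz.1 hy.2 hz.2
    exact ⟨⟨g, hg1⟩, hg2⟩

theorem card_stab_wy {y : leechLattice} (hy : y ∈ yL) :
    Nat.card ↥(MulAction.stabilizer ↥Co0 w0 ⊓ MulAction.stabilizer ↥Co0 y) = 9196830720 := by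
  have h1 := card_eq_orbit_mul_stab' (MulAction.stabilizer ↥Co0 w0) y
  rw [orbit_stab_y hy, card_yL, card_stab_w0] at h1
  omega

/-- The shape of a lattice vector: odd, with a coordinate `2` modulo `4`, or divisible by `4`. -/
noncomputable def shapeOf (x : leechLattice) : Fin 3 :=
  open Classical in
  if (x : GolayPt → ℤ) none % 2 = 1 then 0 else if ∃ i, (x : GolayPt → ℤ) i % 4 = 2 then 1 else 2

theorem shape_rel {a b : leechLattice} (ha : a ∈ yL) (hb : b ∈ yL) (hab : shapeOf a = shapeOf b) :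
    ∃ g : ↥Co0, g ∈ kSub ∧ g • a = b := by
  classical
  apply y_same_shape ha hb
  unfold shapeOf at hab
  by_cases a1 : (a : GolayPt → ℤ) none % 2 = 1
  · by_cases b1 : (b : GolayPt → ℤ) none % 2 = 1
    · exact Or.inl ⟨a1, b1⟩
    · exfalso
      rw [if_pos a1, if_neg b1] at hab
      split_ifs at hab <;> simp at hab
  · by_cases b1 : (b : GolayPt → ℤ) none % 2 = 1
    · exfalso
      rw [if_neg a1, if_pos b1] at hab
      split_ifs at hab <;> simp at hab
    · by_cases a2 : ∃ i, (a : GolayPt → ℤ) i % 4 = 2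
      · by_cases b2 : ∃ i, (b : GolayPt → ℤ) i % 4 = 2
        · exact Or.inr (Or.inl ⟨a2, b2⟩)
        · exfalso
          rw [if_neg a1, if_neg b1, if_pos a2, if_neg b2] at hab
          simp at hab
      · by_cases b2 : ∃ i, (b : GolayPt → ℤ) i % 4 = 2
        · exfalso
          rw [if_neg a1, if_neg b1, if_neg a2, if_pos b2] at hab
          simp at hab
        · refine Or.inr (Or.inr ⟨?_, ?_⟩)
          · rcases shape_cases a.2 with h | h | h
            · exact absurd h a1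
            · exact absurd h a2
            · exact h
          · rcases shape_cases b.2 with h | h | h
            · exact absurd h b1
            · exact absurd h b2
            · exact h

/-- No subgroup of order `47104 * 443520` lies between the monomial stabiliser of `w0` and the
full stabiliser of `w0`. -/
theorem no_small {M : Subgroup ↥Co0} (hK : kSub ≤ M) (hM : M ≤ MulAction.stabilizer ↥Co0 w0)
    (hcard : Nat.card M = 20891566080) : False := by
  classical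
  have hfin := finite_co0
  have hfy : yL.Finite := Set.finite_of_ncard_ne_zero (by rw [card_yL]; norm_num)
  obtain ⟨y1, hy1⟩ : yL.Nonempty := Set.nonempty_of_ncard_ne_zero (by rw [card_yL]; norm_num)
  have hMy : ∀ g : ↥Co0, g ∈ M → ∀ y ∈ yL, g • y ∈ yL := fun g hg y hy => stab_yL (hM hg) hy
  have hΘsub : MulAction.orbit M y1 ⊆ yL := by
    rintro _ ⟨l, rfl⟩
    exact hMy l.1 l.2 y1 hy1
  have hΘinv : ∀ g : ↥Co0, g ∈ M → ∀ t ∈ MulAction.orbit M y1, g • t ∈ MulAction.orbit M y1 := by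
    rintro g hg _ ⟨l, rfl⟩
    exact ⟨⟨g, hg⟩ * l, mul_smul (⟨g, hg⟩ : ↥M) l y1⟩
  have hy1Θ : y1 ∈ MulAction.orbit M y1 := MulAction.mem_orbit_self y1
  have h1 := card_eq_orbit_mul_stab' M y1
  have h2 : Nat.card ↥(M ⊓ MulAction.stabilizer ↥Co0 y1) ∣ 9196830720 := by
    rw [← card_stab_wy hy1]
    exact Subgroup.card_dvd_of_le (inf_le_inf_right _ hM)
  have h23 : 23 ∣ (MulAction.orbit M y1).ncard := by
    have h3 : 23 ∣ (MulAction.orbit M y1).ncard *
        Nat.card ↥(M ⊓ MulAction.stabilizer ↥Co0 y1) := by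
      rw [← h1, hcard]
      norm_num
    rcases (Nat.Prime.dvd_mul (by norm_num)).mp h3 with h | h
    · exact h
    · exfalso
      have h4 := h.trans h2
      norm_num at h4
  have hk23 : ∀ t : leechLattice, ¬ 23 ∣ (MulAction.orbit kSub t).ncard := by
    intro t h
    have h4 := card_eq_orbit_mul_stab' kSub t
    rw [card_kSub] at h4
    have h5 : 23 ∣ 908328960 := h.trans (Dvd.intro _ h4.symm)
    norm_num at h5
  have hne : MulAction.orbit M y1 ≠ yL := by
    intro h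
    rw [h, card_yL, hcard] at h1
    have h5 : 4600 ∣ 20891566080 := Dvd.intro _ h1.symm
    norm_num at h5
  generalize MulAction.orbit M y1 = Θ at hΘsub hΘinv hy1Θ h23 hne
  have hT2card : 23 ∣ (yL \ Θ).ncard := by
    rw [Set.ncard_diff hΘsub (hfy.subset hΘsub), card_yL]
    exact Nat.dvd_sub (by norm_num) h23
  have hT2ne : (yL \ Θ).Nonempty := by
    by_contra h
    rw [Set.not_nonempty_iff_eq_empty, Set.diff_eq_empty] at h
    exact hne (Set.Subset.antisymm hΘsub h)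
  obtain ⟨t2, ht2⟩ := hT2ne
  have hKΘ : ∀ g : ↥Co0, g ∈ kSub → ∀ t ∈ Θ, g • t ∈ Θ := fun g hg t ht => hΘinv g (hK hg) t ht
  have hKT : ∀ g : ↥Co0, g ∈ kSub → ∀ t ∈ yL \ Θ, g • t ∈ yL \ Θ := by
    intro g hg t ht
    refine ⟨hMy g (hK hg) t ht.1, fun h => ht.2 ?_⟩
    have h5 := hKΘ g⁻¹ (kSub.inv_mem hg) _ h
    rwa [inv_smul_smul] at h5
  have ex1 : ∃ t1' ∈ Θ, t1' ∉ MulAction.orbit kSub y1 := by
    by_contra hcon
    push Not at hcon
    have he : MulAction.orbit kSub y1 = Θ := by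
      apply Set.Subset.antisymm
      · rintro _ ⟨k, rfl⟩
        exact hKΘ k.1 k.2 y1 hy1Θ
      · exact hcon
    exact hk23 y1 (he ▸ h23)
  have ex2 : ∃ t2' ∈ yL \ Θ, t2' ∉ MulAction.orbit kSub t2 := by
    by_contra hcon
    push Not at hcon
    have he : MulAction.orbit kSub t2 = yL \ Θ := by
      apply Set.Subset.antisymm
      · rintro _ ⟨k, rfl⟩
        exact hKT k.1 k.2 t2 ht2
      · exact hcon
    exact hk23 t2 (he ▸ hT2card)
  obtain ⟨t1', ht1', hn1⟩ := ex1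
  obtain ⟨t2', ht2', hn2⟩ := ex2
  have R1 : ∀ g : ↥Co0, g ∈ kSub → g • y1 ≠ t1' ∧ g • t1' ≠ y1 := by
    intro g hg
    refine ⟨fun e => hn1 ⟨⟨g, hg⟩, e⟩, fun e => hn1 ⟨⟨g⁻¹, kSub.inv_mem hg⟩, ?_⟩⟩
    show g⁻¹ • y1 = t1'
    rw [← e, inv_smul_smul]
  have R2 : ∀ g : ↥Co0, g ∈ kSub → g • t2 ≠ t2' ∧ g • t2' ≠ t2 := by
    intro g hg
    refine ⟨fun e => hn2 ⟨⟨g, hg⟩, e⟩, fun e => hn2 ⟨⟨g⁻¹, kSub.inv_mem hg⟩, ?_⟩⟩
    show g⁻¹ • t2 = t2'
    rw [← e, inv_smul_smul]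
  have R3 : ∀ g : ↥Co0, g ∈ kSub → ∀ s ∈ Θ, ∀ t ∈ yL \ Θ, g • s ≠ t ∧ g • t ≠ s := by
    intro g hg s hs t ht
    refine ⟨fun e => ht.2 (e ▸ hKΘ g hg s hs), fun e => (hKT g hg t ht).2 (e ▸ hs)⟩
  obtain ⟨a, b, hab, hf⟩ := Fintype.exists_ne_map_eq_of_card_lt
    (fun i : Fin 4 => shapeOf (![y1, t1', t2, t2'] i)) (by simp)
  have mem : ∀ i : Fin 4, ![y1, t1', t2, t2'] i ∈ yL := by
    intro i
    fin_cases i
    · exact hΘsub hy1Θ
    · exact hΘsub ht1'
    · exact ht2.1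
    · exact ht2'.1
  obtain ⟨g, hg, e⟩ := shape_rel (mem a) (mem b) hf
  fin_cases a <;> fin_cases b
  · exact hab rfl
  · exact (R1 g hg).1 e
  · exact (R3 g hg y1 hy1Θ t2 ht2).1 e
  · exact (R3 g hg y1 hy1Θ t2' ht2').1 e
  · exact (R1 g hg).2 e
  · exact hab rfl
  · exact (R3 g hg t1' ht1' t2 ht2).1 e
  · exact (R3 g hg t1' ht1' t2' ht2').1 e
  · exact (R3 g hg y1 hy1Θ t2 ht2).2 e
  · exact (R3 g hg t1' ht1' t2 ht2).2 e
  · exact hab rfl
  · exact (R2 g hg).1 e
  · exact (R3 g hg y1 hy1Θ t2' ht2').2 e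
  · exact (R3 g hg t1' ht1' t2' ht2').2 e
  · exact (R2 g hg).2 e
  · exact hab rfl

end Cfsg.Agent.Lib.Helper10
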