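import Cfsg.Agent.Lib.Helper10.CrossMax4

/-! # The stabiliser of the standard cross is a maximal subgroup -/

set_option autoImplicit false

namespace Cfsg.Agent.Lib.Helper10

open Cfsg Cfsg.Agent.Lib.Helper9

/-- The vector `(1, -3, 1, …, 1)`. -/
def xv : leechLattice := repDL - w0

/-- The vector `(3, -1, …, -1)`. -/
def m0L : leechLattice := ⟨vecM3, vecM3_mem⟩

theorem xv_add : xv + w0 = repDL := sub_add_cancel _ _

theorem w0_norm : sqNorm (w0 : GolayPt → ℤ) = 32 := w0_four.2.1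

theorem dot_w0_repD : dotInt (w0 : GolayPt → ℤ) repD = 24 := by
  show dotInt (Pi.single none 4 + Pi.single (some 0) 4) repD = 24
  rw [dot_vecT0]
  rfl

theorem xv_norm : sqNorm (xv : GolayPt → ℤ) = 32 := by
  show sqNorm (repD - (w0 : GolayPt → ℤ)) = 32
  rw [sqNorm_sub, repD_norm, dotInt_comm, dot_w0_repD, w0_norm]
  norm_num

theorem xv_dot : dotInt (xv : GolayPt → ℤ) (w0 : GolayPt → ℤ) = -8 := by
  show dotInt (repD - (w0 : GolayPt → ℤ)) (w0 : GolayPt → ℤ) = -8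
  rw [dotInt_comm, dotInt_sub_right, dot_w0_repD, dotInt_self, w0_norm]
  norm_num

theorem m0_mem : m0L ∈ zSet xv w0 := by
  rw [zSet_iff, xv_add]
  refine ⟨?_, ?_, ?_⟩
  · show sqNorm vecM3 = 32
    decide +kernel
  · show dotInt repD vecM3 = -8
    rw [dotInt_comm, dot_vecM3, dotInt_self, repD_norm]
    rfl
  · show dotInt (Pi.single none 4 + Pi.single (some 0) 4) vecM3 = 8
    rw [dot_vecT0]
    rfl

/-- The stabiliser of the three vectors consists of coordinate permutations. -/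
theorem stab3_le_cross : MulAction.stabilizer ↥Co0 xv ⊓ MulAction.stabilizer ↥Co0 w0 ⊓
    MulAction.stabilizer ↥Co0 m0L ≤ crossSub := by
  rintro g ⟨⟨gx, gw⟩, gm⟩
  obtain ⟨σ, hσ, -, -, hk⟩ := z_stab_form (v := xv) (w := w0) (m := m0L) (g0 := 1) Co0.one_mem
    (by rw [xv_add]; rfl) rfl rfl g.2 gx gw gm
  have e : g = permEl σ hσ := by
    apply Subtype.ext
    rw [hk, inv_one, one_mul, mul_one]
    rfl
  rw [e]
  exact perm_mem_crossSub σ hσ

theorem card_stab3 : Nat.card ↥(MulAction.stabilizer ↥Co0 xv ⊓ MulAction.stabilizer ↥Co0 w0 ⊓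
    MulAction.stabilizer ↥Co0 m0L) = 443520 := by
  have h1 := card_eq_orbit_mul_stab'
    (MulAction.stabilizer ↥Co0 xv ⊓ MulAction.stabilizer ↥Co0 w0) m0L
  rw [z_orbit xv_norm w0_norm xv_dot m0_mem, z_card xv w0 xv_norm w0_norm xv_dot,
    (mcl_main xv w0 xv_norm w0_norm xv_dot).2] at h1
  omega

theorem arith_cross {n1 n3 : ℕ} (hn1 : n1 ≤ 47104)
    (hn3 : n3 = 1 ∨ n3 = 331 ∨ n3 = 1233 ∨ n3 = 463 ∨ n3 = 1563 ∨ n3 = 793 ∨ n3 = 1695 ∨
      n3 = 2025)
    (hd1 : 4096 * 244823040 ∣ 196560 * (n1 * (n3 * 443520)))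
    (hd2 : 196560 * (n1 * (n3 * 443520)) ∣ 8315553613086720000) :
    n1 = 47104 ∧ (n3 = 1 ∨ n3 = 2025) := by
  have h0 : n1 ≠ 0 := by
    rintro rfl
    simp at hd2
  have hc : Nat.Coprime 47104 n3 := by
    rcases hn3 with rfl | rfl | rfl | rfl | rfl | rfl | rfl | rfl <;> norm_num
  have e1 : 4096 * 244823040 = 21288960 * 47104 := by norm_num
  have e2 : 196560 * (n1 * (n3 * 443520)) = 21288960 * (4095 * (n1 * n3)) := by ring
  rw [e1, e2] at hd1
  have h3 : 47104 ∣ 4095 * (n1 * n3) := Nat.dvd_of_mul_dvd_mul_left (by norm_num) hd1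
  have h4 : 47104 ∣ n1 * n3 :=
    Nat.Coprime.dvd_of_dvd_mul_left (by norm_num : Nat.Coprime 47104 4095) h3
  have h5 : 47104 ∣ n1 := Nat.Coprime.dvd_of_dvd_mul_right hc h4
  have h6 : n1 = 47104 := le_antisymm hn1 (Nat.le_of_dvd (Nat.pos_of_ne_zero h0) h5)
  subst h6
  refine ⟨rfl, ?_⟩
  rcases hn3 with rfl | rfl | rfl | rfl | rfl | rfl | rfl | rfl
  · exact Or.inl rfl
  · norm_num at hd2
  · norm_num at hd2
  · norm_num at hd2
  · norm_num at hd2
  · norm_num at hd2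
  · norm_num at hd2
  · exact Or.inr rfl

/-- The stabiliser of the standard cross is a maximal subgroup of the automorphism group of the
Leech lattice. -/
theorem crossSub_coatom : IsCoatom crossSub := by
  have hfin := finite_co0
  refine ⟨?_, ?_⟩
  · intro h
    have h1 := card_crossSub
    rw [h, Subgroup.card_top, card_co0] at h1
    norm_num at h1
  · intro L hL
    have h1 := card_eq_orbit_mul_stab' L w0
    rw [orbit_of_gt hL, card_minL] at h1
    have h2 := card_eq_orbit_mul_stab' (L ⊓ MulAction.stabilizer ↥Co0 w0) xv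
    have h3 := card_eq_orbit_mul_stab'
      (L ⊓ MulAction.stabilizer ↥Co0 w0 ⊓ MulAction.stabilizer ↥Co0 xv) m0L
    have hS3 : L ⊓ MulAction.stabilizer ↥Co0 w0 ⊓ MulAction.stabilizer ↥Co0 xv ⊓
        MulAction.stabilizer ↥Co0 m0L = MulAction.stabilizer ↥Co0 xv ⊓
        MulAction.stabilizer ↥Co0 w0 ⊓ MulAction.stabilizer ↥Co0 m0L := by
      apply le_antisymm
      · rintro g ⟨⟨⟨-, gv⟩, gx⟩, gm⟩
        exact ⟨⟨gx, gv⟩, gm⟩
      · rintro g ⟨⟨gx, gv⟩, gm⟩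
        exact ⟨⟨⟨hL.le (stab3_le_cross ⟨⟨gx, gv⟩, gm⟩), gv⟩, gx⟩, gm⟩
    rw [hS3, card_stab3] at h3
    have hn1 : (MulAction.orbit ↥(L ⊓ MulAction.stabilizer ↥Co0 w0) xv).ncard ≤ 47104 := by
      rw [← card_xL]
      apply Set.ncard_le_ncard _ (Set.finite_of_ncard_ne_zero (by rw [card_xL]; norm_num))
      rintro _ ⟨g, rfl⟩
      refine ⟨?_, ?_⟩
      · show sqNorm ((g.1.1 xv : leechLattice) : GolayPt → ℤ) = 32
        rw [g.1.2.2]
        exact xv_norm
      · have e := stab_dot g.2.2 xv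
        rw [dotInt_comm _ (xv : GolayPt → ℤ), xv_dot] at e
        exact e
    have hz := z_inv xv_norm w0_norm xv_dot m0_mem
      (MulAction.orbit ↥(L ⊓ MulAction.stabilizer ↥Co0 w0 ⊓ MulAction.stabilizer ↥Co0 xv) m0L)
      (MulAction.mem_orbit_self _)
      (by
        rintro _ ⟨g, rfl⟩
        rw [← z_orbit xv_norm w0_norm xv_dot m0_mem]
        exact ⟨⟨g.1, ⟨g.2.2, g.2.1.2⟩⟩, rfl⟩)
      (by
        rintro g gx gw gm _ ⟨l, rfl⟩
        have hgL : g ∈ L := hL.le (stab3_le_cross ⟨⟨gx, gw⟩, gm⟩)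
        exact ⟨⟨g, ⟨⟨hgL, gw⟩, gx⟩⟩ * l,
          mul_smul (⟨g, ⟨⟨hgL, gw⟩, gx⟩⟩ :
            ↥(L ⊓ MulAction.stabilizer ↥Co0 w0 ⊓ MulAction.stabilizer ↥Co0 xv)) l m0L⟩)
    obtain ⟨a, b, c, ha, hb, hc, hn3⟩ := hz
    have hn3' : ∀ n : ℕ, n = 1 + a + b + c → n = 1 ∨ n = 331 ∨ n = 1233 ∨ n = 463 ∨ n = 1563 ∨
        n = 793 ∨ n = 1695 ∨ n = 2025 := by
      intro n hn
      rw [hn]
      rcases ha with rfl | rfl <;> rcases hb with rfl | rfl <;> rcases hc with rfl | rfl <;>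
        norm_num
    have hd1 : Nat.card crossSub ∣ Nat.card L := Subgroup.card_dvd_of_le hL.le
    have hd2 : Nat.card L ∣ Nat.card ↥Co0 := Subgroup.card_subgroup_dvd_card L
    rw [card_crossSub, h1, h2, h3] at hd1
    rw [h1, h2, h3, card_co0] at hd2
    obtain ⟨e1, e3⟩ := arith_cross hn1 (hn3' _ hn3) hd1 hd2
    rcases e3 with e3 | e3
    · exfalso
      rw [e3] at h3
      rw [e1, h3] at h2
      exact no_small (M := L ⊓ MulAction.stabilizer ↥Co0 w0) (inf_le_inf_right _ hL.le)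
        inf_le_right (by rw [h2])
    · apply Subgroup.eq_top_of_card_eq
      rw [h1, h2, h3, e1, e3, card_co0]
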