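import Mathlib
import Cfsg.Agent.S0363
import Cfsg.Agent.Lib.Helper10.GolayW4

set_option autoImplicit false

namespace Cfsg.Agent.Lib.Helper10

open Cfsg

theorem card_golayPt : Fintype.card GolayPt = 24 := by
  rw [Fintype.card_option, ZMod.card]

/-- An octad meets a dodecad in 2, 4 or 6 points. -/
theorem octad_inter_dodecad {o d : Finset GolayPt} (ho : o ∈ octads) (hd : d ∈ dodecads) :
    (o ∩ d).card = 2 ∨ (o ∩ d).card = 4 ∨ (o ∩ d).card = 6 := by
  have h1 := card_symmDiff_add o d
  have h2 := inter_even ho.1 hd.1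
  have hsd := symmDiff_mem_gsup ho.1 hd.1
  have h4 := no_weight4 hsd
  have h5 := no_weight4 (compl_mem_gsup hsd)
  rw [Finset.card_compl, card_golayPt] at h5
  have h6 : (o ∩ d).card ≤ o.card := Finset.card_le_card Finset.inter_subset_left
  rw [ho.2] at h6
  rw [ho.2, hd.2] at h1
  omega

/-- The hexads cut out by octads on a dodecad form a Steiner system S(5, 6, 12). -/
theorem hexads_steiner {d : Finset GolayPt} (hd : d ∈ dodecads) :
    IsSteinerSystem 5 6 {h : Finset {p : GolayPt // p ∈ d} |
      ∃ o ∈ octads, (o ∩ d).card = 6 ∧ h = Finset.subtype (fun p => p ∈ d) o} := by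
  constructor
  · rintro b ⟨o, ho, h6, rfl⟩
    rw [Finset.card_subtype, ← h6]
    congr 1
  · intro s hs
    set s' : Finset GolayPt := s.map (Function.Embedding.subtype _) with hs'
    have hs'c : s'.card = 5 := by rw [hs', Finset.card_map, hs]
    have hs'd : s' ⊆ d := by
      intro p hp
      rw [hs', Finset.mem_map] at hp
      obtain ⟨q, _, rfl⟩ := hp
      exact q.2
    obtain ⟨o, ⟨ho, hso⟩, huniq⟩ := (Cfsg.Agent.S0363.result).2 s' hs'c
    have h5 : 5 ≤ (o ∩ d).card := by
      rw [← hs'c]
      exact Finset.card_le_card (Finset.subset_inter hso hs'd)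
    have h6 : (o ∩ d).card = 6 := by
      rcases octad_inter_dodecad ho hd with h | h | h <;> omega
    refine ⟨Finset.subtype (fun p => p ∈ d) o, ⟨⟨o, ho, h6, rfl⟩, ?_⟩, ?_⟩
    · intro x hx
      rw [Finset.mem_subtype]
      exact hso (by rw [hs', Finset.mem_map]; exact ⟨x, hx, rfl⟩)
    · rintro b ⟨⟨o', ho', h6', rfl⟩, hsb⟩
      have : o' = o := huniq o' ⟨ho', fun p hp => by
        rw [hs', Finset.mem_map] at hp
        obtain ⟨q, hq, rfl⟩ := hp
        have := hsb hq
        rw [Finset.mem_subtype] at this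
        exact this⟩
      rw [this]

end Cfsg.Agent.Lib.Helper10
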