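import Mathlib
import Cfsg.Agent.S0350
import Cfsg.Agent.S0360
import Cfsg.Agent.Lib.Helper10.Hexads

set_option autoImplicit false

namespace Cfsg.Agent.Lib.Helper10

open Cfsg

theorem compl_mem_dodecads {d : Finset GolayPt} (hd : d ∈ dodecads) : dᶜ ∈ dodecads := by
  refine ⟨compl_mem_gsup hd.1, ?_⟩
  rw [Finset.card_compl, card_golayPt, hd.2]

theorem card_inter_compl (o d : Finset GolayPt) : (o ∩ d).card + (o ∩ dᶜ).card = o.card := by
  rw [← Finset.card_union_of_disjoint]
  · congr 1
    ext p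
    simp only [Finset.mem_union, Finset.mem_inter, Finset.mem_compl]
    tauto
  · rw [Finset.disjoint_left]
    intro p hp hp'
    rw [Finset.mem_inter] at hp hp'
    exact (Finset.mem_compl.1 hp'.2) hp.2

/-- Exactly 132 octads meet a given dodecad in 6 points. -/
theorem ncard_octads_six {d : Finset GolayPt} (hd : d ∈ dodecads) :
    {o : Finset GolayPt | o ∈ octads ∧ (o ∩ d).card = 6}.ncard = 132 := by
  have hS := hexads_steiner hd
  have hcount := Cfsg.Agent.S0350.result hS
  rw [Fintype.card_coe, hd.2] at hcount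
  have himg : {h : Finset {p : GolayPt // p ∈ d} |
      ∃ o ∈ octads, (o ∩ d).card = 6 ∧ h = Finset.subtype (fun p => p ∈ d) o} =
      (fun o : Finset GolayPt => Finset.subtype (fun p => p ∈ d) o) ''
        {o : Finset GolayPt | o ∈ octads ∧ (o ∩ d).card = 6} := by
    ext h
    simp only [Set.mem_ofPred_eq, Set.mem_image]
    constructor
    · rintro ⟨o, ho, h6, rfl⟩
      exact ⟨o, ⟨ho, h6⟩, rfl⟩
    · rintro ⟨o, ⟨ho, h6⟩, rfl⟩
      exact ⟨o, ho, h6, rfl⟩
  have hinj : Set.InjOn (fun o : Finset GolayPt => Finset.subtype (fun p => p ∈ d) o)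
      {o : Finset GolayPt | o ∈ octads ∧ (o ∩ d).card = 6} := by
    rintro o ⟨ho, h6⟩ o' ⟨ho', h6'⟩ heq
    have hod : o ∩ d = o' ∩ d := by
      ext p
      simp only [Finset.mem_inter]
      constructor
      · rintro ⟨hp, hpd⟩
        have : (⟨p, hpd⟩ : {p : GolayPt // p ∈ d}) ∈ Finset.subtype (fun p => p ∈ d) o :=
          Finset.mem_subtype.2 hp
        have h' : (⟨p, hpd⟩ : {p : GolayPt // p ∈ d}) ∈ Finset.subtype (fun p => p ∈ d) o' := by
          have heq' : Finset.subtype (fun p => p ∈ d) o = Finset.subtype (fun p => p ∈ d) o' := heq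
          rw [← heq']
          exact this
        exact ⟨Finset.mem_subtype.1 h', hpd⟩
      · rintro ⟨hp, hpd⟩
        have : (⟨p, hpd⟩ : {p : GolayPt // p ∈ d}) ∈ Finset.subtype (fun p => p ∈ d) o' :=
          Finset.mem_subtype.2 hp
        have h' : (⟨p, hpd⟩ : {p : GolayPt // p ∈ d}) ∈ Finset.subtype (fun p => p ∈ d) o := by
          have heq' : Finset.subtype (fun p => p ∈ d) o = Finset.subtype (fun p => p ∈ d) o' := heq
          rw [heq']
          exact this
        exact ⟨Finset.mem_subtype.1 h', hpd⟩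
    apply Cfsg.Agent.Lib.Helper9.octad_eq_of_inter ho ho'
    have hsub : o ∩ d ⊆ o ∩ o' := by
      intro p hp
      have hp' : p ∈ o' ∩ d := hod ▸ hp
      exact Finset.mem_inter.2 ⟨(Finset.mem_inter.1 hp).1, (Finset.mem_inter.1 hp').1⟩
    have := Finset.card_le_card hsub
    omega
  rw [himg, hinj.ncard_image] at hcount
  have h1 : Nat.choose 6 5 = 6 := by decide
  have h2 : Nat.choose 12 5 = 792 := by decide
  rw [h1, h2] at hcount
  omega

theorem ncard_octads_two {d : Finset GolayPt} (hd : d ∈ dodecads) :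
    {o : Finset GolayPt | o ∈ octads ∧ (o ∩ d).card = 2}.ncard = 132 := by
  have h := ncard_octads_six (compl_mem_dodecads hd)
  have heq : {o : Finset GolayPt | o ∈ octads ∧ (o ∩ d).card = 2} =
      {o : Finset GolayPt | o ∈ octads ∧ (o ∩ dᶜ).card = 6} := by
    ext o
    simp only [Set.mem_ofPred_eq]
    constructor
    · rintro ⟨ho, h2⟩
      have := card_inter_compl o d
      rw [ho.2] at this
      exact ⟨ho, by omega⟩
    · rintro ⟨ho, h6⟩
      have := card_inter_compl o d
      rw [ho.2] at this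
      exact ⟨ho, by omega⟩
  rw [heq, h]

theorem ncard_octads_four {d : Finset GolayPt} (hd : d ∈ dodecads) :
    {o : Finset GolayPt | o ∈ octads ∧ (o ∩ d).card = 4}.ncard = 495 := by
  have h6 := ncard_octads_six hd
  have h2 := ncard_octads_two hd
  have htot : octads.ncard = 759 := Cfsg.Agent.S0360.result
  have hunion : octads = ({o : Finset GolayPt | o ∈ octads ∧ (o ∩ d).card = 2} ∪
      {o : Finset GolayPt | o ∈ octads ∧ (o ∩ d).card = 6}) ∪
      {o : Finset GolayPt | o ∈ octads ∧ (o ∩ d).card = 4} := by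
    ext o
    simp only [Set.mem_union, Set.mem_ofPred_eq]
    constructor
    · intro ho
      rcases octad_inter_dodecad ho hd with h | h | h
      · exact Or.inl (Or.inl ⟨ho, h⟩)
      · exact Or.inr ⟨ho, h⟩
      · exact Or.inl (Or.inr ⟨ho, h⟩)
    · rintro ((⟨ho, _⟩ | ⟨ho, _⟩) | ⟨ho, _⟩) <;> exact ho
  have hd1 : Disjoint {o : Finset GolayPt | o ∈ octads ∧ (o ∩ d).card = 2}
      {o : Finset GolayPt | o ∈ octads ∧ (o ∩ d).card = 6} := by
    rw [Set.disjoint_left]
    rintro o ⟨_, h⟩ ⟨_, h'⟩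
    omega
  have hd2 : Disjoint ({o : Finset GolayPt | o ∈ octads ∧ (o ∩ d).card = 2} ∪
      {o : Finset GolayPt | o ∈ octads ∧ (o ∩ d).card = 6})
      {o : Finset GolayPt | o ∈ octads ∧ (o ∩ d).card = 4} := by
    rw [Set.disjoint_left]
    rintro o (⟨_, h⟩ | ⟨_, h⟩) ⟨_, h'⟩ <;> omega
  rw [hunion, Set.ncard_union_eq hd2 (Set.toFinite _) (Set.toFinite _),
    Set.ncard_union_eq hd1 (Set.toFinite _) (Set.toFinite _), h2, h6] at htot
  omega

end Cfsg.Agent.Lib.Helper10
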