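import Mathlib
import Cfsg.Agent.Lib.Helper58.JEDefs
import Cfsg.Agent.Lib.Helper94.JcTH
import Cfsg.Agent.Lib.Helper82.JcOCPC
import Cfsg.Agent.Lib.Helper41.Cores
import Cfsg.Agent.Lib.Helper66.JNThc

/-! Project JE (helper58, S2948), piece A3. -/

set_option autoImplicit false

namespace Cfsg.Agent.Lib.Helper10.JE

open Cfsg.Agent.Lib.Helper58.JE Cfsg.Agent.Lib.Helper72.JL Cfsg.Agent.Lib.Helper72.SC
  Cfsg.Agent.Lib.Helper78.Jc

universe u

/-- `O₂(L)` lies in every Sylow 2-subgroup of `L`. -/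
theorem a3_pc_le {G : Type*} [Group G] [Finite G] (T₀ L : Subgroup G)
    (h : Cfsg.IsSylowTwoIn T₀ L) : Cfsg.pCoreOf 2 L ≤ T₀ := by
  obtain ⟨hTL, hT2, hodd⟩ := h
  set Q := Cfsg.pCoreOf 2 L with hQ
  have hQ2 : IsPGroup 2 Q := Cfsg.Agent.Lib.Helper82.Jc.pc_pgroup L
  have hQL : Q ≤ L := Cfsg.Agent.Lib.Helper82.Jc.pc_le L
  have hPQ : IsPGroup 2 (T₀ ⊔ Q : Subgroup G) :=
    IsPGroup.to_sup_of_normal_right' hT2 hQ2
      (hTL.trans (Cfsg.Agent.Lib.Helper82.Jc.pc_le_normalizer L))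
  have hle : T₀ ⊔ Q ≤ L := sup_le hTL hQL
  have hmul : T₀.relIndex (T₀ ⊔ Q) * (T₀ ⊔ Q).relIndex L = T₀.relIndex L :=
    Subgroup.relIndex_mul_relIndex T₀ (T₀ ⊔ Q) L le_sup_left hle
  obtain ⟨n, hn⟩ := IsPGroup.index hPQ (T₀.subgroupOf (T₀ ⊔ Q))
  have hn' : T₀.relIndex (T₀ ⊔ Q) = 2 ^ n := hn
  rw [hn'] at hmul
  have hn0 : n = 0 := by
    by_contra hne
    have h2dvd : 2 ∣ 2 ^ n * (T₀ ⊔ Q).relIndex L :=
      Dvd.dvd.mul_right (dvd_pow_self 2 hne) _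
    rw [hmul] at h2dvd
    rcases hodd with ⟨k, hk⟩
    omega
  rw [hn0, pow_zero] at hn'
  have := Subgroup.relIndex_eq_one.1 hn'
  exact le_sup_right.trans this

/-- if `J(S) ≤ P ≤ S` then `J(P) = J(S)`. -/
theorem a3_th_eq {G : Type*} [Group G] [Finite G] (P S : Subgroup G) (hPS : P ≤ S)
    (hJ : Cfsg.thompsonSubgroupOf 2 S ≤ P) :
    Cfsg.thompsonSubgroupOf 2 P = Cfsg.thompsonSubgroupOf 2 S := by
  have c1 : ∀ A : Subgroup G, IsMaxEA S A → IsMaxEA P A := by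
    intro A hA
    have hAP : A ≤ P := (Cfsg.Agent.Lib.Helper94.Jc.th_le S A hA).trans hJ
    obtain ⟨hAS, hc, h2, hmax⟩ := hA
    exact ⟨hAP, hc, h2, fun B hB hBc hB2 => hmax B (hB.trans hPS) hBc hB2⟩
  have c2 : ∀ B : Subgroup G, IsMaxEA P B → IsMaxEA S B := by
    intro B hB
    obtain ⟨A, hA⟩ := Cfsg.Agent.Lib.Helper94.Jc.th_exists S
    have hA' := c1 A hA
    obtain ⟨hBP, hc, h2, hmax⟩ := hB
    have hAB : Nat.card A ≤ Nat.card B := hmax A hA'.1 hA'.2.1 hA'.2.2.1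
    exact ⟨hBP.trans hPS, hc, h2, fun B' hB' hB'c hB'2 =>
      (hA.2.2.2 B' hB' hB'c hB'2).trans hAB⟩
  apply le_antisymm
  · exact Cfsg.Agent.Lib.Helper94.Jc.th_le_of_forall P _
      (fun B hB => Cfsg.Agent.Lib.Helper94.Jc.th_le S B (c2 B hB))
  · exact Cfsg.Agent.Lib.Helper94.Jc.th_le_of_forall S _
      (fun A hA => Cfsg.Agent.Lib.Helper94.Jc.th_le P A (c1 A hA))

/-- the normalizer of `P` normalizes `J(P)`. -/
theorem a3_norm_th {G : Type u} [Group G] [Finite G] (P : Subgroup G) :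
    Subgroup.normalizer (P : Set G) ≤
      Subgroup.normalizer (Cfsg.thompsonSubgroupOf 2 P : Set G) := by
  apply Cfsg.Agent.Lib.Helper82.Jc.normalizer_le_of_conj_mem
  intro g hg x hx
  have hmap : P.map (MulAut.conj g).toMonoidHom = P := by
    ext z
    constructor
    · rintro ⟨w, hw, rfl⟩
      exact (Subgroup.mem_normalizer_iff.mp hg w).mp hw
    · intro hz
      refine ⟨g⁻¹ * z * g, ?_, ?_⟩
      · have h1 := (Subgroup.mem_normalizer_iff.mp hg (g⁻¹ * z * g))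
        apply h1.mpr
        have : g * (g⁻¹ * z * g) * g⁻¹ = z := by group
        rw [this]
        exact hz
      · show g * (g⁻¹ * z * g) * g⁻¹ = z
        group
  have hthc := Cfsg.Agent.Lib.Helper66.JN.thc.{u} G P g
  rw [hmap] at hthc
  rw [hthc]
  exact ⟨x, hx, rfl⟩

theorem a3 : A3Stmt.{u} := by
  intro G _ _ hchar M T L T₀ hNM hL hLM hT₀ hJ
  obtain ⟨R, hR2, hRne, hLR⟩ := hL
  have hQ2 : IsPGroup 2 (Cfsg.pCoreOf 2 L) := Cfsg.Agent.Lib.Helper82.Jc.pc_pgroup L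
  refine ⟨hT₀, ?_, ?_⟩
  · -- `J(T₀)` is not inside `O₂(L)`
    intro hJQ
    apply hLM
    have hQT : Cfsg.pCoreOf 2 L ≤ T₀ := a3_pc_le T₀ L hT₀
    have hJeq : Cfsg.thompsonSubgroupOf 2 (Cfsg.pCoreOf 2 L) = Cfsg.thompsonSubgroupOf 2 T₀ :=
      a3_th_eq (Cfsg.pCoreOf 2 L) T₀ hQT hJQ
    have h1 : L ≤ Subgroup.normalizer (Cfsg.thompsonSubgroupOf 2 (Cfsg.pCoreOf 2 L) : Set G) :=
      (Cfsg.Agent.Lib.Helper82.Jc.pc_le_normalizer L).trans (a3_norm_th (Cfsg.pCoreOf 2 L))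
    rw [hJeq, ← hJ] at h1
    exact h1.trans hNM
  · -- `C_G(O₂(L)) ≤ O₂(L)`
    intro x hx
    have hcharL : Cfsg.IsOfCharacteristicTwo ↥(Subgroup.normalizer (R : Set G)) :=
      hchar.2 R hR2 hRne
    subst hLR
    have hRQ : R ≤ Cfsg.pCoreOf 2 (Subgroup.normalizer (R : Set G)) := by
      intro r hr
      have hrL : r ∈ Subgroup.normalizer (R : Set G) := Subgroup.le_normalizer hr
      have h1 : R.subgroupOf (Subgroup.normalizer (R : Set G)) ≤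
          Cfsg.pCore 2 ↥(Subgroup.normalizer (R : Set G)) :=
        Cfsg.Agent.Lib.Helper41.le_pCore _ hR2.comap_subtype
      exact ⟨⟨r, hrL⟩, h1 (Subgroup.mem_subgroupOf.mpr hr), rfl⟩
    have hxR : x ∈ Subgroup.centralizer (R : Set G) :=
      Subgroup.centralizer_le hRQ hx
    have hxL : x ∈ Subgroup.normalizer (R : Set G) :=
      (Subgroup.centralizer_le_normalizer (R : Set G)) hxR
    have hxc : (⟨x, hxL⟩ : ↥(Subgroup.normalizer (R : Set G))) ∈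
        Subgroup.centralizer (Cfsg.pCore 2 ↥(Subgroup.normalizer (R : Set G)) : Set _) := by
      rw [Subgroup.mem_centralizer_iff]
      intro y hy
      apply Subtype.ext
      have hyQ : (y : G) ∈ Cfsg.pCoreOf 2 (Subgroup.normalizer (R : Set G)) := ⟨y, hy, rfl⟩
      exact (Subgroup.mem_centralizer_iff.mp hx) (y : G) hyQ
    exact ⟨⟨x, hxL⟩, hcharL hxc, rfl⟩

end Cfsg.Agent.Lib.Helper10.JE
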