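import Mathlib

set_option autoImplicit false

namespace Cfsg.Agent.Lib.Helper10

open MulAction

/-- Jordan: a group acting sharply 4-transitively (stated pointwise) on a finite set with at
least 4 points acts on 4, 5, 6 or 11 points. -/
theorem jordan_core4 {G α : Type*} [Group G] [MulAction G α] [Fintype α] [DecidableEq α]
    (htrans : ∀ a b c d a' b' c' d' : α, a ≠ b → a ≠ c → a ≠ d → b ≠ c → b ≠ d → c ≠ d →
      a' ≠ b' → a' ≠ c' → a' ≠ d' → b' ≠ c' → b' ≠ d' → c' ≠ d' →
      ∃ g : G, g • a = a' ∧ g • b = b' ∧ g • c = c' ∧ g • d = d')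
    (hsharp : ∀ (g : G) (a b c d : α), a ≠ b → a ≠ c → a ≠ d → b ≠ c → b ≠ d → c ≠ d →
      g • a = a → g • b = b → g • c = c → g • d = d → g = 1)
    (h4 : 4 ≤ Fintype.card α) :
    Fintype.card α = 4 ∨ Fintype.card α = 5 ∨ Fintype.card α = 6 ∨ Fintype.card α = 11 := by
  classical
  obtain ⟨a, b, c, d, hab, hac, had, hbc, hbd, hcd⟩ :
      ∃ a b c d : α, a ≠ b ∧ a ≠ c ∧ a ≠ d ∧ b ≠ c ∧ b ≠ d ∧ c ≠ d := by
    obtain ⟨e⟩ := Function.Embedding.nonempty_of_card_le (α := Fin 4) (β := α) (by simpa using h4)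
    exact ⟨e 0, e 1, e 2, e 3, e.injective.ne (by decide), e.injective.ne (by decide),
      e.injective.ne (by decide), e.injective.ne (by decide), e.injective.ne (by decide),
      e.injective.ne (by decide)⟩
  obtain ⟨t, hta, htb, htc, htd⟩ :=
    htrans a b c d a b d c hab hac had hbc hbd hcd hab had hac hbd hbc hcd.symm
  have htt : t * t = 1 := by
    apply hsharp (t * t) a b c d hab hac had hbc hbd hcd <;> simp [mul_smul, *]
  have htt' : ∀ x : α, t • t • x = x := fun x => by rw [← mul_smul, htt, one_smul]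
  have hsharp2 : ∀ (g h : G) (a b c d : α), a ≠ b → a ≠ c → a ≠ d → b ≠ c → b ≠ d → c ≠ d →
      g • a = h • a → g • b = h • b → g • c = h • c → g • d = h • d → g = h := by
    intro g h a b c d hab hac had hbc hbd hcd ha hb hc hd
    have := hsharp (h⁻¹ * g) a b c d hab hac had hbc hbd hcd
      (by rw [mul_smul, ha, inv_smul_smul]) (by rw [mul_smul, hb, inv_smul_smul])
      (by rw [mul_smul, hc, inv_smul_smul]) (by rw [mul_smul, hd, inv_smul_smul])
    exact (inv_mul_eq_one.mp this).symm
  set F : Finset α := Finset.univ.filter (fun x => t • x = x) with hF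
  set S : Finset α := Finset.univ.filter (fun z => t • z ≠ z ∧ z ≠ c ∧ z ≠ d) with hS
  have memF : ∀ x, x ∈ F ↔ t • x = x := fun x => by simp [hF]
  have memS : ∀ z, z ∈ S ↔ (t • z ≠ z ∧ z ≠ c ∧ z ≠ d) := fun z => by simp [hS]
  have haF : a ∈ F := (memF a).2 hta
  have hbF : b ∈ F := (memF b).2 htb
  have hcF : c ∉ F := fun h => hcd (by rw [← htc]; exact ((memF c).1 h).symm ▸ rfl)
  have hdF : d ∉ F := fun h => hcd (by rw [← htd]; exact ((memF d).1 h))
  have hcard : Fintype.card α = F.card + 2 + S.card := by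
    have h1 : F.card + (Finset.univ.filter (fun x => ¬ t • x = x)).card =
        (Finset.univ : Finset α).card :=
      Finset.card_filter_add_card_filter_not (s := (Finset.univ : Finset α))
        (fun x => t • x = x)
    have hS' : S = ((Finset.univ.filter (fun x => ¬ t • x = x)).erase c).erase d := by
      ext z
      simp only [hS, Finset.mem_filter, Finset.mem_univ, true_and, Finset.mem_erase]
      tauto
    have hc' : c ∈ Finset.univ.filter (fun x => ¬ t • x = x) := by
      simp only [Finset.mem_filter, Finset.mem_univ, true_and]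
      exact fun h => hcF ((memF c).2 h)
    have hd' : d ∈ (Finset.univ.filter (fun x => ¬ t • x = x)).erase c := by
      simp only [Finset.mem_erase, Finset.mem_filter, Finset.mem_univ, true_and]
      exact ⟨hcd.symm, fun h => hdF ((memF d).2 h)⟩
    have h2 := Finset.card_erase_add_one hc'
    have h3 := Finset.card_erase_add_one hd'
    rw [← hS'] at h3
    rw [Finset.card_univ] at h1
    omega
  have hF2 : 2 ≤ F.card := by
    have : ({a, b} : Finset α) ⊆ F := by
      intro x hx
      simp only [Finset.mem_insert, Finset.mem_singleton] at hx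
      rcases hx with rfl | rfl <;> assumption
    have h2 := Finset.card_le_card this
    rwa [Finset.card_pair hab] at h2
  have hF3 : F.card ≤ 3 := by
    by_contra h
    rw [not_le] at h
    have h1 : 1 < ((F.erase a).erase b).card := by
      have hb' : b ∈ F.erase a := Finset.mem_erase.2 ⟨hab.symm, hbF⟩
      have h2 := Finset.card_erase_add_one haF
      have h3 := Finset.card_erase_add_one hb'
      omega
    obtain ⟨x, hx, y, hy, hxy⟩ := Finset.one_lt_card.1 h1
    simp only [Finset.mem_erase] at hx hy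
    have ht1 : t = 1 := hsharp t a b x y hab hx.2.1.symm hy.2.1.symm hx.1.symm hy.1.symm hxy
      hta htb ((memF x).1 hx.2.2) ((memF y).1 hy.2.2)
    rw [ht1, one_smul] at htc
    exact hcd htc
  -- elements commuting with t preserve F
  have hpres : ∀ g : G, g * t = t * g → ∀ x, (g • x ∈ F ↔ x ∈ F) := by
    intro g hg x
    rw [memF, memF, ← mul_smul, ← hg, mul_smul]
    exact ⟨fun h => smul_left_cancel g h, fun h => by rw [h]⟩
  have key : S = ∅ ∨ S.card = F.offDiag.card := by
    rcases Finset.eq_empty_or_nonempty S with h | ⟨z0, hz0⟩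
    · exact Or.inl h
    right
    obtain ⟨hz0t, hz0c, hz0d⟩ := (memS z0).1 hz0
    have htz0c : t • z0 ≠ c := fun h => hz0d (by rw [← htt' z0, h, htc])
    have htz0d : t • z0 ≠ d := fun h => hz0c (by rw [← htt' z0, h, htd])
    have hex : ∀ pq : α × α, pq ∈ F.offDiag →
        ∃ g : G, g • a = pq.1 ∧ g • b = pq.2 ∧ g • c = c ∧ g • d = d := by
      intro pq hpq
      rw [Finset.mem_offDiag] at hpq
      obtain ⟨hp, hq, hpq⟩ := hpq
      exact htrans a b c d pq.1 pq.2 c d hab hac had hbc hbd hcd hpq
        (fun h => hcF (h ▸ hp)) (fun h => hdF (h ▸ hp)) (fun h => hcF (h ▸ hq))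
        (fun h => hdF (h ▸ hq)) hcd
    choose gsel hgsel using hex
    have hcomm1 : ∀ pq (hpq : pq ∈ F.offDiag), gsel pq hpq * t = t * gsel pq hpq := by
      intro pq hpq
      obtain ⟨h1, h2, h3, h4⟩ := hgsel pq hpq
      rw [Finset.mem_offDiag] at hpq
      apply hsharp2 _ _ a b c d hab hac had hbc hbd hcd
      · rw [mul_smul, mul_smul, hta, h1, (memF _).1 hpq.1]
      · rw [mul_smul, mul_smul, htb, h2, (memF _).1 hpq.2.1]
      · rw [mul_smul, mul_smul, htc, h3, h4, htc]
      · rw [mul_smul, mul_smul, htd, h3, h4, htd]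
    have hcomm2 : ∀ (g : G) (z : α), g • c = c → g • d = d → g • z0 = z → g • t • z0 = t • z →
        g * t = t * g := by
      intro g z h1 h2 h3 h4
      apply hsharp2 _ _ c d z0 (t • z0) hcd hz0c.symm htz0c.symm hz0d.symm htz0d.symm hz0t.symm
      · rw [mul_smul, mul_smul, htc, h1, h2, htc]
      · rw [mul_smul, mul_smul, htd, h1, h2, htd]
      · rw [mul_smul, mul_smul, h3, h4]
      · rw [mul_smul, mul_smul, htt', h4, h3, htt']
    symm
    refine Finset.card_bij (fun pq hpq => gsel pq hpq • z0) ?_ ?_ ?_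
    · intro pq hpq
      obtain ⟨h1, h2, h3, h4⟩ := hgsel pq hpq
      have hc := hcomm1 pq hpq
      rw [memS]
      refine ⟨fun h => hz0t ?_, fun h => hz0c ?_, fun h => hz0d ?_⟩
      · rw [← mul_smul, ← hc, mul_smul] at h
        exact smul_left_cancel _ h
      · exact smul_left_cancel (gsel pq hpq) (h.trans h3.symm)
      · exact smul_left_cancel (gsel pq hpq) (h.trans h4.symm)
    · intro pq hpq pq' hpq' h
      obtain ⟨h1, h2, h3, h4⟩ := hgsel pq hpq
      obtain ⟨h1', h2', h3', h4'⟩ := hgsel pq' hpq'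
      have hc := hcomm1 pq hpq
      have hc' := hcomm1 pq' hpq'
      have hgg : gsel pq hpq = gsel pq' hpq' := by
        apply hsharp2 _ _ c d z0 (t • z0) hcd hz0c.symm htz0c.symm hz0d.symm htz0d.symm hz0t.symm
        · rw [h3, h3']
        · rw [h4, h4']
        · exact h
        · rw [← mul_smul, ← mul_smul, hc, hc', mul_smul, mul_smul, h]
      apply Prod.ext
      · rw [← h1, ← h1', hgg]
      · rw [← h2, ← h2', hgg]
    · intro z hz
      obtain ⟨hzt, hzc, hzd⟩ := (memS z).1 hz
      have htzc : t • z ≠ c := fun h => hzd (by rw [← htt' z, h, htc])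
      have htzd : t • z ≠ d := fun h => hzc (by rw [← htt' z, h, htd])
      obtain ⟨g, hg1, hg2, hg3, hg4⟩ := htrans c d z0 (t • z0) c d z (t • z)
        hcd hz0c.symm htz0c.symm hz0d.symm htz0d.symm hz0t.symm
        hcd hzc.symm htzc.symm hzd.symm htzd.symm hzt.symm
      have hgc := hcomm2 g z hg1 hg2 hg3 hg4
      have hpq : (g • a, g • b) ∈ F.offDiag := by
        rw [Finset.mem_offDiag]
        exact ⟨(hpres g hgc a).2 haF, (hpres g hgc b).2 hbF, fun h => hab (smul_left_cancel g h)⟩
      refine ⟨(g • a, g • b), hpq, ?_⟩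
      obtain ⟨h1, h2, h3, h4⟩ := hgsel _ hpq
      have : gsel _ hpq = g := by
        apply hsharp2 _ _ a b c d hab hac had hbc hbd hcd
        · exact h1
        · exact h2
        · rw [h3, hg1]
        · rw [h4, hg2]
      rw [this, hg3]
  rw [Finset.offDiag_card] at key
  rcases key with h | h
  · rw [h, Finset.card_empty] at hcard
    have : F.card = 2 ∨ F.card = 3 := by omega
    rcases this with h' | h' <;> rw [h'] at hcard <;> omega
  · have : F.card = 2 ∨ F.card = 3 := by omega
    rcases this with h' | h' <;> rw [h'] at h hcard <;> omega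

/-- An embedding `Fin 4 ↪ α` from four distinct points. -/
def emb4 {α : Type*} (a b c d : α) (h : [a, b, c, d].Nodup) : Fin 4 ↪ α :=
  ⟨fun i => [a, b, c, d].get i, fun _ _ hij => List.nodup_iff_injective_get.1 h hij⟩

/-- An embedding `Fin 5 ↪ α` from five distinct points. -/
def emb5 {α : Type*} (p a b c d : α) (h : [p, a, b, c, d].Nodup) : Fin 5 ↪ α :=
  ⟨fun i => [p, a, b, c, d].get i, fun _ _ hij => List.nodup_iff_injective_get.1 h hij⟩

/-- Jordan's theorem on sharply 4-transitive actions, for a general group action. -/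
theorem jordan4 {G α : Type*} [Group G] [MulAction G α] [Fintype α] [DecidableEq α]
    [IsMultiplyPretransitive G α 4] (hsharp : ∀ x : Fin 4 ↪ α, stabilizer G x = ⊥)
    (h4 : 4 ≤ Fintype.card α) :
    Fintype.card α = 4 ∨ Fintype.card α = 5 ∨ Fintype.card α = 6 ∨ Fintype.card α = 11 := by
  refine jordan_core4 (G := G) ?_ ?_ h4
  · intro a b c d a' b' c' d' hab hac had hbc hbd hcd hab' hac' had' hbc' hbd' hcd'
    have h1 : [a, b, c, d].Nodup := by simp [*]
    have h2 : [a', b', c', d'].Nodup := by simp [*]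
    obtain ⟨g, hg⟩ := exists_smul_eq G (emb4 a b c d h1) (emb4 a' b' c' d' h2)
    exact ⟨g, congrArg (fun f : Fin 4 ↪ α => f 0) hg, congrArg (fun f : Fin 4 ↪ α => f 1) hg,
      congrArg (fun f : Fin 4 ↪ α => f 2) hg, congrArg (fun f : Fin 4 ↪ α => f 3) hg⟩
  · intro g a b c d hab hac had hbc hbd hcd ha hb hc hd
    have h1 : [a, b, c, d].Nodup := by simp [*]
    have hg : g ∈ stabilizer G (emb4 a b c d h1) := by
      show g • emb4 a b c d h1 = emb4 a b c d h1
      ext i
      rw [Function.Embedding.smul_apply]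
      fin_cases i
      · exact ha
      · exact hb
      · exact hc
      · exact hd
    rw [hsharp] at hg
    exact Subgroup.mem_bot.1 hg

theorem nodup5_ofStabilizer {G α : Type*} [Group G] [MulAction G α] (p : α)
    (a b c d : SubMulAction.ofStabilizer G p) (hab : a ≠ b) (hac : a ≠ c) (had : a ≠ d)
    (hbc : b ≠ c) (hbd : b ≠ d) (hcd : c ≠ d) :
    [p, (a : α), (b : α), (c : α), (d : α)].Nodup := by
  have hpa : p ≠ (a : α) := ((SubMulAction.mem_ofStabilizer_iff G p).1 a.2).symm
  have hpb : p ≠ (b : α) := ((SubMulAction.mem_ofStabilizer_iff G p).1 b.2).symm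
  have hpc : p ≠ (c : α) := ((SubMulAction.mem_ofStabilizer_iff G p).1 c.2).symm
  have hpd : p ≠ (d : α) := ((SubMulAction.mem_ofStabilizer_iff G p).1 d.2).symm
  have hab' : (a : α) ≠ b := Subtype.coe_injective.ne hab
  have hac' : (a : α) ≠ c := Subtype.coe_injective.ne hac
  have had' : (a : α) ≠ d := Subtype.coe_injective.ne had
  have hbc' : (b : α) ≠ c := Subtype.coe_injective.ne hbc
  have hbd' : (b : α) ≠ d := Subtype.coe_injective.ne hbd
  have hcd' : (c : α) ≠ d := Subtype.coe_injective.ne hcd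
  simp [hpa, hpb, hpc, hpd, hab', hac', had', hbc', hbd', hcd']

/-- Jordan's theorem on sharply 5-transitive actions, for a general group action. -/
theorem jordan5 {G α : Type*} [Group G] [MulAction G α] [Fintype α] [DecidableEq α]
    [IsMultiplyPretransitive G α 5] (hsharp : ∀ x : Fin 5 ↪ α, stabilizer G x = ⊥)
    (h5 : 5 ≤ Fintype.card α) :
    Fintype.card α = 5 ∨ Fintype.card α = 6 ∨ Fintype.card α = 7 ∨ Fintype.card α = 12 := by
  classical
  have hne : Nonempty α := Fintype.card_pos_iff.1 (by omega)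
  obtain ⟨p⟩ := hne
  have hcard : Nat.card (SubMulAction.ofStabilizer G p) + 1 = Nat.card α :=
    SubMulAction.nat_card_ofStabilizer_add_one_eq G p
  rw [Nat.card_eq_fintype_card, Nat.card_eq_fintype_card] at hcard
  have key := jordan_core4 (G := stabilizer G p) (α := SubMulAction.ofStabilizer G p) ?_ ?_
    (by omega)
  · omega
  · intro a b c d a' b' c' d' hab hac had hbc hbd hcd hab' hac' had' hbc' hbd' hcd'
    have h1 : [p, (a : α), (b : α), (c : α), (d : α)].Nodup :=
      nodup5_ofStabilizer p a b c d hab hac had hbc hbd hcd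
    have h2 : [p, (a' : α), (b' : α), (c' : α), (d' : α)].Nodup :=
      nodup5_ofStabilizer p a' b' c' d' hab' hac' had' hbc' hbd' hcd'
    obtain ⟨g, hg⟩ := exists_smul_eq G (emb5 p a b c d h1) (emb5 p a' b' c' d' h2)
    have hgp : g ∈ stabilizer G p := congrArg (fun f : Fin 5 ↪ α => f 0) hg
    refine ⟨⟨g, hgp⟩, Subtype.ext ?_, Subtype.ext ?_, Subtype.ext ?_, Subtype.ext ?_⟩
    · exact congrArg (fun f : Fin 5 ↪ α => f 1) hg
    · exact congrArg (fun f : Fin 5 ↪ α => f 2) hg
    · exact congrArg (fun f : Fin 5 ↪ α => f 3) hg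
    · exact congrArg (fun f : Fin 5 ↪ α => f 4) hg
  · intro g a b c d hab hac had hbc hbd hcd ha hb hc hd
    have h1 : [p, (a : α), (b : α), (c : α), (d : α)].Nodup :=
      nodup5_ofStabilizer p a b c d hab hac had hbc hbd hcd
    have hg : (g : G) ∈ stabilizer G (emb5 p a b c d h1) := by
      show (g : G) • emb5 p a b c d h1 = emb5 p a b c d h1
      ext i
      rw [Function.Embedding.smul_apply]
      fin_cases i
      · exact g.2
      · exact congrArg Subtype.val ha
      · exact congrArg Subtype.val hb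
      · exact congrArg Subtype.val hc
      · exact congrArg Subtype.val hd
    rw [hsharp] at hg
    exact Subtype.ext (Subgroup.mem_bot.1 hg)

end Cfsg.Agent.Lib.Helper10
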