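import Mathlib

/-! # Characterisation of the rank-24 lattice: foundations

The quadratic and bilinear forms of a Gram matrix, the hypotheses of the characterisation, the
notion of a good coordinate lattice and its binary code. -/

set_option autoImplicit false

namespace Cfsg.Agent.Lib.Helper10.LC

open Matrix

/-- The quadratic form of a Gram matrix. -/
def qf (B : Matrix (Fin 24) (Fin 24) ℤ) (x : Fin 24 → ℤ) : ℤ := x ⬝ᵥ (B *ᵥ x)

/-- The bilinear form of a Gram matrix. -/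
def bf (B : Matrix (Fin 24) (Fin 24) ℤ) (x y : Fin 24 → ℤ) : ℤ := x ⬝ᵥ (B *ᵥ y)

/-- The hypotheses of the characterisation. -/
structure Hyp (B : Matrix (Fin 24) (Fin 24) ℤ) : Prop where
  symm : B.IsSymm
  pos : ∀ x : Fin 24 → ℤ, x ≠ 0 → 0 < qf B x
  even : ∀ x : Fin 24 → ℤ, (2 : ℤ) ∣ qf B x
  no2 : ∀ x : Fin 24 → ℤ, qf B x ≠ 2
  c4 : {x : Fin 24 → ℤ | qf B x = 4}.ncard = 196560
  c6 : {x : Fin 24 → ℤ | qf B x = 6}.ncard = 16773120
  c8 : {x : Fin 24 → ℤ | qf B x = 8}.ncard = 398034000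

variable {B : Matrix (Fin 24) (Fin 24) ℤ}

theorem bf_self (x : Fin 24 → ℤ) : bf B x x = qf B x := rfl

theorem bf_add_left (x y z : Fin 24 → ℤ) : bf B (x + y) z = bf B x z + bf B y z := by
  unfold bf
  rw [add_dotProduct]

theorem bf_add_right (x y z : Fin 24 → ℤ) : bf B x (y + z) = bf B x y + bf B x z := by
  unfold bf
  rw [mulVec_add, dotProduct_add]

theorem bf_smul_left (c : ℤ) (x y : Fin 24 → ℤ) : bf B (c • x) y = c * bf B x y := by
  unfold bf
  rw [smul_dotProduct, smul_eq_mul]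

theorem bf_smul_right (c : ℤ) (x y : Fin 24 → ℤ) : bf B x (c • y) = c * bf B x y := by
  unfold bf
  rw [mulVec_smul, dotProduct_smul, smul_eq_mul]

theorem bf_zero_left (y : Fin 24 → ℤ) : bf B 0 y = 0 := by
  unfold bf
  rw [zero_dotProduct]

theorem bf_zero_right (x : Fin 24 → ℤ) : bf B x 0 = 0 := by
  unfold bf
  rw [mulVec_zero, dotProduct_zero]

theorem bf_neg_left (x y : Fin 24 → ℤ) : bf B (-x) y = -bf B x y := by
  unfold bf
  rw [neg_dotProduct]

theorem bf_neg_right (x y : Fin 24 → ℤ) : bf B x (-y) = -bf B x y := by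
  unfold bf
  rw [mulVec_neg, dotProduct_neg]

theorem bf_sub_left (x y z : Fin 24 → ℤ) : bf B (x - y) z = bf B x z - bf B y z := by
  rw [sub_eq_add_neg, bf_add_left, bf_neg_left, sub_eq_add_neg]

theorem bf_sub_right (x y z : Fin 24 → ℤ) : bf B x (y - z) = bf B x y - bf B x z := by
  rw [sub_eq_add_neg, bf_add_right, bf_neg_right, sub_eq_add_neg]

theorem bf_comm (hB : B.IsSymm) (x y : Fin 24 → ℤ) : bf B x y = bf B y x := by
  unfold bf
  rw [dotProduct_mulVec, ← mulVec_transpose, hB.eq, dotProduct_comm]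

theorem bf_sum_left {ι : Type*} (s : Finset ι) (a : ι → ℤ) (v : ι → Fin 24 → ℤ)
    (y : Fin 24 → ℤ) : bf B (∑ i ∈ s, a i • v i) y = ∑ i ∈ s, a i * bf B (v i) y := by
  classical
  induction s using Finset.induction_on with
  | empty => simp [bf_zero_left]
  | insert i s hi ih => rw [Finset.sum_insert hi, Finset.sum_insert hi, bf_add_left, bf_smul_left, ih]

theorem bf_sum_right {ι : Type*} (s : Finset ι) (a : ι → ℤ) (v : ι → Fin 24 → ℤ)
    (x : Fin 24 → ℤ) : bf B x (∑ i ∈ s, a i • v i) = ∑ i ∈ s, a i * bf B x (v i) := by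
  classical
  induction s using Finset.induction_on with
  | empty => simp [bf_zero_right]
  | insert i s hi ih =>
    rw [Finset.sum_insert hi, Finset.sum_insert hi, bf_add_right, bf_smul_right, ih]

theorem qf_zero : qf B 0 = 0 := bf_zero_left 0

theorem qf_neg (x : Fin 24 → ℤ) : qf B (-x) = qf B x := by
  rw [← bf_self, bf_neg_left, bf_neg_right, neg_neg, bf_self]

theorem qf_smul (c : ℤ) (x : Fin 24 → ℤ) : qf B (c • x) = c ^ 2 * qf B x := by
  rw [← bf_self, bf_smul_left, bf_smul_right, bf_self]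
  ring

theorem qf_add (hB : B.IsSymm) (x y : Fin 24 → ℤ) :
    qf B (x + y) = qf B x + 2 * bf B x y + qf B y := by
  rw [← bf_self, bf_add_left, bf_add_right, bf_add_right, bf_self, bf_self, bf_comm hB y x]
  ring

theorem qf_sub (hB : B.IsSymm) (x y : Fin 24 → ℤ) :
    qf B (x - y) = qf B x - 2 * bf B x y + qf B y := by
  rw [sub_eq_add_neg, qf_add hB, bf_neg_right, qf_neg]
  ring

theorem qf_ge_four (hB : Hyp B) {x : Fin 24 → ℤ} (hx : x ≠ 0) : 4 ≤ qf B x := by
  have h1 := hB.pos x hx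
  have h2 := hB.even x
  have h3 := hB.no2 x
  omega

theorem qf_eq_zero (hB : Hyp B) {x : Fin 24 → ℤ} (hx : qf B x = 0) : x = 0 := by
  by_contra h
  have := hB.pos x h
  omega

/-- A good coordinate lattice. -/
structure Good (M : AddSubgroup (Fin 24 → ℤ)) : Prop where
  norm16 : ∀ y ∈ M, (16 : ℤ) ∣ ∑ i, y i ^ 2
  norm32 : ∀ y ∈ M, y ≠ 0 → 32 ≤ ∑ i, y i ^ 2
  single8 : ∀ i : Fin 24, (Pi.single i 8 : Fin 24 → ℤ) ∈ M
  pair4 : ∀ i j : Fin 24, i ≠ j → (Pi.single i 4 + Pi.single j 4 : Fin 24 → ℤ) ∈ M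
  parity : ∀ y ∈ M, ∀ i j : Fin 24, y i % 2 = y j % 2

/-- The binary code of a coordinate lattice: the halves, modulo 2, of its vectors with even
coordinates. -/
def code (M : AddSubgroup (Fin 24 → ℤ)) : Submodule (ZMod 2) (Fin 24 → ZMod 2) where
  carrier := {c | ∃ y ∈ M, (∀ i, y i % 2 = 0) ∧ ∀ i, c i = ((y i / 2 : ℤ) : ZMod 2)}
  add_mem' := by
    rintro c c' ⟨y, hy, he, hc⟩ ⟨y', hy', he', hc'⟩
    refine ⟨y + y', M.add_mem hy hy', fun i => ?_, fun i => ?_⟩
    · have := he i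
      have := he' i
      simp only [Pi.add_apply]
      omega
    · have h1 := he i
      have h2 := he' i
      have h3 : (y + y') i / 2 = y i / 2 + y' i / 2 := by
        simp only [Pi.add_apply]
        omega
      rw [Pi.add_apply, hc, hc', h3, Int.cast_add]
  zero_mem' := ⟨0, M.zero_mem, fun i => rfl, fun i => by simp⟩
  smul_mem' := by
    rintro r c ⟨y, hy, he, hc⟩
    have hr : r = 0 ∨ r = 1 := by
      fin_cases r
      · exact Or.inl rfl
      · exact Or.inr rfl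
    rcases hr with rfl | rfl
    · rw [zero_smul]
      exact ⟨0, M.zero_mem, fun i => rfl, fun i => by simp⟩
    · rw [one_smul]
      exact ⟨y, hy, he, hc⟩

theorem mem_code {M : AddSubgroup (Fin 24 → ℤ)} {c : Fin 24 → ZMod 2} :
    c ∈ code M ↔ ∃ y ∈ M, (∀ i, y i % 2 = 0) ∧ ∀ i, c i = ((y i / 2 : ℤ) : ZMod 2) := Iff.rfl

end Cfsg.Agent.Lib.Helper10.LC
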