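import Cfsg.Agent.Lib.Helper10.LC0
import Cfsg.Agent.Lib.Helper10.LeechStruct
import Cfsg.Agent.S0375
import Cfsg.Agent.Lib.Helper78.LCA1
import Cfsg.Agent.Lib.Helper85.LCA2
import Cfsg.Agent.Lib.Helper4.LCA3
import Cfsg.Agent.Lib.Helper78.LCA4
import Cfsg.Agent.Lib.Helper2.LCA5
import Cfsg.Agent.Lib.Helper65.LCA6
import Cfsg.Agent.Lib.Helper73.LCB1
import Cfsg.Agent.Lib.Helper65.LCB2
import Cfsg.Agent.Lib.Helper89.LCB3
import Cfsg.Agent.Lib.Helper67.LCB4
import Cfsg.Agent.Lib.Helper32.LCB5
import Cfsg.Agent.Lib.Helper65.LCB6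
import Cfsg.Agent.Lib.Helper12.LCB7
import Cfsg.Agent.Lib.Helper12.LCB8
import Cfsg.Agent.Lib.Helper18.LCB9
import Cfsg.Agent.Lib.Helper5.LCB10
import Cfsg.Agent.Lib.Helper18.LCB11
import Cfsg.Agent.Lib.Helper16.LCB12
import Cfsg.Agent.Lib.Helper89.LCB13

/-! # Characterisation of the rank-24 lattice: assembly

The pieces were proved by helper2, helper4, helper5, helper12, helper16, helper18, helper32,
helper65, helper67, helper73, helper78, helper85 and helper89 (job board, notes 925 and 926). -/

set_option autoImplicit false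

namespace Cfsg.Agent.Lib.Helper10.LC

open Matrix Cfsg Cfsg.Agent.Lib.Helper9 Cfsg.Agent.Lib.Helper10

theorem short_pair {B : Matrix (Fin 24) (Fin 24) ℤ} (hB : Hyp B) (x y z : Fin 24 → ℤ)
    (hx : qf B x ≤ 8) (hy : qf B y ≤ 8) (hz : x - y = (2 : ℤ) • z) (h1 : x ≠ y) (h2 : x ≠ -y) :
    qf B x = 8 ∧ qf B y = 8 ∧ bf B x y = 0 := by
  have hz0 : z ≠ 0 := by
    rintro rfl
    rw [smul_zero, sub_eq_zero] at hz
    exact h1 hz
  have hw : x + y = (2 : ℤ) • (z + y) := by
    rw [smul_add, ← hz, two_smul]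
    abel
  have hw0 : z + y ≠ 0 := by
    intro h
    rw [h, smul_zero] at hw
    exact h2 (eq_neg_of_add_eq_zero_left hw)
  have e1 : qf B (x - y) = 4 * qf B z := by
    rw [hz, qf_smul]
    norm_num
  have e2 : qf B (x + y) = 4 * qf B (z + y) := by
    rw [hw, qf_smul]
    norm_num
  have e3 := qf_add hB.symm x y
  have e4 := qf_sub hB.symm x y
  have g1 := qf_ge_four hB hz0
  have g2 := qf_ge_four hB hw0
  refine ⟨by omega, by omega, by omega⟩

/-- Coordinates with respect to an orthogonal frame. -/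
theorem exists_coords {B : Matrix (Fin 24) (Fin 24) ℤ} (hB : Hyp B) :
    ∃ φ : (Fin 24 → ℤ) →+ (Fin 24 → ℤ), Function.Injective φ ∧
      (∀ x, ∑ i, φ x i ^ 2 = 8 * qf B x) ∧ Good φ.range ∧
      {y : Fin 24 → ℤ | y ∈ φ.range ∧ ∑ i, y i ^ 2 = 32}.ncard = 196560 := by
  have hsp := short_pair hB
  have hoc := fun s h0 ho => Cfsg.Agent.Lib.Helper78.LCA.orth_card_le hB s h0 ho
  have hle := fun x hx => Cfsg.Agent.Lib.Helper85.LCA2.class_le hB hsp hoc x hx
  have hcc := fun x hx => Cfsg.Agent.Lib.Helper4.LCA3.class_card hB hsp hle x hx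
  obtain ⟨e, he8, heo, hec⟩ := Cfsg.Agent.Lib.Helper78.LCA.frame_exists hB hsp hoc hcc
  exact Cfsg.Agent.Lib.Helper65.LCA6.coords_good hB e he8 heo hec (fun x => Cfsg.Agent.Lib.Helper2.LCA5.frame_expand hB hoc e he8 heo x)

theorem min_weight {C : Submodule (ZMod 2) (Fin 24 → ZMod 2)}
    (hw : ∀ c ∈ C, 4 ∣ hammingNorm c ∧ hammingNorm c ≠ 4) :
    ∀ c ∈ C, c ≠ 0 → 8 ≤ hammingNorm c := by
  intro c hc h0
  obtain ⟨⟨k, hk⟩, b⟩ := hw c hc
  have h1 : 0 < hammingNorm c := hammingNorm_pos_iff.mpr h0
  omega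

/-- The code of a good lattice with the right number of minimal vectors has dimension 12, and the
lattice has vectors with odd coordinates. -/
theorem good_dim {M : AddSubgroup (Fin 24 → ℤ)} (hM : Good M)
    (hcount : {y : Fin 24 → ℤ | y ∈ M ∧ ∑ i, y i ^ 2 = 32}.ncard = 196560) :
    Module.finrank (ZMod 2) (code M) = 12 ∧ ∃ y ∈ M, ∀ i, y i % 2 = 1 := by
  have h4 := Cfsg.Agent.Lib.Helper73.LCB1.four_mem hM
  have hnf := fun c hc => Cfsg.Agent.Lib.Helper65.LCB2.code_normal_form hM (fun z hz => (h4 z).mpr hz) c hc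
  have hw := fun c hc => Cfsg.Agent.Lib.Helper89.LCB3.code_weights hM hnf c hc
  have horth := Cfsg.Agent.Lib.Helper67.LCB4.code_orth (code M) (fun c hc => (hw c hc).1)
  have hle := Cfsg.Agent.Lib.Helper32.LCB5.code_dim_le (code M) horth
  have hmin := min_weight hw
  have hoct := Cfsg.Agent.Lib.Helper65.LCB6.octad_bound (code M) hmin
  obtain ⟨hfin4, hc4⟩ := Cfsg.Agent.Lib.Helper12.LCB7.four_count
  have he2 := Cfsg.Agent.Lib.Helper12.LCB8.even_min_count_two hM hmin
  have hodd := Cfsg.Agent.Lib.Helper18.LCB9.odd_min_count hM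
  have hcard : Nat.card (code M) = 2 ^ Module.finrank (ZMod 2) (code M) := by
    rw [Module.natCard_eq_pow_finrank (K := ZMod 2), Nat.card_zmod]
  have hdecomp : {y : Fin 24 → ℤ | y ∈ M ∧ ∑ i, y i ^ 2 = 32} =
      {y : Fin 24 → ℤ | y ∈ M ∧ ∑ i, y i ^ 2 = 32 ∧ ∀ i, y i % 4 = 0} ∪
      ({y : Fin 24 → ℤ | y ∈ M ∧ ∑ i, y i ^ 2 = 32 ∧ (∀ i, y i % 2 = 0) ∧ ∃ i, y i % 4 = 2} ∪
        {y : Fin 24 → ℤ | y ∈ M ∧ ∑ i, y i ^ 2 = 32 ∧ ∀ i, y i % 2 = 1}) := by
    ext y
    constructor
    · rintro ⟨hy, hn⟩
      by_cases ho : y 0 % 2 = 1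
      · right
        right
        exact ⟨hy, hn, fun i => by have := hM.parity y hy i 0; omega⟩
      · have hev : ∀ i, y i % 2 = 0 := fun i => by have := hM.parity y hy i 0; omega
        by_cases h2 : ∃ i, y i % 4 = 2
        · right
          left
          exact ⟨hy, hn, hev, h2⟩
        · left
          push Not at h2
          exact ⟨hy, hn, fun i => by have := hev i; have := h2 i; omega⟩
    · rintro (⟨hy, hn, -⟩ | ⟨hy, hn, -⟩ | ⟨hy, hn, -⟩) <;> exact And.intro hy hn
  have h1 := (Set.ncard_union_le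
    {y : Fin 24 → ℤ | y ∈ M ∧ ∑ i, y i ^ 2 = 32 ∧ ∀ i, y i % 4 = 0}
    ({y : Fin 24 → ℤ | y ∈ M ∧ ∑ i, y i ^ 2 = 32 ∧ (∀ i, y i % 2 = 0) ∧ ∃ i, y i % 4 = 2} ∪
        {y : Fin 24 → ℤ | y ∈ M ∧ ∑ i, y i ^ 2 = 32 ∧ ∀ i, y i % 2 = 1}))
  have h2 := (Set.ncard_union_le
    {y : Fin 24 → ℤ | y ∈ M ∧ ∑ i, y i ^ 2 = 32 ∧ (∀ i, y i % 2 = 0) ∧ ∃ i, y i % 4 = 2}
    {y : Fin 24 → ℤ | y ∈ M ∧ ∑ i, y i ^ 2 = 32 ∧ ∀ i, y i % 2 = 1})
  rw [← hdecomp, hcount] at h1
  have h3 : {y : Fin 24 → ℤ | y ∈ M ∧ ∑ i, y i ^ 2 = 32 ∧ ∀ i, y i % 4 = 0}.ncard ≤ 1104 :=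
    (Set.ncard_le_ncard (t := {y : Fin 24 → ℤ | ∑ i, y i ^ 2 = 32 ∧ ∀ i, y i % 4 = 0})
      (fun y hy => And.intro hy.2.1 hy.2.2) hfin4).trans hc4
  rw [hcard] at hodd
  have hpow : 2 ^ Module.finrank (ZMod 2) (code M) ≤ 2 ^ 12 := Nat.pow_le_pow_right (by norm_num) hle
  constructor
  · have h5 : 4096 ≤ 2 ^ Module.finrank (ZMod 2) (code M) := by omega
    generalize Module.finrank (ZMod 2) (code M) = k at hle h5
    interval_cases k <;> omega
  · by_contra hno
    have h6 : {y : Fin 24 → ℤ | y ∈ M ∧ ∑ i, y i ^ 2 = 32 ∧ ∀ i, y i % 2 = 1} = ∅ := by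
      ext y
      simp only [Set.mem_ofPred_eq, Set.mem_empty_iff_false, iff_false]
      rintro ⟨hy, -, ho⟩
      exact hno ⟨y, hy, ho⟩
    have h7 : {y : Fin 24 → ℤ | y ∈ M ∧ ∑ i, y i ^ 2 = 32 ∧ ∀ i, y i % 2 = 1}.ncard = 0 := by
      rw [h6, Set.ncard_empty]
    omega

theorem half_cast (a : ℤ) (ha : a % 2 = 0) :
    (if a % 4 = 2 then (1 : ZMod 2) else 0) = ((a / 2 : ℤ) : ZMod 2) := by
  have h2 : (2 : ZMod 2) = 0 := rfl
  by_cases h : a % 4 = 2
  · rw [if_pos h]
    have e : a / 2 = 2 * (a / 4) + 1 := by omega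
    rw [e]
    push_cast
    rw [h2, zero_mul, zero_add]
  · rw [if_neg h]
    have e : a / 2 = 2 * (a / 4) := by omega
    rw [e]
    push_cast
    rw [h2, zero_mul]

theorem dec_eq_one_iff (μ : ℕ) (p : GolayPt) : dec μ p = 1 ↔ μ.testBit (idx p) = true := by
  unfold dec
  by_cases h : μ.testBit (idx p) = true
  · rw [if_pos h]
    exact iff_of_true rfl h
  · rw [if_neg h]
    exact iff_of_false (by decide) h

/-- A good lattice with the right number of minimal vectors is the rank-24 lattice, up to a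
bijection of the coordinates and sign changes. -/
theorem good_char {M : AddSubgroup (Fin 24 → ℤ)} (hM : Good M)
    (hcount : {y : Fin 24 → ℤ | y ∈ M ∧ ∑ i, y i ^ 2 = 32}.ncard = 196560) :
    ∃ (e : Fin 24 ≃ GolayPt) (ε : Fin 24 → ℤ), (∀ i, ε i = 1 ∨ ε i = -1) ∧
      ∀ y : Fin 24 → ℤ, y ∈ M ↔ (fun p => ε (e.symm p) * y (e.symm p)) ∈ leechSet := by
  have h4 := Cfsg.Agent.Lib.Helper73.LCB1.four_mem hM
  have h4' : ∀ z : Fin 24 → ℤ, (∑ i, z i) % 2 = 0 → (fun i => 4 * z i) ∈ M :=
    fun z hz => (h4 z).mpr hz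
  have hnf := fun c hc => Cfsg.Agent.Lib.Helper65.LCB2.code_normal_form hM h4' c hc
  have hw := fun c hc => Cfsg.Agent.Lib.Helper89.LCB3.code_weights hM hnf c hc
  have hw4 : ∀ c ∈ code M, 4 ∣ hammingNorm c := fun c hc => (hw c hc).1
  have horth := Cfsg.Agent.Lib.Helper67.LCB4.code_orth (code M) hw4
  obtain ⟨hdim, y0, hy0, hodd0⟩ := good_dim hM hcount
  have hsd := fun t ht => Cfsg.Agent.Lib.Helper32.LCB5.code_self_dual (code M) horth hdim t ht
  obtain ⟨e, he⟩ := Cfsg.Agent.S0375.result (code M) hdim horth hw4 (fun c hc => (hw c hc).2)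
  obtain ⟨ε, hε, hsum⟩ := Cfsg.Agent.Lib.Helper5.LCB10.sign_normalise hM h4 hw4
  have hpat := fun y hy hodd => Cfsg.Agent.Lib.Helper18.LCB11.odd_pattern_mem hM ε hε hsum hnf hsd y hy hodd
  have hos := fun y hy hodd => Cfsg.Agent.Lib.Helper16.LCB12.odd_sum hM ε hε h4' hw4 y hy hodd (hpat y hy hodd)
  have hme := fun y heven hc hs => Cfsg.Agent.Lib.Helper89.LCB13.mem_of_even hM ε hε hsum hnf h4' y heven hc hs
  refine ⟨e, ε, hε, fun y => ?_⟩
  have hsumeq : ∑ p, ε (e.symm p) * y (e.symm p) = ∑ i, ε i * y i :=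
    Equiv.sum_comp e.symm (fun i => ε i * y i)
  rw [mem_leechSet_struct, hsumeq]
  constructor
  · intro hy
    by_cases ho : y 0 % 2 = 1
    · have hoa : ∀ i, y i % 2 = 1 := fun i => by have := hM.parity y hy i 0; omega
      have hp := hpat y hy hoa
      have hg : (fun p => if (ε (e.symm p) * y (e.symm p)) % 4 = 3 then (1 : ZMod 2) else 0) ∈
          golayCode := by
        rw [he]
        have e1 : (fun i => (fun p => if (ε (e.symm p) * y (e.symm p)) % 4 = 3 then (1 : ZMod 2)
            else 0) (e i)) = fun i => if (ε i * y i) % 4 = 3 then (1 : ZMod 2) else 0 := by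
          funext i
          simp only [Equiv.symm_apply_apply]
        rw [e1]
        exact hp
      obtain ⟨μ, hμ, hwμ⟩ := (mem_golayCode_iff _).mp hg
      refine ⟨1, by norm_num, μ, hμ, fun p => ?_, ?_⟩
      · have h1 := congrFun hwμ p
        have h2 : (ε (e.symm p) * y (e.symm p)) % 2 = 1 := by
          have := hoa (e.symm p)
          rcases hε (e.symm p) with h | h <;> rw [h] <;> omega
        rcases bitZ_cases μ p with ⟨hb, hz⟩ | ⟨hb, hz⟩
        · have h3 : (ε (e.symm p) * y (e.symm p)) % 4 = 3 := by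
            by_contra hA
            have h5 := (dec_eq_one_iff μ p).mpr hb
            rw [← h1] at h5
            simp only [if_neg hA] at h5
            exact absurd h5 (by decide)
          rw [hz, h3]
          norm_num
        · have h3 : ¬ (ε (e.symm p) * y (e.symm p)) % 4 = 3 := by
            intro hA
            have h5 : ¬ dec μ p = 1 := fun h => by rw [(dec_eq_one_iff μ p).mp h] at hb; exact absurd hb (by decide)
            rw [← h1] at h5
            simp only [if_pos hA] at h5
            exact h5 trivial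
          rw [hz]
          push_cast
          omega
      · have := hos y hy hoa
        rw [this]
        norm_num
    · have hev : ∀ i, y i % 2 = 0 := fun i => by have := hM.parity y hy i 0; omega
      have hp : (fun i => if y i % 4 = 2 then (1 : ZMod 2) else 0) ∈ code M :=
        mem_code.mpr ⟨y, hy, hev, fun i => half_cast (y i) (hev i)⟩
      have hg : (fun p => if y (e.symm p) % 4 = 2 then (1 : ZMod 2) else 0) ∈ golayCode := by
        rw [he]
        have e1 : (fun i => (fun p => if y (e.symm p) % 4 = 2 then (1 : ZMod 2) else 0) (e i)) =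
            fun i => if y i % 4 = 2 then (1 : ZMod 2) else 0 := by
          funext i
          simp only [Equiv.symm_apply_apply]
        rw [e1]
        exact hp
      obtain ⟨μ, hμ, hwμ⟩ := (mem_golayCode_iff _).mp hg
      refine ⟨0, by norm_num, μ, hμ, fun p => ?_, ?_⟩
      · have h1 := congrFun hwμ p
        have h2 := hev (e.symm p)
        rcases bitZ_cases μ p with ⟨hb, hz⟩ | ⟨hb, hz⟩
        · have h3 : y (e.symm p) % 4 = 2 := by
            by_contra hA
            have h5 := (dec_eq_one_iff μ p).mpr hb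
            rw [← h1] at h5
            simp only [if_neg hA] at h5
            exact absurd h5 (by decide)
          rw [hz]
          push_cast
          rcases hε (e.symm p) with h | h <;> rw [h] <;> omega
        · have h3 : ¬ y (e.symm p) % 4 = 2 := by
            intro hA
            have h5 : ¬ dec μ p = 1 := fun h => by rw [(dec_eq_one_iff μ p).mp h] at hb; exact absurd hb (by decide)
            rw [← h1] at h5
            simp only [if_pos hA] at h5
            exact h5 trivial
          rw [hz]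
          push_cast
          rcases hε (e.symm p) with h | h <;> rw [h] <;> omega
      · have := hsum y hy hev
        rw [this]
        norm_num
  · rintro ⟨par, hpar, μ, hμ, hres, hs⟩
    have hres' : ∀ i, (ε i * y i) % 4 = (par : ℤ) + 2 * bitZ μ (e i) := by
      intro i
      have := hres (e i)
      rw [Equiv.symm_apply_apply] at this
      exact this
    have hdecg : dec μ ∈ golayCode := (mem_golayCode_iff _).mpr ⟨μ, hμ, rfl⟩
    have hdecc : (fun i => dec μ (e i)) ∈ code M := (he (dec μ)).mp hdecg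
    interval_cases par
    · have heven : ∀ i, y i % 2 = 0 := by
        intro i
        have h1 := hres' i
        rcases bitZ_cases μ (e i) with ⟨hb, hz⟩ | ⟨hb, hz⟩ <;> rw [hz] at h1 <;>
          rcases hε i with h | h <;> rw [h] at h1 <;> push_cast at h1 <;> omega
      refine hme y heven ?_ ?_
      · have e1 : (fun i => if y i % 4 = 2 then (1 : ZMod 2) else 0) = fun i => dec μ (e i) := by
          funext i
          have h1 := hres' i
          rcases bitZ_cases μ (e i) with ⟨hb, hz⟩ | ⟨hb, hz⟩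
          · rw [(dec_eq_one_iff μ (e i)).mpr hb, if_pos]
            rw [hz] at h1
            rcases hε i with h | h <;> rw [h] at h1 <;> push_cast at h1 <;> omega
          · have h5 : dec μ (e i) = 0 := by
              unfold dec
              rw [if_neg (by rw [hb]; decide)]
            rw [h5, if_neg]
            rw [hz] at h1
            rcases hε i with h | h <;> rw [h] at h1 <;> push_cast at h1 <;> omega
        rw [e1]
        exact hdecc
      · rw [hs]
        norm_num
    · have hoy : ∀ i, y i % 2 = 1 := by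
        intro i
        have h1 := hres' i
        rcases bitZ_cases μ (e i) with ⟨hb, hz⟩ | ⟨hb, hz⟩ <;> rw [hz] at h1 <;>
          rcases hε i with h | h <;> rw [h] at h1 <;> push_cast at h1 <;> omega
      have hty : (fun i => if (ε i * y i) % 4 = 3 then (1 : ZMod 2) else 0) ∈ code M := by
        have e1 : (fun i => if (ε i * y i) % 4 = 3 then (1 : ZMod 2) else 0) =
            fun i => dec μ (e i) := by
          funext i
          have h1 := hres' i
          rcases bitZ_cases μ (e i) with ⟨hb, hz⟩ | ⟨hb, hz⟩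
          · rw [(dec_eq_one_iff μ (e i)).mpr hb, if_pos]
            rw [hz] at h1
            push_cast at h1
            omega
          · have h5 : dec μ (e i) = 0 := by
              unfold dec
              rw [if_neg (by rw [hb]; decide)]
            rw [h5, if_neg]
            rw [hz] at h1
            push_cast at h1
            omega
        rw [e1]
        exact hdecc
      have hty0 := hpat y0 hy0 hodd0
      have hd : y - y0 ∈ M := by
        refine hme (y - y0) ?_ ?_ ?_
        · intro i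
          have := hoy i
          have := hodd0 i
          simp only [Pi.sub_apply]
          omega
        · have e1 : (fun i => if (y - y0) i % 4 = 2 then (1 : ZMod 2) else 0) =
              (fun i => if (ε i * y i) % 4 = 3 then (1 : ZMod 2) else 0) +
              (fun i => if (ε i * y0 i) % 4 = 3 then (1 : ZMod 2) else 0) := by
            funext i
            have a1 := hoy i
            have a2 := hodd0 i
            have h11 : (1 : ZMod 2) + 1 = 0 := rfl
            simp only [Pi.sub_apply, Pi.add_apply]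
            rcases hε i with h | h <;> rw [h] <;> split_ifs <;>
              first | rfl | exact h11.symm | (exfalso; omega) | simp
          rw [e1]
          exact (code M).add_mem hty hty0
        · have e1 : ∑ i, ε i * (y - y0) i = ∑ i, ε i * y i - ∑ i, ε i * y0 i := by
            rw [← Finset.sum_sub_distrib]
            apply Finset.sum_congr rfl
            intro i _
            simp only [Pi.sub_apply]
            ring
          have a1 := hos y0 hy0 hodd0
          rw [e1]
          push_cast at hs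
          omega
      have := M.add_mem hd hy0
      rwa [sub_add_cancel] at this

/-- The characterisation of the rank-24 lattice. -/
theorem leech_char {B : Matrix (Fin 24) (Fin 24) ℤ} (hB : Hyp B) :
    ∃ f : (Fin 24 → ℤ) ≃+ leechLattice,
      ∀ x : Fin 24 → ℤ, sqNorm ((f x : leechLattice) : GolayPt → ℤ) = 8 * qf B x := by
  obtain ⟨φ, hinj, hnorm, hgood, hcount⟩ := exists_coords hB
  obtain ⟨e, ε, hε, hchar⟩ := good_char hgood hcount
  have hε2 : ∀ i, ε i * ε i = 1 := by
    intro i
    rcases hε i with h | h <;> rw [h] <;> norm_num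
  have hmem : ∀ x, (fun p => ε (e.symm p) * φ x (e.symm p)) ∈ leechLattice :=
    fun x => (mem_leechLattice_iff _).mpr ((hchar (φ x)).mp ⟨x, rfl⟩)
  let F : (Fin 24 → ℤ) →+ leechLattice :=
    { toFun := fun x => ⟨fun p => ε (e.symm p) * φ x (e.symm p), hmem x⟩
      map_zero' := by
        apply Subtype.ext
        funext p
        show ε (e.symm p) * φ 0 (e.symm p) = 0
        rw [map_zero]
        simp
      map_add' := by
        intro x x'
        apply Subtype.ext
        funext p
        show ε (e.symm p) * φ (x + x') (e.symm p) =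
          ε (e.symm p) * φ x (e.symm p) + ε (e.symm p) * φ x' (e.symm p)
        rw [map_add, Pi.add_apply, mul_add] }
  have hFinj : Function.Injective F := by
    intro x x' h
    apply hinj
    funext i
    have h1 := congrFun (congrArg Subtype.val h) (e i)
    have h2 : ε i * φ x i = ε i * φ x' i := by
      have h3 : ε (e.symm (e i)) * φ x (e.symm (e i)) = ε (e.symm (e i)) * φ x' (e.symm (e i)) := h1
      rwa [Equiv.symm_apply_apply] at h3
    have h4 := congrArg (fun t => ε i * t) h2
    simp only [← mul_assoc, hε2, one_mul] at h4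
    exact h4
  have hFsurj : Function.Surjective F := by
    intro v
    have hv : (fun p => ε (e.symm p) * (fun i => ε i * (v : GolayPt → ℤ) (e i)) (e.symm p)) =
        (v : GolayPt → ℤ) := by
      funext p
      show ε (e.symm p) * (ε (e.symm p) * (v : GolayPt → ℤ) (e (e.symm p))) = _
      rw [Equiv.apply_symm_apply, ← mul_assoc, hε2, one_mul]
    have hy : (fun i => ε i * (v : GolayPt → ℤ) (e i)) ∈ φ.range := by
      rw [hchar, hv]
      exact (mem_leechLattice_iff _).mp v.2
    obtain ⟨x, hx⟩ := hy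
    refine ⟨x, Subtype.ext ?_⟩
    show (fun p => ε (e.symm p) * φ x (e.symm p)) = (v : GolayPt → ℤ)
    rw [hx]
    exact hv
  refine ⟨AddEquiv.ofBijective F ⟨hFinj, hFsurj⟩, fun x => ?_⟩
  show sqNorm (fun p => ε (e.symm p) * φ x (e.symm p)) = 8 * qf B x
  rw [← hnorm x]
  unfold sqNorm
  rw [Equiv.sum_comp e.symm (fun i => (ε i * φ x i) ^ 2)]
  apply Finset.sum_congr rfl
  intro i _
  rw [mul_pow, pow_two (ε i), hε2, one_mul]

end Cfsg.Agent.Lib.Helper10.LC
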