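import Mathlib
import Cfsg.Agent.Lib.Helper10.LeechClosed

set_option autoImplicit false

namespace Cfsg.Agent.Lib.Helper10

open Cfsg

theorem sq_emod16 (a : ℤ) : a ^ 2 % 16 = (a % 16) ^ 2 % 16 := by
  rw [pow_two, pow_two, Int.mul_emod]

theorem card_resSet_eq_sum (x : GolayPt → ℤ) (k : ℤ) :
    ((resSet x k).card : ℤ) = ∑ i, (if x i % 4 = k % 4 then (1 : ℤ) else 0) := by
  unfold resSet
  rw [Finset.card_filter]
  push_cast
  apply Finset.sum_congr rfl
  intro i _
  exact if_congr Iff.rfl rfl rfl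

/-- Even vectors: the sum of squares is `4 * #{i | x i ≡ 2 mod 4}` modulo 16. -/
theorem sqNorm_even_aux (x : GolayPt → ℤ) (h : ∀ i, x i % 2 = 0) :
    (16 : ℤ) ∣ sqNorm x - 4 * ((resSet x 2).card : ℤ) := by
  rw [card_resSet_eq_sum, sqNorm, Finset.mul_sum, ← Finset.sum_sub_distrib]
  apply Finset.dvd_sum
  intro i _
  have h1 := h i
  have h2 := sq_emod16 (x i)
  have h3 : x i % 16 = 0 ∨ x i % 16 = 2 ∨ x i % 16 = 4 ∨ x i % 16 = 6 ∨ x i % 16 = 8 ∨
      x i % 16 = 10 ∨ x i % 16 = 12 ∨ x i % 16 = 14 := by omega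
  rcases h3 with h3 | h3 | h3 | h3 | h3 | h3 | h3 | h3 <;> rw [h3] at h2 <;>
    norm_num at h2 <;> split_ifs <;> omega

/-- Indicator of `x i ≡ ±3 mod 8`. -/
def ind3 (a : ℤ) : ℤ := if a % 8 = 3 ∨ a % 8 = 5 then 1 else 0

theorem sqNorm_odd_aux (x : GolayPt → ℤ) (h : ∀ i, x i % 2 = 1) :
    (16 : ℤ) ∣ sqNorm x - (24 + 8 * ∑ i, ind3 (x i)) := by
  have h24 : (24 : ℤ) = ∑ _i : GolayPt, (1 : ℤ) := by
    simp [Finset.card_univ]
  rw [h24, sqNorm, Finset.mul_sum, ← Finset.sum_add_distrib, ← Finset.sum_sub_distrib]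
  apply Finset.dvd_sum
  intro i _
  have h1 := h i
  have h2 := sq_emod16 (x i)
  unfold ind3
  have h3 : x i % 16 = 1 ∨ x i % 16 = 3 ∨ x i % 16 = 5 ∨ x i % 16 = 7 ∨ x i % 16 = 9 ∨
      x i % 16 = 11 ∨ x i % 16 = 13 ∨ x i % 16 = 15 := by omega
  rcases h3 with h3 | h3 | h3 | h3 | h3 | h3 | h3 | h3 <;> rw [h3] at h2 <;>
    norm_num at h2 <;> split_ifs <;> omega

theorem sum_odd_aux (x : GolayPt → ℤ) (h : ∀ i, x i % 2 = 1) :
    (8 : ℤ) ∣ (∑ i, x i) - (4 * (∑ i, ind3 (x i)) + 2 * ((resSet x 1).card : ℤ) - 24) := by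
  have h24 : (24 : ℤ) = ∑ _i : GolayPt, (1 : ℤ) := by
    simp [Finset.card_univ]
  rw [card_resSet_eq_sum, h24, Finset.mul_sum, Finset.mul_sum, ← Finset.sum_add_distrib,
    ← Finset.sum_sub_distrib, ← Finset.sum_sub_distrib]
  apply Finset.dvd_sum
  intro i _
  have h1 := h i
  unfold ind3
  split_ifs <;> omega

theorem sqNorm_dvd_of (hDE : ∀ S ∈ gsup, 4 ∣ S.card) {x : GolayPt → ℤ} (hx : x ∈ leechSet) :
    (16 : ℤ) ∣ sqNorm x := by
  rw [mem_leechSet_iff] at hx
  obtain ⟨m, h1, h2, h3⟩ := hx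
  rcases Int.emod_two_eq_zero_or_one m with hm | hm
  · have ha := sqNorm_even_aux x (fun i => by rw [h1 i, hm])
    obtain ⟨c, hc⟩ := hDE _ (h3 2)
    rw [hc] at ha
    push_cast at ha
    omega
  · have ha := sqNorm_odd_aux x (fun i => by rw [h1 i, hm])
    have hb := sum_odd_aux x (fun i => by rw [h1 i, hm])
    obtain ⟨c, hc⟩ := hDE _ (h3 1)
    rw [hc] at hb
    push_cast at hb
    omega

theorem min_norm_of (hDE : ∀ S ∈ gsup, 4 ∣ S.card) (hW4 : ∀ S ∈ gsup, S.card ≠ 4)
    {x : GolayPt → ℤ} (hx : x ∈ leechSet) (h0 : x ≠ 0) : 32 ≤ sqNorm x := by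
  have hdvd := sqNorm_dvd_of hDE hx
  have hnn : ∀ i, 0 ≤ x i ^ 2 := fun i => sq_nonneg _
  suffices h : 16 < sqNorm x by omega
  rw [mem_leechSet_iff] at hx
  obtain ⟨m, h1, h2, h3⟩ := hx
  rcases Int.emod_two_eq_zero_or_one m with hm | hm
  · by_cases hT : (resSet x 2).card = 0
    · have h4 : ∀ i, x i % 4 = 0 := by
        intro i
        have hi : i ∉ resSet x 2 := by
          rw [Finset.card_eq_zero.1 hT]
          exact Finset.notMem_empty i
        rw [mem_resSet] at hi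
        have := h1 i
        omega
      obtain ⟨j, hj⟩ : ∃ j, x j ≠ 0 := by
        by_contra hcon
        exact h0 (funext fun i => by
          by_contra hi
          exact hcon ⟨i, hi⟩)
      by_contra hle
      have hsplit : sqNorm x = x j ^ 2 + ∑ i ∈ Finset.univ.erase j, x i ^ 2 := by
        unfold sqNorm
        exact (Finset.add_sum_erase _ (fun i => x i ^ 2) (Finset.mem_univ j)).symm
      have hrest : 0 ≤ ∑ i ∈ Finset.univ.erase j, x i ^ 2 :=
        Finset.sum_nonneg (fun i _ => hnn i)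
      have hj16 : 16 ≤ x j ^ 2 := by
        have := h4 j
        have hc : x j ≤ -4 ∨ 4 ≤ x j := by omega
        rcases hc with h | h <;> nlinarith
      have hrest0 : ∑ i ∈ Finset.univ.erase j, x i ^ 2 = 0 := by omega
      have hxj : x j ^ 2 = 16 := by omega
      have hzero : ∀ i ∈ Finset.univ.erase j, x i = 0 := by
        intro i hi
        have := (Finset.sum_eq_zero_iff_of_nonneg (fun i _ => hnn i)).1 hrest0 i hi
        exact pow_eq_zero_iff (by norm_num) |>.1 this
      have hsum : ∑ i, x i = x j := by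
        rw [← Finset.add_sum_erase _ _ (Finset.mem_univ j), Finset.sum_eq_zero hzero, add_zero]
      have hxj' : x j = 4 ∨ x j = -4 := by
        have h5 : (x j - 4) * (x j + 4) = 0 := by ring_nf; omega
        rcases mul_eq_zero.1 h5 with h | h
        · left; omega
        · right; omega
      rw [hsum] at h2
      omega
    · have hT4 := hDE _ (h3 2)
      have hT4' := hW4 _ (h3 2)
      have hT8 : 8 ≤ (resSet x 2).card := by omega
      have hle : (4 : ℤ) * (resSet x 2).card ≤ sqNorm x := by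
        calc (4 : ℤ) * (resSet x 2).card = ∑ i ∈ resSet x 2, (4 : ℤ) := by
              simp [mul_comm]
          _ ≤ ∑ i ∈ resSet x 2, x i ^ 2 := Finset.sum_le_sum (fun i hi => by
              rw [mem_resSet] at hi
              have hc : x i ≤ -2 ∨ 2 ≤ x i := by omega
              rcases hc with h | h <;> nlinarith)
          _ ≤ sqNorm x := Finset.sum_le_sum_of_subset_of_nonneg (Finset.subset_univ _)
              (fun i _ _ => hnn i)
      have : (8 : ℤ) ≤ (resSet x 2).card := by exact_mod_cast hT8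
      omega
  · have : (24 : ℤ) ≤ sqNorm x := by
      calc (24 : ℤ) = ∑ _i : GolayPt, (1 : ℤ) := by simp [Finset.card_univ]
        _ ≤ sqNorm x := Finset.sum_le_sum (fun i _ => by
            have := h1 i
            have hc : x i ≤ -1 ∨ 1 ≤ x i := by omega
            rcases hc with h | h <;> nlinarith)
    omega

end Cfsg.Agent.Lib.Helper10
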