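import Mathlib
import Cfsg.Prelude.Def_Sporadic_a
import Cfsg.Agent.Lib.Helper10.M12

set_option autoImplicit false

namespace Cfsg.Agent.Lib.Helper10

open Cfsg Cfsg.Agent.Lib.Helper9 Cfsg.Agent.S0368
open scoped Pointwise

/-! ### The point stabiliser of the dodecad stabiliser is 3-transitive on the complement -/

theorem perm_inv_apply {α : Type*} (f : Equiv.Perm α) (x : α) : f⁻¹ (f x) = x :=
  Equiv.Perm.inv_eq_iff_eq.mpr rfl

theorem perm_apply_inv {α : Type*} (f : Equiv.Perm α) (x : α) : f (f⁻¹ x) = x := by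
  rw [← Equiv.Perm.mul_apply, mul_inv_cancel]
  rfl

/-- Words for four elements stabilising the reference dodecad and the point `∞`. -/
def m11Words : List (List ℕ) :=
  [[14, 16, 18, 23], [14, 4, 22, 10, 20], [8, 21, 23, 28], [14, 16, 18, 20, 23]]

/-- The stabiliser of the reference dodecad and of the point `∞`. -/
noncomputable def H11 : Subgroup (Equiv.Perm GolayPt) := S ⊓ fixing [23]

theorem mem_S_of_table {σ : Equiv.Perm GolayPt} {T : List ℕ} (hσ : σ ∈ M24) (hT : HasTable σ T)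
    (h : pull T D0 = D0) : σ ∈ S := by
  refine ⟨hσ, ?_⟩
  show σ • D0f = D0f
  have h1 : σ⁻¹ • D0f = D0f := by
    show σ⁻¹ • support₂ (dec D0) = support₂ (dec D0)
    rw [smul_support₂, inv_inv, dec_comp_of_table hT.1 hT.2, h]
  rw [inv_smul_eq_iff] at h1
  exact h1.symm

theorem m11Words_ok : m11Words.all (fun w => pull (prodT sgsTabs w) D0 == D0 &&
    ([23] : List ℕ).all (fun c => decide (c < 24) && (prodT sgsTabs w).getD c 0 == c)) = true := by
  decide +kernel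

theorem good_words {H : Subgroup (Equiv.Perm GolayPt)} (ws : List (List ℕ))
    (h : ∀ w ∈ ws, prodW sgsEnv w ∈ H) :
    Good H (ws.map (prodW sgsEnv)) (ws.map (prodT sgsTabs)) := by
  induction ws with
  | nil => exact List.Forall₂.nil
  | cons w ws ih =>
    exact List.Forall₂.cons ⟨h w List.mem_cons_self, (good_sgs_top.prod w).2⟩
      (ih fun w' hw' => h w' (List.mem_cons_of_mem _ hw'))

theorem good_m11 : Good H11 (m11Words.map (prodW sgsEnv)) (m11Words.map (prodT sgsTabs)) := by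
  apply good_words
  intro w hw
  have h := good_sgs_M24.prod w
  have hc := List.all_eq_true.mp m11Words_ok w hw
  rw [Bool.and_eq_true, beq_iff_eq] at hc
  exact ⟨mem_S_of_table h.1 h.2 hc.1, mem_fixing_of_table h.2 hc.2⟩

theorem reach11_0 : Reach (H11 ⊓ fixing []) (pt 4) 7860304 := by
  have := level_reach good_m11 [] [0, 1] (b := 4) (by norm_num) (by decide +kernel) 12
  have e : orbIter (([0, 1] : List ℕ).map
      (fun i => (m11Words.map (prodT sgsTabs)).getD i idT)) 12 (2 ^ 4) = 7860304 := by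
    decide +kernel
  rwa [e] at this

theorem reach11_1 : Reach (H11 ⊓ fixing [4]) (pt 6) 7860288 := by
  have := level_reach good_m11 [4] [1] (b := 6) (by norm_num) (by decide +kernel) 12
  have e : orbIter (([1] : List ℕ).map
      (fun i => (m11Words.map (prodT sgsTabs)).getD i idT)) 12 (2 ^ 6) = 7860288 := by
    decide +kernel
  rwa [e] at this

theorem reach11_2 : Reach (H11 ⊓ fixing [6, 4]) (pt 12) 7860224 := by
  have := level_reach good_m11 [6, 4] [2, 3] (b := 12) (by norm_num) (by decide +kernel) 12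
  have e : orbIter (([2, 3] : List ℕ).map
      (fun i => (m11Words.map (prodT sgsTabs)).getD i idT)) 12 (2 ^ 12) = 7860224 := by
    decide +kernel
  rwa [e] at this

theorem not_mem_D0f {q : GolayPt} : q ∉ D0f ↔ D0.testBit (idx q) = false := by
  rw [D0f, mem_support₂, dec_ne_zero_iff, Bool.not_eq_true]

theorem compl_bits : ∀ i < 24, D0.testBit i = false →
    (Nat.testBit 7860304 i = true ∧ (i ≠ 4 → Nat.testBit 7860288 i = true) ∧
      (i ≠ 4 → i ≠ 6 → Nat.testBit 7860224 i = true)) := by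
  decide +kernel

theorem idx_ne_of_ne {q : GolayPt} {c : ℕ} (h : q ≠ pt c) : idx q ≠ c := by
  intro h1
  apply h
  rw [← h1, pt_idx]

theorem H11_not_mem {σ : Equiv.Perm GolayPt} (hσ : σ ∈ H11) {q : GolayPt} (hq : q ∉ D0f) :
    σ q ∉ D0f := by
  intro h
  apply hq
  have h1 : σ • D0f = D0f := hσ.1.2
  have h2 : σ • q ∈ σ • D0f := by
    rw [h1]
    exact h
  exact (Finset.smul_mem_smul_finset_iff _).mp h2

/-- Every injective triple outside the reference dodecad is the image of the triple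
`(4, 6, 12)` under an element stabilising the reference dodecad and the point `∞`. -/
theorem m11_three_base (x : Fin 3 ↪ GolayPt) (hx : ∀ i, x i ∉ D0f) :
    ∃ σ ∈ H11, σ (pt 4) = x 0 ∧ σ (pt 6) = x 1 ∧ σ (pt 12) = x 2 := by
  -- first point
  have b0 := compl_bits _ (idx_lt (x 0)) (not_mem_D0f.mp (hx 0))
  obtain ⟨σ1, hσ1, e1⟩ := mem_orbit_subgroup.mp (reach11_0.mem_orbit b0.1)
  have hσ1' : σ1 ∈ H11 := hσ1.1
  have hσ1i : σ1⁻¹ ∈ H11 := H11.inv_mem hσ1'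
  -- second point
  have hq1 : σ1⁻¹ (x 1) ∉ D0f := H11_not_mem hσ1i (hx 1)
  have hq1' : σ1⁻¹ (x 1) ≠ pt 4 := by
    intro h
    rw [Equiv.Perm.inv_eq_iff_eq, e1] at h
    exact absurd (x.injective h) (by decide)
  have b1 := compl_bits _ (idx_lt _) (not_mem_D0f.mp hq1)
  obtain ⟨σ2, hσ2, e2⟩ := mem_orbit_subgroup.mp
    (reach11_1.mem_orbit (b1.2.1 (idx_ne_of_ne hq1')))
  have hσ2' : σ2 ∈ H11 := hσ2.1
  have hσ2i : σ2⁻¹ ∈ H11 := H11.inv_mem hσ2'
  have f24 : σ2 (pt 4) = pt 4 := hσ2.2 4 (by simp)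
  -- third point
  have hq2 : σ2⁻¹ (σ1⁻¹ (x 2)) ∉ D0f := H11_not_mem hσ2i (H11_not_mem hσ1i (hx 2))
  have hq2' : σ2⁻¹ (σ1⁻¹ (x 2)) ≠ pt 4 := by
    intro h
    rw [Equiv.Perm.inv_eq_iff_eq, f24, Equiv.Perm.inv_eq_iff_eq, e1] at h
    exact absurd (x.injective h) (by decide)
  have hq2'' : σ2⁻¹ (σ1⁻¹ (x 2)) ≠ pt 6 := by
    intro h
    rw [Equiv.Perm.inv_eq_iff_eq, e2] at h
    exact absurd (x.injective (σ1⁻¹.injective h)) (by decide)
  have b2 := compl_bits _ (idx_lt _) (not_mem_D0f.mp hq2)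
  obtain ⟨σ3, hσ3, e3⟩ := mem_orbit_subgroup.mp
    (reach11_2.mem_orbit (b2.2.2 (idx_ne_of_ne hq2') (idx_ne_of_ne hq2'')))
  have f34 : σ3 (pt 4) = pt 4 := hσ3.2 4 (by simp)
  have f36 : σ3 (pt 6) = pt 6 := hσ3.2 6 (by simp)
  refine ⟨σ1 * σ2 * σ3, H11.mul_mem (H11.mul_mem hσ1' hσ2') hσ3.1, ?_, ?_, ?_⟩
  · rw [Equiv.Perm.mul_apply, Equiv.Perm.mul_apply, f34, f24, e1]
  · rw [Equiv.Perm.mul_apply, Equiv.Perm.mul_apply, f36, e2, perm_apply_inv]
  · rw [Equiv.Perm.mul_apply, Equiv.Perm.mul_apply, e3, perm_apply_inv,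
      perm_apply_inv]

theorem m11_three_ref (x y : Fin 3 ↪ GolayPt) (hx : ∀ i, x i ∉ D0f) (hy : ∀ i, y i ∉ D0f) :
    ∃ σ ∈ H11, ∀ i, σ (x i) = y i := by
  obtain ⟨σx, hσx, x0, x1, x2⟩ := m11_three_base x hx
  obtain ⟨σy, hσy, y0, y1, y2⟩ := m11_three_base y hy
  refine ⟨σy * σx⁻¹, H11.mul_mem hσy (H11.inv_mem hσx), ?_⟩
  intro i
  fin_cases i
  · show (σy * σx⁻¹) (x 0) = y 0
    rw [Equiv.Perm.mul_apply, ← x0, perm_inv_apply, y0]
  · show (σy * σx⁻¹) (x 1) = y 1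
    rw [Equiv.Perm.mul_apply, ← x1, perm_inv_apply, y1]
  · show (σy * σx⁻¹) (x 2) = y 2
    rw [Equiv.Perm.mul_apply, ← x2, perm_inv_apply, y2]

theorem pt23_mem_D0f : pt 23 ∈ D0f :=
  (mem_support₂ _ _).mpr ((dec_ne_zero_iff _ _).mpr (by decide +kernel))

/-- The stabiliser of a dodecad and a point of it is 3-transitive on the complement. -/
theorem m11_three (d : Finset GolayPt) (hd : d ∈ dodecads) (p : GolayPt) (hp : p ∈ d)
    (x y : Fin 3 ↪ GolayPt) (hx : ∀ i, x i ∉ d) (hy : ∀ i, y i ∉ d) :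
    ∃ g ∈ MulAction.stabilizer M24 d ⊓ MulAction.stabilizer M24 p,
      ∀ i, (g : Equiv.Perm GolayPt) (x i) = y i := by
  obtain ⟨γ1, hγ1⟩ := Cfsg.Agent.S0368.result D0f d D0_mem hd
  have hγ1' : (γ1 : Equiv.Perm GolayPt) • D0f = d := hγ1
  have hp' : (γ1 : Equiv.Perm GolayPt)⁻¹ p ∈ D0f := by
    have h1 : p ∈ (γ1 : Equiv.Perm GolayPt) • D0f := by rw [hγ1']; exact hp
    obtain ⟨q, hq, rfl⟩ := Finset.mem_smul_finset.mp h1
    rw [Equiv.Perm.smul_def, perm_inv_apply]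
    exact hq
  obtain ⟨γ2, hγ2⟩ := trans_on_dodecad D0_mem pt23_mem_D0f hp'
  have hγ2' : (((γ2 : M24) : Equiv.Perm GolayPt)) • D0f = D0f := γ2.2
  let γ : Equiv.Perm GolayPt := (γ1 : Equiv.Perm GolayPt) * ((γ2 : M24) : Equiv.Perm GolayPt)
  have hγM : γ ∈ M24 := M24.mul_mem γ1.2 (γ2 : M24).2
  have hγd : γ • D0f = d := by
    show ((γ1 : Equiv.Perm GolayPt) * ((γ2 : M24) : Equiv.Perm GolayPt)) • D0f = d
    rw [mul_smul, hγ2', hγ1']
  have hγp : γ (pt 23) = p := by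
    show ((γ1 : Equiv.Perm GolayPt) * ((γ2 : M24) : Equiv.Perm GolayPt)) (pt 23) = p
    rw [Equiv.Perm.mul_apply, hγ2, perm_apply_inv]
  have hpull : ∀ q, q ∉ d → γ⁻¹ q ∉ D0f := by
    intro q hq h
    apply hq
    rw [← hγd]
    have h2 : γ • (γ⁻¹ q) ∈ γ • D0f := Finset.smul_mem_smul_finset h
    rwa [Equiv.Perm.smul_def, perm_apply_inv] at h2
  obtain ⟨σ, hσ, hσxy⟩ := m11_three_ref (x.trans (Equiv.toEmbedding γ⁻¹))
    (y.trans (Equiv.toEmbedding γ⁻¹)) (fun i => hpull _ (hx i)) (fun i => hpull _ (hy i))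
  have hσM : σ ∈ M24 := hσ.1.1
  have hσd : σ • D0f = D0f := hσ.1.2
  have hσp : σ (pt 23) = pt 23 := hσ.2 23 (by simp)
  refine ⟨⟨γ * σ * γ⁻¹, M24.mul_mem (M24.mul_mem hγM hσM) (M24.inv_mem hγM)⟩, ⟨?_, ?_⟩, ?_⟩
  · show (γ * σ * γ⁻¹) • d = d
    rw [mul_smul, mul_smul, ← hγd, inv_smul_smul, hσd]
  · show (γ * σ * γ⁻¹) p = p
    rw [Equiv.Perm.mul_apply, Equiv.Perm.mul_apply, ← hγp, perm_inv_apply, hσp]
  · intro i
    show (γ * σ * γ⁻¹) (x i) = y i
    have h1 : σ (γ⁻¹ (x i)) = γ⁻¹ (y i) := hσxy i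
    rw [Equiv.Perm.mul_apply, Equiv.Perm.mul_apply, h1, perm_apply_inv]

end Cfsg.Agent.Lib.Helper10
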