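import Mathlib

set_option autoImplicit false

namespace Cfsg.Agent.Lib.Helper10

/-! ### From a sharply transitive action on a subset to a permutation group on the subtype -/

/-- A group acting by permutations of `Ω`, stabilising the finite set `s` and sharply
`n`-transitive on it, is isomorphic to a sharply `n`-transitive permutation group of `s`. -/
theorem exists_sharp_perm_group {Ω : Type*} [DecidableEq Ω] {K : Type*} [Group K]
    (ι : K →* Equiv.Perm Ω) (s : Finset Ω) (hs : ∀ k x, ι k x ∈ s ↔ x ∈ s) (n : ℕ)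
    (hsharp : ∀ x y : Fin n ↪ Ω, (∀ i, x i ∈ s) → (∀ i, y i ∈ s) →
      ∃! k : K, ∀ i, ι k (x i) = y i)
    (hn : n ≤ s.card) :
    ∃ G : Subgroup (Equiv.Perm {x // x ∈ s}), Nonempty (K ≃* G) ∧
      MulAction.IsMultiplyPretransitive G {x // x ∈ s} n ∧
      ∀ x : Fin n ↪ {x // x ∈ s}, MulAction.stabilizer G x = ⊥ := by
  classical
  let ρ : K →* Equiv.Perm {x // x ∈ s} :=
    { toFun := fun k => Equiv.Perm.subtypePerm (ι k) (hs k)
      map_one' := by
        ext a
        simp
      map_mul' := fun a b => by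
        ext c
        simp only [map_mul, Equiv.Perm.subtypePerm_apply, Equiv.Perm.mul_apply] }
  have hρ : ∀ (k : K) (a : {x // x ∈ s}), ((ρ k) a : Ω) = ι k a := fun k a => rfl
  let up : (Fin n ↪ {x // x ∈ s}) → (Fin n ↪ Ω) := fun x =>
    x.trans (Function.Embedding.subtype _)
  have hup : ∀ (x : Fin n ↪ {x // x ∈ s}) (i : Fin n), up x i = (x i : Ω) := fun x i => rfl
  have hupmem : ∀ (x : Fin n ↪ {x // x ∈ s}) (i : Fin n), up x i ∈ s := fun x i => (x i).2
  have hfix : ∀ (k : K) (x : Fin n ↪ {x // x ∈ s}), (∀ i, ρ k (x i) = x i) → k = 1 := by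
    intro k x hk
    obtain ⟨k0, -, huniq⟩ := hsharp (up x) (up x) (hupmem x) (hupmem x)
    have h1 : k = k0 := huniq k (fun i => by
      rw [hup, ← hρ, hk i])
    have h2 : (1 : K) = k0 := huniq 1 (fun i => by simp)
    rw [h1, ← h2]
  have hne : Nonempty (Fin n ↪ {x // x ∈ s}) := by
    apply Function.Embedding.nonempty_of_card_le
    rw [Fintype.card_fin, Fintype.card_coe]
    exact hn
  obtain ⟨x0⟩ := hne
  have hinj : Function.Injective ρ := by
    rw [injective_iff_map_eq_one]
    intro k hk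
    apply hfix k x0
    intro i
    rw [hk]
    rfl
  refine ⟨ρ.range, ⟨MonoidHom.ofInjective hinj⟩, ?_, ?_⟩
  · rw [MulAction.isMultiplyPretransitive_iff]
    intro x y
    obtain ⟨k, hk, -⟩ := hsharp (up x) (up y) (hupmem x) (hupmem y)
    refine ⟨⟨ρ k, k, rfl⟩, ?_⟩
    ext i
    rw [Function.Embedding.smul_apply]
    show ((ρ k) (x i) : Ω) = (y i : Ω)
    rw [hρ]
    exact hk i
  · intro x
    rw [eq_bot_iff]
    rintro ⟨g, k, rfl⟩ hg
    rw [MulAction.mem_stabilizer_iff] at hg
    rw [Subgroup.mem_bot]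
    have hk : k = 1 := by
      apply hfix k x
      intro i
      have h1 := congrArg (fun z : Fin n ↪ {x // x ∈ s} => z i) hg
      exact h1
    subst hk
    apply Subtype.ext
    exact map_one ρ

end Cfsg.Agent.Lib.Helper10
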