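import Mathlib
import Cfsg.Prelude.Def_Sporadic_a
import Cfsg.Prelude.Def_Sporadic
import Cfsg.Agent.Lib.Helper10.M12
import Cfsg.Agent.Lib.Helper10.SharpTransport
import Cfsg.Agent.S0418
import Cfsg.Agent.S0419

set_option autoImplicit false

namespace Cfsg.Agent.Lib.Helper10

open Cfsg Cfsg.Agent.Lib.Helper9
open scoped Pointwise

/-! ### Simplicity of the dodecad stabiliser and of its point stabiliser -/

theorem stab_dodecad_mem_iff {d : Finset GolayPt} (k : MulAction.stabilizer M24 d) (x : GolayPt) :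
    ((k : M24) : Equiv.Perm GolayPt) x ∈ d ↔ x ∈ d := by
  have h1 : ((k : M24) : Equiv.Perm GolayPt) • d = d := k.2
  constructor
  · intro h
    have h2 : ((k : M24) : Equiv.Perm GolayPt) • x ∈ ((k : M24) : Equiv.Perm GolayPt) • d := by
      rw [h1]
      exact h
    exact (Finset.smul_mem_smul_finset_iff _).mp h2
  · intro h
    have h2 := Finset.smul_mem_smul_finset (a := ((k : M24) : Equiv.Perm GolayPt)) h
    rwa [h1] at h2

theorem dodecad_stab_simple (d : Finset GolayPt) (hd : d ∈ dodecads) :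
    IsSimpleGroup (MulAction.stabilizer M24 d) := by
  let ι : MulAction.stabilizer M24 d →* Equiv.Perm GolayPt :=
    M24.subtype.comp (MulAction.stabilizer M24 d).subtype
  have hs : ∀ k x, ι k x ∈ d ↔ x ∈ d := fun k x => stab_dodecad_mem_iff k x
  obtain ⟨G, ⟨e⟩, h1, h2⟩ := exists_sharp_perm_group ι d hs 5
    (fun x y hx hy => sharp_five hd x y hx hy) (by rw [hd.2]; norm_num)
  have := h1
  have h3 := Cfsg.Agent.S0419.result (α := {x // x ∈ d}) (by rw [Fintype.card_coe, hd.2]) G h2
  have := h3.1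
  exact e.isSimpleGroup

theorem dodecad_point_stab_simple (d : Finset GolayPt) (hd : d ∈ dodecads) (p : GolayPt)
    (hp : p ∈ d) :
    IsSimpleGroup ↥(MulAction.stabilizer M24 d ⊓ MulAction.stabilizer M24 p) := by
  let ι : ↥(MulAction.stabilizer M24 d ⊓ MulAction.stabilizer M24 p) →* Equiv.Perm GolayPt :=
    M24.subtype.comp (Subgroup.subtype _)
  have hfixp : ∀ k, ι k p = p := fun k => k.2.2
  have hd' : ∀ k x, ι k x ∈ d ↔ x ∈ d := fun k x =>
    stab_dodecad_mem_iff (d := d) ⟨(k : M24), k.2.1⟩ x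
  have hs : ∀ k x, ι k x ∈ d.erase p ↔ x ∈ d.erase p := by
    intro k x
    rw [Finset.mem_erase, Finset.mem_erase, hd' k x]
    have h1 : ι k x = p ↔ x = p := by
      constructor
      · intro h
        exact (ι k).injective (h.trans (hfixp k).symm)
      · intro h
        exact (congrArg (ι k) h).trans (hfixp k)
    rw [Ne, Ne, h1]
  have hsharp : ∀ x y : Fin 4 ↪ GolayPt, (∀ i, x i ∈ d.erase p) → (∀ i, y i ∈ d.erase p) →
      ∃! k, ∀ i, ι k (x i) = y i := by
    intro x y hx hy
    have hxinj : Function.Injective (Fin.cons p x : Fin 5 → GolayPt) :=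
      Fin.cons_injective_iff.mpr ⟨by
        rintro ⟨i, hi⟩
        exact (Finset.mem_erase.mp (hx i)).1 hi, x.injective⟩
    have hyinj : Function.Injective (Fin.cons p y : Fin 5 → GolayPt) :=
      Fin.cons_injective_iff.mpr ⟨by
        rintro ⟨i, hi⟩
        exact (Finset.mem_erase.mp (hy i)).1 hi, y.injective⟩
    obtain ⟨g, hg, huniq⟩ := sharp_five hd ⟨Fin.cons p x, hxinj⟩ ⟨Fin.cons p y, hyinj⟩
      (by
        intro i
        refine Fin.cases ?_ ?_ i
        · exact hp
        · intro j
          exact (Finset.mem_erase.mp (hx j)).2)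
      (by
        intro i
        refine Fin.cases ?_ ?_ i
        · exact hp
        · intro j
          exact (Finset.mem_erase.mp (hy j)).2)
    have hgp : (g : M24) • p = p := hg 0
    refine ⟨⟨(g : M24), ⟨g.2, hgp⟩⟩, fun i => hg i.succ, ?_⟩
    intro k hk
    have h1 : (⟨(k : M24), k.2.1⟩ : MulAction.stabilizer M24 d) = g := huniq _ (fun i => by
      refine Fin.cases ?_ ?_ i
      · exact hfixp k
      · intro j
        exact hk j)
    apply Subtype.ext
    exact congrArg (fun z : MulAction.stabilizer M24 d => (z : M24)) h1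
  obtain ⟨G, ⟨e⟩, h1, h2⟩ := exists_sharp_perm_group ι (d.erase p) hs 4 hsharp
    (by rw [Finset.card_erase_of_mem hp, hd.2]; norm_num)
  have := h1
  have h3 := Cfsg.Agent.S0418.result (α := {x // x ∈ d.erase p})
    (by rw [Fintype.card_coe, Finset.card_erase_of_mem hp, hd.2]) G h2
  have := h3.1
  exact e.isSimpleGroup

end Cfsg.Agent.Lib.Helper10
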