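import Mathlib

/-!
# Piece OT5a of the OTIF project (helper86, S5673)

A similitude of order dividing 13 of a nondegenerate symmetric 3×3 form over `F_3` is trivial.
-/

set_option autoImplicit false

namespace Cfsg.Agent.Lib.Helper10.OT5a

open Matrix

variable {F : Type*} [Field F] [Fintype F]

theorem ot5a_two_ne (hq3 : Fintype.card F = 3) : (2 : F) ≠ 0 := by
  intro h2
  have h3 : ((Fintype.card F : ℕ) : F) = 0 := FiniteField.cast_card_eq_zero F
  rw [hq3] at h3
  have h1 : (1 : F) = 0 := by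
    have h4 : (1 : F) = ((3 : ℕ) : F) - 2 := by push_cast; ring
    rw [h4, h3, h2, sub_zero]
  exact one_ne_zero h1

theorem ot5a_fix (hq3 : Fintype.card F = 3) (K : Matrix (Fin 3) (Fin 3) F) (hK : K ^ 13 = 1)
    (w : Fin 3 → F) (hw : w ≠ 0) (hKw : K *ᵥ w = w) : K = 1 := by
  classical
  obtain ⟨f, hfdef⟩ : ∃ f : Function.End (Fin 3 → F), f = fun v => K *ᵥ v := ⟨_, rfl⟩
  have hpow : ∀ n : ℕ, ∀ v, (f ^ n) v = (K ^ n) *ᵥ v := by
    intro n
    induction n with
    | zero =>
      intro v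
      rw [pow_zero, pow_zero, one_mulVec]
      rfl
    | succ n ih =>
      intro v
      rw [pow_succ, pow_succ]
      show (f ^ n) (f v) = _
      rw [ih, hfdef, mulVec_mulVec]
  have hf : f ^ 13 ^ 1 = 1 := by
    funext v
    rw [pow_one, hpow, hK, one_mulVec]
    rfl
  haveI : Fact (Nat.Prime 13) := ⟨by norm_num⟩
  have hmod := Equiv.Perm.card_fixedPoints_modEq (p := 13) (n := 1) hf
  obtain ⟨W, hWdef⟩ : ∃ W : Submodule F (Fin 3 → F), W = LinearMap.ker (Matrix.mulVecLin (K - 1)) :=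
    ⟨_, rfl⟩
  have hW : ∀ v, v ∈ W ↔ K *ᵥ v = v := by
    intro v
    rw [hWdef, LinearMap.mem_ker, Matrix.mulVecLin_apply, sub_mulVec, one_mulVec, sub_eq_zero]
  have hcardfix : Nat.card (Function.fixedPoints (f : (Fin 3 → F) → (Fin 3 → F))) = Nat.card W := by
    refine Nat.card_congr (Equiv.subtypeEquivRight (fun v => ?_))
    rw [hW, hfdef]
    rfl
  have hcardW : Nat.card W = 3 ^ Module.finrank F W := by
    rw [Nat.card_eq_fintype_card, Module.card_eq_pow_finrank (K := F), hq3]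
  have hcardV : Fintype.card (Fin 3 → F) = 27 := by
    rw [Fintype.card_pi]
    simp [hq3]
  have hle : Module.finrank F W ≤ 3 := by
    have h := Submodule.finrank_le W
    rwa [Module.finrank_fin_fun] at h
  have hpos : Module.finrank F W ≠ 0 := by
    intro h0
    have hbot : W = ⊥ := Submodule.finrank_eq_zero.mp h0
    have hwW : w ∈ W := (hW w).mpr hKw
    rw [hbot, Submodule.mem_bot] at hwW
    exact hw hwW
  rw [hcardV, Fintype.card_eq_nat_card] at hmod
  rw [hcardfix, hcardW] at hmod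
  have h3 : Module.finrank F W = 3 := by
    generalize Module.finrank F W = j at hmod hle hpos
    interval_cases j
    · exact absurd rfl hpos
    · exact absurd hmod (by decide)
    · exact absurd hmod (by decide)
    · rfl
  have htop : W = ⊤ := Submodule.eq_top_of_finrank_eq (by rw [h3, Module.finrank_fin_fun])
  ext i j
  have hv : K *ᵥ (Pi.single j 1) = Pi.single j 1 :=
    (hW _).mp (by rw [htop]; exact Submodule.mem_top)
  have h := congrFun hv i
  rw [mulVec_single_one] at h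
  rw [Matrix.one_apply]
  simpa [Pi.single_apply] using h

theorem OT5a (hq3 : Fintype.card F = 3) (G : Matrix (Fin 3) (Fin 3) F) (hdet : G.det ≠ 0)
    (hsymm : Gᵀ = G) (g : GL (Fin 3) F) (μ : F) (hμ : μ ≠ 0)
    (hg : g.1ᵀ * G * g.1 = μ • G) (h13 : g ^ 13 = 1) : g = 1 := by
  have hμ2 : μ ^ 2 = 1 := by
    have h := FiniteField.pow_card_sub_one_eq_one μ hμ
    rwa [hq3] at h
  obtain ⟨A, hA⟩ : ∃ A : Matrix (Fin 3) (Fin 3) F, A = g.1 := ⟨_, rfl⟩
  rw [← hA] at hg
  have hA13 : A ^ 13 = 1 := by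
    rw [hA, ← Units.val_pow_eq_pow_val, h13]
    rfl
  obtain ⟨B, hB⟩ : ∃ B : Matrix (Fin 3) (Fin 3) F, B = A * A := ⟨_, rfl⟩
  have hBG : Bᵀ * G * B = G := by
    have e : Bᵀ * G * B = Aᵀ * (Aᵀ * G * A) * A := by
      rw [hB, transpose_mul]
      simp only [Matrix.mul_assoc]
    rw [e, hg, Matrix.mul_smul, Matrix.smul_mul, hg, smul_smul, ← pow_two, hμ2, one_smul]
  obtain ⟨ε, hε⟩ : ∃ ε : F, ε = B.det := ⟨_, rfl⟩
  have hε2 : ε * ε = 1 := by
    have h := congrArg Matrix.det hBG
    rw [det_mul, det_mul, det_transpose, ← hε] at h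
    have h' : (ε * ε - 1) * G.det = 0 := by linear_combination h
    rcases mul_eq_zero.mp h' with h1 | h1
    · linear_combination h1
    · exact absurd h1 hdet
  obtain ⟨N, hN⟩ : ∃ N : Matrix (Fin 3) (Fin 3) F, N = B - ε • 1 := ⟨_, rfl⟩
  have hid : Bᵀ * G * N = (-ε) • (Nᵀ * G) := by
    have e1 : Bᵀ * G * N = G - ε • (Bᵀ * G) := by
      rw [hN, Matrix.mul_sub, hBG, Matrix.mul_smul, Matrix.mul_one]
    have e2 : (-ε) • (Nᵀ * G) = (ε * ε) • G - ε • (Bᵀ * G) := by
      rw [hN, transpose_sub, transpose_smul, transpose_one, Matrix.sub_mul, Matrix.smul_mul,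
        Matrix.one_mul, smul_sub, smul_smul, neg_smul, neg_mul, neg_smul]
      abel
    rw [e1, e2, hε2, one_smul]
  have hNdet : N.det = 0 := by
    have h := congrArg Matrix.det hid
    rw [det_mul, det_mul, det_transpose, det_smul, det_mul, det_transpose, Fintype.card_fin,
      ← hε] at h
    have h3 : (-ε) ^ 3 = -ε := by linear_combination (-ε) * hε2
    rw [h3] at h
    have h2 : (2 : F) * (ε * (G.det * N.det)) = 0 := by linear_combination h
    have hε0 : ε ≠ 0 := by
      intro h0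
      rw [h0, mul_zero] at hε2
      exact zero_ne_one hε2
    have h20 := ot5a_two_ne hq3
    rcases mul_eq_zero.mp h2 with h4 | h4
    · exact absurd h4 h20
    · rcases mul_eq_zero.mp h4 with h5 | h5
      · exact absurd h5 hε0
      · rcases mul_eq_zero.mp h5 with h6 | h6
        · exact absurd h6 hdet
        · exact h6
  obtain ⟨w, hw, hNw⟩ := Matrix.exists_mulVec_eq_zero_iff.mpr hNdet
  have hBw : B *ᵥ w = ε • w := by
    rw [hN, sub_mulVec, smul_mulVec, one_mulVec, sub_eq_zero] at hNw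
    exact hNw
  have hKw : (B * B) *ᵥ w = w := by
    rw [← mulVec_mulVec, hBw, mulVec_smul, hBw, smul_smul, hε2, one_smul]
  have hBB : B * B = A ^ 4 := by
    rw [hB]
    simp only [pow_succ, pow_zero, one_mul, Matrix.mul_assoc]
  have hK13 : (B * B) ^ 13 = 1 := by
    rw [hBB, ← pow_mul, show 4 * 13 = 13 * 4 from rfl, pow_mul, hA13, one_pow]
  have hK1 : B * B = 1 := ot5a_fix hq3 (B * B) hK13 w hw hKw
  have hA4 : A ^ 4 = 1 := by rw [← hBB, hK1]
  have hA1 : A = 1 := by
    calc A = (A ^ 4) ^ 3 * A := by rw [hA4, one_pow, one_mul]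
      _ = A ^ 13 := by rw [← pow_mul, ← pow_succ]
      _ = 1 := hA13
  exact Units.ext (by rw [← hA, hA1]; rfl)

end Cfsg.Agent.Lib.Helper10.OT5a
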