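import Cfsg.Agent.Lib.Helper96.PiDefs
import Cfsg.Agent.Lib.Helper96.PiGlueB
import Cfsg.Agent.Lib.Helper96.PiOmega
import Cfsg.Agent.Lib.Helper9.HeUNIPPOW
import Cfsg.Agent.Lib.Helper51.Spinor

/-! Project PI (S5989, helper96), piece X2CRIT. -/

set_option autoImplicit false
set_option linter.unusedSectionVars false
set_option linter.unusedVariables false

namespace Cfsg.Agent.Lib.Helper10.Pi

open Module Cfsg.Agent.Lib.Helper96.Sp Cfsg.Agent.Lib.Helper96.BG Cfsg.Agent.Lib.Helper96.Hy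
  Cfsg.Agent.Lib.Helper96.Pi Cfsg.Agent.Lib.Helper47

universe u

open Matrix
open scoped MatrixGroups

variable {F : Type u} [Field F] [Fintype F]

theorem mem_commutator_sq_neg_iff {ι : Type} [Fintype ι] [DecidableEq ι]
    (Q : QuadraticForm F (ι → F)) (h2 : (2 : F) ≠ 0) (d : ℕ)
    (g : ↥(Cfsg.isometryGroup F ⇑Q)) (vs : List (ι → F)) (s : F) (hvs : ∀ v ∈ vs, Q v ≠ 0)
    (hlen : vs.length = 2 * d) (hs : s ≠ 0)
    (hprod : (vs.map (fun v => Q v)).prod = 2 ^ d * s ^ 2)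
    (hg : ((g : Matrix.GeneralLinearGroup ι F) : Matrix ι ι F)
      = (vs.map (fun v => Cfsg.reflectionMatrix ⇑Q v)).prod) :
    g ∈ commutator ↥(Cfsg.isometryGroup F ⇑Q) ↔ (Even d ∨ IsSquare (2 : F)) := by
  rw [Cfsg.Agent.Lib.Helper51.mem_commutator_iff_of_eq_prod Q h2 g vs hvs hg, hlen, hprod]
  constructor
  · rintro ⟨-, hsq⟩
    by_cases hd : Even d
    · exact Or.inl hd
    · right
      obtain ⟨k, hk⟩ := Nat.not_even_iff_odd.mp hd
      obtain ⟨r, hr⟩ := hsq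
      have hc : (2 : F) ^ k * s ≠ 0 := mul_ne_zero (pow_ne_zero _ h2) hs
      have h3 : (2 : F) ^ d * s ^ 2 = 2 * ((2 ^ k * s) * (2 ^ k * s)) := by
        rw [hk]; ring
      rw [h3] at hr
      refine ⟨r / (2 ^ k * s), ?_⟩
      rw [div_mul_div_comm, ← hr, mul_div_assoc, div_self (mul_ne_zero hc hc), mul_one]
  · rintro (hd | h2sq)
    · refine ⟨even_two_mul d, ?_⟩
      obtain ⟨k, hk⟩ := hd
      exact ⟨2 ^ k * s, by rw [hk]; ring⟩
    · refine ⟨even_two_mul d, ?_⟩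
      obtain ⟨c, hc⟩ := h2sq
      refine ⟨c ^ d * s, ?_⟩
      have h4 : (2 : F) ^ d = c ^ d * c ^ d := by rw [hc, mul_pow]
      rw [h4]; ring

end Cfsg.Agent.Lib.Helper10.Pi
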