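import Mathlib
import Cfsg.Prelude.Def_GeometricClasses
import Cfsg.Prelude.Def_LieClassical
import Cfsg.Agent.Lib.Helper18.Symp

/-! Project SPP (helper71), piece NS3: `Sp_{2m}(q)`, `m ≥ 2`, does not normalise a field
subalgebra of degree `≥ 2`. -/

set_option autoImplicit false
set_option linter.unusedSectionVars false

namespace Cfsg.Agent.Lib.Helper10.SPPNS3

open Matrix Cfsg.Geo

variable {F : Type*} [Field F] [Fintype F]

/-- a matrix mapping every vector into its own span is scalar -/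
theorem scalar_of_eigen {ι : Type} [Fintype ι] [DecidableEq ι] (i0 : ι)
    (x : Matrix ι ι F)
    (h : ∀ v : ι → F, x *ᵥ v ∈ Submodule.span F {v}) : ∃ c : F, x = c • 1 := by
  have hc : ∀ i : ι, ∃ c : F, x *ᵥ Pi.single i 1 = c • Pi.single i 1 := by
    intro i
    obtain ⟨c, hc⟩ := Submodule.mem_span_singleton.mp (h (Pi.single i 1))
    exact ⟨c, hc.symm⟩
  choose c hc using hc
  have hcc : ∀ i j : ι, c i = c j := by
    intro i j
    by_cases hij : i = j
    · rw [hij]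
    obtain ⟨d, hd⟩ := Submodule.mem_span_singleton.mp
      (h (Pi.single i 1 + Pi.single j 1))
    rw [Matrix.mulVec_add, hc i, hc j] at hd
    have h1 := congrFun hd i
    have h2 := congrFun hd j
    simp only [Pi.smul_apply, Pi.add_apply, Pi.single_eq_same, smul_eq_mul, mul_one,
      Pi.single_eq_of_ne hij, Pi.single_eq_of_ne (Ne.symm hij), add_zero, zero_add, mul_zero]
      at h1 h2
    rw [← h1, ← h2]
  refine ⟨c i0, ?_⟩
  ext k i
  have h1 := congrFun (hc i) k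
  have e1 : (x *ᵥ Pi.single i (1 : F)) k = x k i := by
    rw [Matrix.mulVec_single_one]
    rfl
  rw [e1] at h1
  rw [h1, hcc i i0, Matrix.smul_apply, Pi.smul_apply, Matrix.one_apply, Pi.single_apply]

/-- the action of a symplectic transvection. -/
theorem tv_mulVec (m : ℕ) (u : Fin m ⊕ Fin m → F) (c : F) (x : Fin m ⊕ Fin m → F) :
    Cfsg.sympTransvection m u c *ᵥ x = x + (c * Cfsg.sympForm m F x u) • u := by
  have h := congrArg (fun L => L x) (Cfsg.Agent.Lib.Helper18.toLin'_sympTransvection m u c)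
  simp only [Matrix.toLin'_apply, Cfsg.Agent.Lib.Helper18.transv_apply,
    Cfsg.Agent.Lib.Helper18.sympB_eq_sympForm] at h
  exact h

theorem tv_mul (m : ℕ) (u : Fin m ⊕ Fin m → F) (c d : F) :
    Cfsg.sympTransvection m u c * Cfsg.sympTransvection m u d =
      Cfsg.sympTransvection m u (c + d) := by
  apply Matrix.toLin'.injective
  rw [Matrix.toLin'_mul, Cfsg.Agent.Lib.Helper18.toLin'_sympTransvection,
    Cfsg.Agent.Lib.Helper18.toLin'_sympTransvection,
    Cfsg.Agent.Lib.Helper18.toLin'_sympTransvection]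
  exact Cfsg.Agent.Lib.Helper18.transv_mul (Cfsg.Agent.Lib.Helper18.sympB_isAlt m) u c d

theorem tv_zero (m : ℕ) (u : Fin m ⊕ Fin m → F) :
    Cfsg.sympTransvection m u (0 : F) = 1 := by
  unfold Cfsg.sympTransvection
  rw [zero_smul, add_zero]

/-- the symplectic transvection as an element of `GL`. -/
noncomputable def tvGL (m : ℕ) (u : Fin m ⊕ Fin m → F) : GL (Fin m ⊕ Fin m) F :=
  ⟨Cfsg.sympTransvection m u 1, Cfsg.sympTransvection m u (-1),
    by rw [tv_mul, add_neg_cancel, tv_zero], by rw [tv_mul, neg_add_cancel, tv_zero]⟩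

theorem tvGL_mem (m : ℕ) (u : Fin m ⊕ Fin m → F) : tvGL m u ∈ Cfsg.spGL m F := by
  intro x y
  show Cfsg.sympForm m F (Cfsg.sympTransvection m u 1 *ᵥ x) (Cfsg.sympTransvection m u 1 *ᵥ y)
    = Cfsg.sympForm m F x y
  have h := Cfsg.Agent.Lib.Helper18.transv_isometry (Cfsg.Agent.Lib.Helper18.sympB_isAlt (F := F) m)
    u 1 x y
  rw [← Cfsg.Agent.Lib.Helper18.toLin'_sympTransvection, Matrix.toLin'_apply, Matrix.toLin'_apply,
    Cfsg.Agent.Lib.Helper18.sympB_eq_sympForm, Cfsg.Agent.Lib.Helper18.sympB_eq_sympForm] at h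
  exact h

/-- NS3 -/
theorem NS3 (m : ℕ) (hm : 2 ≤ m) (r : ℕ) (hr : 2 ≤ r)
    (K : Subalgebra F (Matrix (Fin m ⊕ Fin m) (Fin m ⊕ Fin m) F)) (hK : IsFieldSubalgebra r K) :
    ¬ Cfsg.spGL m F ≤ subalgebraNormalizer K := by
  classical
  intro hle
  have i0 : Fin m ⊕ Fin m := Sum.inl ⟨0, by omega⟩
  -- (a) a non-scalar element of `K`
  obtain ⟨x, hxK, hxs⟩ : ∃ x ∈ K, ¬ ∃ c : F, x = c • (1 : Matrix (Fin m ⊕ Fin m) (Fin m ⊕ Fin m) F) := by
    by_contra hcon
    have hall : ∀ x ∈ K, ∃ c : F, x = c • (1 : Matrix (Fin m ⊕ Fin m) (Fin m ⊕ Fin m) F) := by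
      intro x hx
      by_contra h
      exact hcon ⟨x, hx, h⟩
    have h1 : Subalgebra.toSubmodule K ≤
        Submodule.span F {(1 : Matrix (Fin m ⊕ Fin m) (Fin m ⊕ Fin m) F)} := by
      intro x hx
      obtain ⟨c, hc⟩ := hall x hx
      rw [hc]
      exact Submodule.smul_mem _ _ (Submodule.subset_span rfl)
    have h2 := Submodule.finrank_mono h1
    have h3 : Module.finrank F
        (Submodule.span F {(1 : Matrix (Fin m ⊕ Fin m) (Fin m ⊕ Fin m) F)}) ≤ 1 := by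
      have := finrank_span_finset_le_card (R := F)
        ({(1 : Matrix (Fin m ⊕ Fin m) (Fin m ⊕ Fin m) F)} : Finset _)
      rw [Finset.coe_singleton, Finset.card_singleton] at this
      exact this
    have h4 : Module.finrank F (Subalgebra.toSubmodule K) = r := hK.finrank_eq
    omega
  -- (b) a vector not mapped into its span
  obtain ⟨u, hu⟩ : ∃ u : Fin m ⊕ Fin m → F, x *ᵥ u ∉ Submodule.span F {u} := by
    by_contra hcon
    apply hxs
    apply scalar_of_eigen i0 x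
    intro v
    by_contra h
    exact hcon ⟨v, h⟩
  have hu0 : u ≠ 0 := by
    rintro rfl
    apply hu
    rw [Matrix.mulVec_zero]
    exact Submodule.zero_mem _
  -- (c) elements of `K` with nontrivial kernel vanish
  have hker : ∀ y ∈ K, ∀ v : Fin m ⊕ Fin m → F, v ≠ 0 → y *ᵥ v = 0 → y = 0 := by
    intro y hy v hv hyv
    by_contra hy0
    obtain ⟨z, hz, hyz⟩ := hK.inv y hy hy0
    have hzy : z * y = 1 := by rw [← hK.comm y hy z hz, hyz]
    apply hv
    have h1 : (z * y) *ᵥ v = v := by rw [hzy, Matrix.one_mulVec]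
    rw [← h1, ← Matrix.mulVec_mulVec, hyv, Matrix.mulVec_zero]
  -- the form
  have hfl : ∀ a b : Fin m ⊕ Fin m → F, Cfsg.sympForm m F a b =
      Cfsg.Agent.Lib.Helper18.sympB m a b := fun a b =>
    (Cfsg.Agent.Lib.Helper18.sympB_eq_sympForm m a b).symm
  -- (d) a vector `w ≠ 0` with `f(w, u) = 0` and `f(x w, u) = 0`
  obtain ⟨w, hw0, hw1, hw2⟩ : ∃ w : Fin m ⊕ Fin m → F, w ≠ 0 ∧ Cfsg.sympForm m F w u = 0 ∧
      Cfsg.sympForm m F (x *ᵥ w) u = 0 := by
    let φ1 : (Fin m ⊕ Fin m → F) →ₗ[F] F := (Cfsg.Agent.Lib.Helper18.sympB (F := F) m).flip u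
    let φ2 : (Fin m ⊕ Fin m → F) →ₗ[F] F := φ1.comp (Matrix.toLin' x)
    let ψ : (Fin m ⊕ Fin m → F) →ₗ[F] F × F := φ1.prod φ2
    have hfr : Module.finrank F (F × F) < Module.finrank F (Fin m ⊕ Fin m → F) := by
      rw [Module.finrank_prod, Module.finrank_self, Module.finrank_pi]
      simp only [Fintype.card_sum, Fintype.card_fin]
      omega
    have hne : LinearMap.ker ψ ≠ ⊥ := LinearMap.ker_ne_bot_of_finrank_lt hfr
    obtain ⟨w, hwk, hw0⟩ := (Submodule.ne_bot_iff _).mp hne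
    have hψ : ψ w = 0 := hwk
    have h1 : φ1 w = 0 := congrArg Prod.fst hψ
    have h2 : φ2 w = 0 := congrArg Prod.snd hψ
    refine ⟨w, hw0, ?_, ?_⟩
    · rw [hfl]; exact h1
    · rw [hfl]
      have : φ2 w = Cfsg.Agent.Lib.Helper18.sympB m (x *ᵥ w) u := by
        show (Cfsg.Agent.Lib.Helper18.sympB (F := F) m).flip u (Matrix.toLin' x w) = _
        rw [Matrix.toLin'_apply]
        rfl
      rw [← this]; exact h2
  -- (e) a vector `a` with `f(a, u) = 1`
  obtain ⟨a, ha⟩ : ∃ a : Fin m ⊕ Fin m → F, Cfsg.sympForm m F a u = 1 := by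
    have hJu : Matrix.J (Fin m) F *ᵥ u ≠ 0 := by
      intro h0
      apply hu0
      have h1 : (Matrix.J (Fin m) F * Matrix.J (Fin m) F) *ᵥ u = 0 := by
        rw [← Matrix.mulVec_mulVec, h0, Matrix.mulVec_zero]
      rw [Matrix.J_squared, Matrix.neg_mulVec, Matrix.one_mulVec, neg_eq_zero] at h1
      exact h1
    obtain ⟨i, hi⟩ : ∃ i, (Matrix.J (Fin m) F *ᵥ u) i ≠ 0 := by
      by_contra hcon
      apply hJu
      funext i
      by_contra h
      exact hcon ⟨i, h⟩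
    refine ⟨((Matrix.J (Fin m) F *ᵥ u) i)⁻¹ • Pi.single i 1, ?_⟩
    show (((Matrix.J (Fin m) F *ᵥ u) i)⁻¹ • Pi.single i (1 : F)) ⬝ᵥ (Matrix.J (Fin m) F *ᵥ u) = 1
    rw [smul_dotProduct, single_dotProduct, one_mul, smul_eq_mul, inv_mul_cancel₀ hi]
  -- the transvection
  obtain ⟨g, hgdef⟩ : ∃ g : GL (Fin m ⊕ Fin m) F, g = tvGL m u := ⟨_, rfl⟩
  have hgSp : g ∈ Cfsg.spGL m F := by
    rw [hgdef]
    exact tvGL_mem m u
  have hgv : ∀ v : Fin m ⊕ Fin m → F, g.1 *ᵥ v = v + (Cfsg.sympForm m F v u) • u := by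
    intro v
    rw [hgdef]
    show Cfsg.sympTransvection m u 1 *ᵥ v = _
    rw [tv_mulVec, one_mul]
  have hgiv : ∀ v : Fin m ⊕ Fin m → F,
      (g⁻¹ : GL (Fin m ⊕ Fin m) F).1 *ᵥ v = v - (Cfsg.sympForm m F v u) • u := by
    intro v
    rw [hgdef]
    show Cfsg.sympTransvection m u (-1) *ᵥ v = _
    rw [tv_mulVec, neg_one_mul, neg_smul, sub_eq_add_neg]
  have hyK : g.1 * x * (g⁻¹ : GL (Fin m ⊕ Fin m) F).1 ∈ K := ((hle hgSp) x).mp hxK
  have hyw : (g.1 * x * (g⁻¹ : GL (Fin m ⊕ Fin m) F).1) *ᵥ w = x *ᵥ w := by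
    rw [← Matrix.mulVec_mulVec, ← Matrix.mulVec_mulVec, hgiv, hw1, zero_smul, sub_zero, hgv, hw2,
      zero_smul, add_zero]
  have hyx : g.1 * x * (g⁻¹ : GL (Fin m ⊕ Fin m) F).1 - x = 0 := by
    apply hker _ (K.sub_mem hyK hxK) w hw0
    rw [Matrix.sub_mulVec, hyw, sub_self]
  have hcomm : g.1 * x = x * g.1 := by
    have h1 : g.1 * x * (g⁻¹ : GL (Fin m ⊕ Fin m) F).1 = x := sub_eq_zero.mp hyx
    have h2 : g.1 * x * (g⁻¹ : GL (Fin m ⊕ Fin m) F).1 * g.1 = x * g.1 := by rw [h1]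
    rw [mul_assoc, Units.inv_mul, mul_one] at h2
    exact h2
  have h1 : (g.1 * x) *ᵥ a = (x * g.1) *ᵥ a := by rw [hcomm]
  rw [← Matrix.mulVec_mulVec, ← Matrix.mulVec_mulVec, hgv, hgv, ha, one_smul, Matrix.mulVec_add]
    at h1
  have h2 : x *ᵥ u = (Cfsg.sympForm m F (x *ᵥ a) u) • u := (add_left_cancel h1).symm
  apply hu
  rw [h2]
  exact Submodule.smul_mem _ _ (Submodule.subset_span rfl)

end Cfsg.Agent.Lib.Helper10.SPPNS3
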