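import Mathlib
import Cfsg.Prelude.Def_GeometricClasses
import Cfsg.Prelude.Def_LieClassical
import Cfsg.Agent.Lib.Helper87.ASPSF

/-! Project SPP (helper71), piece UNIQ: two field subalgebras of the same degree inside a
commutative division subalgebra of the matrix algebra coincide. -/

set_option autoImplicit false

namespace Cfsg.Agent.Lib.Helper10.SPPUNIQ

open Matrix Cfsg.Geo

variable {n : ℕ} {F : Type*} [Field F] [Fintype F]

theorem zero_ne_one_sub (hn : 1 ≤ n) (K : Subalgebra F (Matrix (Fin n) (Fin n) F)) :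
    (0 : ↥K) ≠ 1 := by
  haveI : Nonempty (Fin n) := ⟨⟨0, by omega⟩⟩
  intro h
  have h2 : (0 : Matrix (Fin n) (Fin n) F) = 1 := congrArg Subtype.val h
  exact zero_ne_one h2

/-- the cardinality of a field subalgebra of degree `r`. -/
theorem card_sub (r : ℕ) (K : Subalgebra F (Matrix (Fin n) (Fin n) F))
    (hK : IsFieldSubalgebra r K) : Nat.card ↥K = Fintype.card F ^ r := by
  classical
  haveI : Fintype ↥K := Fintype.ofFinite _
  rw [Nat.card_eq_fintype_card, Module.card_eq_pow_finrank (K := F) (V := ↥K), hK.finrank_eq]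

/-- every element of a field subalgebra of degree `r` satisfies `x ^ (q ^ r) = x`. -/
theorem pow_card_of_mem (hn : 1 ≤ n) (r : ℕ) (K : Subalgebra F (Matrix (Fin n) (Fin n) F))
    (hK : IsFieldSubalgebra r K) (x : Matrix (Fin n) (Fin n) F) (hx : x ∈ K) :
    x ^ (Fintype.card F ^ r) = x := by
  classical
  have h01 : (0 : ↥K) ≠ 1 := zero_ne_one_sub hn K
  letI iF : Field ↥K := Cfsg.Agent.Lib.Helper87.ASPSF.fieldK K hK.comm hK.inv h01
  haveI : Fintype ↥K := Fintype.ofFinite _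
  have hc : Fintype.card ↥K = Fintype.card F ^ r := by
    rw [← Nat.card_eq_fintype_card]
    exact card_sub r K hK
  have h := FiniteField.pow_card (⟨x, hx⟩ : ↥K)
  rw [hc] at h
  exact congrArg Subtype.val h

theorem UNIQ (hn : 1 ≤ n) (Z : Subalgebra F (Matrix (Fin n) (Fin n) F))
    (hcomm : ∀ x ∈ Z, ∀ y ∈ Z, x * y = y * x) (hinv : ∀ x ∈ Z, x ≠ 0 → ∃ y ∈ Z, x * y = 1)
    (r : ℕ) (K K' : Subalgebra F (Matrix (Fin n) (Fin n) F)) (hK : IsFieldSubalgebra r K)
    (hK' : IsFieldSubalgebra r K') (h1 : K ≤ Z) (h2 : K' ≤ Z) : K = K' := by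
  classical
  have h01 : (0 : ↥Z) ≠ 1 := zero_ne_one_sub hn Z
  letI iZ : Field ↥Z := Cfsg.Agent.Lib.Helper87.ASPSF.fieldK Z hcomm hinv h01
  haveI : Fintype ↥K := Fintype.ofFinite _
  haveI : Fintype ↥K' := Fintype.ofFinite _
  have hcK : Fintype.card ↥K = Fintype.card F ^ r := by
    rw [← Nat.card_eq_fintype_card]
    exact card_sub r K hK
  have hcK' : Fintype.card ↥K' = Fintype.card F ^ r := by
    rw [← Nat.card_eq_fintype_card]
    exact card_sub r K' hK'
  have hQ : 1 < Fintype.card F ^ r := by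
    rw [← hcK]
    exact Fintype.one_lt_card_iff.mpr ⟨0, 1, zero_ne_one_sub hn K⟩
  set Q : ℕ := Fintype.card F ^ r with hQdef
  let p : Polynomial ↥Z := Polynomial.X ^ Q - Polynomial.X
  have hp0 : p ≠ 0 := FiniteField.X_pow_card_sub_X_ne_zero ↥Z hQ
  have hpdeg : p.natDegree = Q := FiniteField.X_pow_card_sub_X_natDegree_eq ↥Z hQ
  let R : Finset ↥Z := p.roots.toFinset
  have hRcard : R.card ≤ Q := by
    calc R.card ≤ Multiset.card p.roots := Multiset.toFinset_card_le _
      _ ≤ p.natDegree := Polynomial.card_roots' p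
      _ = Q := hpdeg
  have hroot : ∀ (x : Matrix (Fin n) (Fin n) F) (hx : x ∈ Z), x ^ Q = x →
      (⟨x, hx⟩ : ↥Z) ∈ R := by
    intro x hx hpow
    rw [Multiset.mem_toFinset, Polynomial.mem_roots hp0]
    show Polynomial.IsRoot (Polynomial.X ^ Q - Polynomial.X) _
    rw [Polynomial.IsRoot.def, Polynomial.eval_sub, Polynomial.eval_pow, Polynomial.eval_X]
    rw [sub_eq_zero]
    exact Subtype.ext hpow
  -- the images of K and K' in Z
  let T : Finset ↥Z := Finset.univ.map
    ⟨fun x : ↥K => (⟨x.1, h1 x.2⟩ : ↥Z), fun a b h => Subtype.ext (congrArg (fun z : ↥Z => z.1) h)⟩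
  let T' : Finset ↥Z := Finset.univ.map
    ⟨fun x : ↥K' => (⟨x.1, h2 x.2⟩ : ↥Z), fun a b h => Subtype.ext (congrArg (fun z : ↥Z => z.1) h)⟩
  have hTR : T ⊆ R := by
    intro z hz
    obtain ⟨x, -, rfl⟩ := Finset.mem_map.mp hz
    exact hroot x.1 (h1 x.2) (pow_card_of_mem hn r K hK x.1 x.2)
  have hT'R : T' ⊆ R := by
    intro z hz
    obtain ⟨x, -, rfl⟩ := Finset.mem_map.mp hz
    exact hroot x.1 (h2 x.2) (pow_card_of_mem hn r K' hK' x.1 x.2)
  have hTc : T.card = Q := by rw [Finset.card_map, Finset.card_univ, hcK]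
  have hT'c : T'.card = Q := by rw [Finset.card_map, Finset.card_univ, hcK']
  have hTeq : T = R := Finset.eq_of_subset_of_card_le hTR (by rw [hTc]; exact hRcard)
  have hT'eq : T' = R := Finset.eq_of_subset_of_card_le hT'R (by rw [hT'c]; exact hRcard)
  have hTT' : T = T' := hTeq.trans hT'eq.symm
  apply le_antisymm
  · intro x hx
    have hm : (⟨x, h1 hx⟩ : ↥Z) ∈ T := Finset.mem_map.mpr ⟨⟨x, hx⟩, Finset.mem_univ _, rfl⟩
    rw [hTT'] at hm
    obtain ⟨y, -, hy⟩ := Finset.mem_map.mp hm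
    have : y.1 = x := congrArg Subtype.val hy
    rw [← this]
    exact y.2
  · intro x hx
    have hm : (⟨x, h2 hx⟩ : ↥Z) ∈ T' := Finset.mem_map.mpr ⟨⟨x, hx⟩, Finset.mem_univ _, rfl⟩
    rw [← hTT'] at hm
    obtain ⟨y, -, hy⟩ := Finset.mem_map.mp hm
    have : y.1 = x := congrArg Subtype.val hy
    rw [← this]
    exact y.2

end Cfsg.Agent.Lib.Helper10.SPPUNIQ
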