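import Mathlib

/-! # Theta series of an even unimodular lattice of rank 24: foundations

Triangular ("completed square") quadratic forms and their dual forms, the hypotheses on the Gram
matrix, the theta series and the representation numbers. -/

set_option autoImplicit false

namespace Cfsg.Agent.Lib.Helper10.TH

open Matrix

/-- Triangular data of a positive definite quadratic form in `n` variables:
`Q(x) = d * (x 0 + ∑ j, u j * x (j+1)) ^ 2 + Q'(x 1, ..., x n)`. -/
inductive Tri : ℕ → Type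
  | nil : Tri 0
  | cons {n : ℕ} (d : ℝ) (hd : 0 < d) (u : Fin n → ℝ) (T : Tri n) : Tri (n + 1)

/-- The quadratic form of triangular data. -/
noncomputable def Tri.Q : {n : ℕ} → Tri n → (Fin n → ℝ) → ℝ
  | _, .nil, _ => 0
  | _, .cons d _ u T, x =>
      d * (x 0 + ∑ j, u j * x j.succ) ^ 2 + T.Q (fun j => x j.succ)

/-- The dual quadratic form of triangular data. -/
noncomputable def Tri.Qd : {n : ℕ} → Tri n → (Fin n → ℝ) → ℝ
  | _, .nil, _ => 0
  | _, .cons d _ u T, w =>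
      (w 0) ^ 2 / d + T.Qd (fun j => w j.succ - w 0 * u j)

/-- Half the gradient of the quadratic form of triangular data. -/
noncomputable def Tri.grad : {n : ℕ} → Tri n → (Fin n → ℝ) → (Fin n → ℝ)
  | _, .nil, _ => fun _ => 0
  | _, .cons d _ u T, x =>
      Fin.cons (d * (x 0 + ∑ j, u j * x j.succ))
        (fun j => d * (x 0 + ∑ j, u j * x j.succ) * u j + T.grad (fun j => x j.succ) j)

/-- The normalising constant of triangular data: the inverse square root of the determinant. -/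
noncomputable def Tri.c : {n : ℕ} → Tri n → ℝ
  | _, .nil => 1
  | _, .cons d _ _ T => (Real.sqrt d)⁻¹ * T.c

theorem Tri.Q_cons {n : ℕ} (d : ℝ) (hd : 0 < d) (u : Fin n → ℝ) (T : Tri n)
    (x : Fin (n + 1) → ℝ) :
    (Tri.cons d hd u T).Q x =
      d * (x 0 + ∑ j, u j * x j.succ) ^ 2 + T.Q (fun j => x j.succ) := rfl

theorem Tri.Qd_cons {n : ℕ} (d : ℝ) (hd : 0 < d) (u : Fin n → ℝ) (T : Tri n)
    (w : Fin (n + 1) → ℝ) :
    (Tri.cons d hd u T).Qd w =
      (w 0) ^ 2 / d + T.Qd (fun j => w j.succ - w 0 * u j) := rfl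

theorem Tri.grad_cons {n : ℕ} (d : ℝ) (hd : 0 < d) (u : Fin n → ℝ) (T : Tri n)
    (x : Fin (n + 1) → ℝ) :
    (Tri.cons d hd u T).grad x =
      Fin.cons (d * (x 0 + ∑ j, u j * x j.succ))
        (fun j => d * (x 0 + ∑ j, u j * x j.succ) * u j + T.grad (fun j => x j.succ) j) := rfl

theorem Tri.c_cons {n : ℕ} (d : ℝ) (hd : 0 < d) (u : Fin n → ℝ) (T : Tri n) :
    (Tri.cons d hd u T).c = (Real.sqrt d)⁻¹ * T.c := rfl

theorem Tri.Q_nil (x : Fin 0 → ℝ) : Tri.nil.Q x = 0 := rfl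

theorem Tri.Qd_nil (x : Fin 0 → ℝ) : Tri.nil.Qd x = 0 := rfl

theorem Tri.c_nil : Tri.nil.c = 1 := rfl

theorem Tri.c_pos : ∀ {n : ℕ} (T : Tri n), 0 < T.c
  | _, .nil => one_pos
  | _, .cons d hd _ T => mul_pos (inv_pos.mpr (Real.sqrt_pos.mpr hd)) (Tri.c_pos T)

/-- The quadratic form of a Gram matrix. -/
def qf (B : Matrix (Fin 24) (Fin 24) ℤ) (x : Fin 24 → ℤ) : ℤ := x ⬝ᵥ (B *ᵥ x)

/-- The hypotheses: an even unimodular positive definite Gram matrix of rank 24. -/
structure UHyp (B : Matrix (Fin 24) (Fin 24) ℤ) : Prop where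
  symm : B.IsSymm
  pos : ∀ x : Fin 24 → ℤ, x ≠ 0 → 0 < qf B x
  even : ∀ x : Fin 24 → ℤ, (2 : ℤ) ∣ qf B x
  det : B.det = 1

/-- The number of vectors of norm `2 * m`. -/
noncomputable def rep (B : Matrix (Fin 24) (Fin 24) ℤ) (m : ℕ) : ℕ :=
  {x : Fin 24 → ℤ | qf B x = 2 * (m : ℤ)}.ncard

/-- The Gaussian sum `∑ exp (-π t Q(x))` over the lattice. -/
noncomputable def gsum (B : Matrix (Fin 24) (Fin 24) ℤ) (t : ℂ) : ℂ :=
  ∑' x : Fin 24 → ℤ, Complex.exp (-(Real.pi : ℂ) * t * (qf B x : ℂ))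

/-- The theta series on the upper half plane. -/
noncomputable def theta (B : Matrix (Fin 24) (Fin 24) ℤ) (τ : UpperHalfPlane) : ℂ :=
  gsum B (-Complex.I * (τ : ℂ))

end Cfsg.Agent.Lib.Helper10.TH
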