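import Cfsg.Agent.Lib.Helper10.TH0

/-! # A convergent q-series is holomorphic on the upper half plane -/

set_option autoImplicit false

namespace Cfsg.Agent.Lib.Helper10.TH

open Matrix Complex UpperHalfPlane ModularForm MatrixGroups Function
open scoped Manifold Real

/-- C6 -/
theorem mdiff_of_hasSum {f : ℍ → ℂ} {c : ℕ → ℂ}
    (hf : ∀ τ : ℍ, HasSum (fun m : ℕ => c m • Function.Periodic.qParam 1 (τ : ℂ) ^ m) (f τ)) :
    MDifferentiable 𝓘(ℂ) 𝓘(ℂ) f := by
  let g : ℂ → ℂ := fun q => ∑' m : ℕ, c m • q ^ m
  have hsum : ∀ q : ℂ, ‖q‖ < 1 → HasSum (fun m : ℕ => c m • q ^ m) (g q) := by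
    intro q hq
    rcases eq_or_ne q 0 with rfl | hq0
    · have : HasSum (fun m : ℕ => c m • (0 : ℂ) ^ m) (c 0) := by
        simpa +contextual [zero_pow_eq] using hasSum_ite_eq 0 (c 0)
      exact this.summable.hasSum
    · have h1 := Function.Periodic.im_invQParam_pos_of_norm_lt_one one_pos hq hq0
      have := hf ⟨Function.Periodic.invQParam 1 q, h1⟩
      rw [UpperHalfPlane.coe_mk, Function.Periodic.qParam_right_inv one_ne_zero hq0] at this
      exact this.summable.hasSum
  have hg : HasFPowerSeriesOnBall g (.ofScalars ℂ c) 0 1 := by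
    constructor
    · refine le_of_forall_lt_imp_le_of_dense fun r hr ↦ ?_
      rcases eq_or_ne r 0 with rfl | hr'
      · simp
      · lift r to NNReal using hr.ne_top
        apply FormalMultilinearSeries.le_radius_of_summable
        simpa [smul_eq_mul, norm_mul, mul_comm, mul_left_comm, mul_assoc] using
          (hsum (r : ℂ) (by simpa using hr)).summable.norm
    · simp
    · intro y hy
      rw [← ENNReal.coe_one, Metric.eball_coe, NNReal.coe_one, mem_ball_zero_iff] at hy
      simpa [mul_comm] using hsum y hy
  have hdiff : DifferentiableOn ℂ g (Metric.ball 0 1) := by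
    have := hg.differentiableOn
    rwa [← ENNReal.coe_one, Metric.eball_coe, NNReal.coe_one] at this
  rw [UpperHalfPlane.mdifferentiable_iff]
  have heq : Set.EqOn (f ∘ ofComplex) (g ∘ Function.Periodic.qParam 1) {z | 0 < z.im} := by
    intro z hz
    simp only [Function.comp]
    rw [ofComplex_apply_of_im_pos hz]
    exact (hf ⟨z, hz⟩).unique (hsum _ (Function.Periodic.norm_qParam_lt_one one_pos hz))
  refine DifferentiableOn.congr ?_ heq
  refine hdiff.comp ?_ ?_
  · exact (Function.Periodic.differentiable_qParam).differentiableOn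
  · intro z hz
    simpa using Function.Periodic.norm_qParam_lt_one one_pos hz

end Cfsg.Agent.Lib.Helper10.TH
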