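import Cfsg.Agent.Lib.Helper10.TH0

/-! # Theta series: invariance under the two generators of the modular group -/

set_option autoImplicit false

namespace Cfsg.Agent.Lib.Helper10.TH

open Matrix Complex UpperHalfPlane ModularForm MatrixGroups
open scoped Manifold Real

variable {B : Matrix (Fin 24) (Fin 24) ℤ}

/-- C7 -/
theorem theta_slash_T (hB : UHyp B) : (theta B) ∣[(12 : ℤ)] ModularGroup.T = theta B := by
  funext τ
  rw [ModularForm.slash_action_eq'_iff]
  have h10 : (ModularGroup.T 1 0 : ℤ) = 0 := by simp [ModularGroup.T]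
  have h11 : (ModularGroup.T 1 1 : ℤ) = 1 := by simp [ModularGroup.T]
  rw [h10, h11]
  simp only [Int.cast_zero, zero_mul, Int.cast_one, zero_add, _root_.one_zpow, one_mul]
  unfold theta gsum
  rw [UpperHalfPlane.modular_T_smul, UpperHalfPlane.coe_vadd]
  refine tsum_congr fun x => ?_
  obtain ⟨k, hk⟩ := hB.even x
  have : -(π : ℂ) * (-Complex.I * ((((1 : ℝ) : ℂ)) + (τ : ℂ))) * (qf B x : ℂ) =
      -(π : ℂ) * (-Complex.I * (τ : ℂ)) * (qf B x : ℂ) + (k : ℂ) * (2 * π * Complex.I) := by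
    rw [hk]
    push_cast
    ring
  rw [this, Complex.exp_add, Complex.exp_int_mul_two_pi_mul_I, mul_one]

/-- C8 (from C4 as hypothesis) -/
theorem theta_slash_S_of
    (hinv : ∀ t : ℂ, 0 < t.re → gsum B (1 / t) = t ^ 12 * gsum B t) :
    (theta B) ∣[(12 : ℤ)] ModularGroup.S = theta B := by
  funext τ
  rw [ModularForm.slash_action_eq'_iff]
  have h10 : (ModularGroup.S 1 0 : ℤ) = 1 := by simp [ModularGroup.S]
  have h11 : (ModularGroup.S 1 1 : ℤ) = 0 := by simp [ModularGroup.S]
  rw [h10, h11]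
  simp only [Int.cast_one, one_mul, Int.cast_zero, add_zero]
  unfold theta
  rw [UpperHalfPlane.modular_S_smul, UpperHalfPlane.coe_mk]
  have hτ : (τ : ℂ) ≠ 0 := UpperHalfPlane.ne_zero τ
  have ht : 0 < (-Complex.I * (τ : ℂ)).re := by
    simp only [neg_mul, Complex.neg_re, Complex.mul_re, Complex.I_re, zero_mul, Complex.I_im,
      one_mul, zero_sub, neg_neg]
    exact τ.im_pos
  have h1 : -Complex.I * (-(τ : ℂ))⁻¹ = 1 / (-Complex.I * (τ : ℂ)) := by
    field_simp
    rw [Complex.I_sq]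
  rw [h1, hinv _ ht]
  congr 1
  rw [mul_pow]
  have : (-Complex.I) ^ 12 = 1 := by
    have h4 : (-Complex.I) ^ 4 = 1 := by
      rw [neg_pow, Complex.I_pow_four]; norm_num
    calc (-Complex.I) ^ 12 = ((-Complex.I) ^ 4) ^ 3 := by ring
      _ = 1 := by rw [h4, one_pow]
  rw [this, one_mul]
  norm_cast

end Cfsg.Agent.Lib.Helper10.TH
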