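import Cfsg.Agent.Lib.Helper10.TH0
import Cfsg.Agent.Lib.Helper10.THC6
import Cfsg.Agent.Lib.Helper10.THC78
import Cfsg.Agent.Lib.Helper65.THA1
import Cfsg.Agent.Lib.Helper65.THA2
import Cfsg.Agent.Lib.Helper65.THA3
import Cfsg.Agent.Lib.Helper77.THA4
import Cfsg.Agent.Lib.Helper65.THA5
import Cfsg.Agent.Lib.Helper79.THB1
import Cfsg.Agent.Lib.Helper96.THB2
import Cfsg.Agent.Lib.Helper79.THB3
import Cfsg.Agent.Lib.Helper79.THB4
import Cfsg.Agent.Lib.Helper89.THB5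
import Cfsg.Agent.Lib.Helper18.THB6
import Cfsg.Agent.Lib.Helper51.THC1
import Cfsg.Agent.Lib.Helper92.THC3
import Cfsg.Agent.Lib.Helper77.THC4
import Cfsg.Agent.Lib.Helper65.THC5
import Cfsg.Agent.Lib.Helper38.THC10
import Cfsg.Agent.Lib.Helper79.THC12

/-! # Theta series of an even unimodular lattice of rank 24: assembly

The theta series is a modular form of weight 12 and level one; the Sturm bound identifies it with
`(7/12) E₄³ + (5/12) E₆²`, whose coefficients give the numbers of vectors of norm 4, 6, 8.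
The pieces were proved by helper18, helper38, helper51, helper65, helper77, helper79, helper89,
helper92 and helper96 (job board, notes 1072 and 1073). -/

set_option autoImplicit false

namespace Cfsg.Agent.Lib.Helper10.TH

open Matrix Complex UpperHalfPlane ModularForm MatrixGroups
open scoped Manifold Real

variable {B : Matrix (Fin 24) (Fin 24) ℤ}

/-- C9 (from C5, C6, C7, C8) -/
theorem exists_modularForm_of
    (hq : ∀ τ : ℍ, HasSum (fun m : ℕ => (rep B m : ℂ) • Function.Periodic.qParam 1 (τ : ℂ) ^ m)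
      (theta B τ))
    (hd : MDifferentiable 𝓘(ℂ) 𝓘(ℂ) (theta B))
    (hT : (theta B) ∣[(12 : ℤ)] ModularGroup.T = theta B)
    (hS : (theta B) ∣[(12 : ℤ)] ModularGroup.S = theta B) :
    ∃ f : ModularForm 𝒮ℒ 12, ∀ τ : ℍ, f τ = theta B τ := by
  have hsl : ∀ γ : SL(2, ℤ), theta B ∣[(12 : ℤ)] γ = theta B :=
    SlashInvariantForm.slash_action_generators_SL2Z hS hT
  have hbd : IsBoundedAtImInfty (theta B) :=
    isBoundedAtImInfty_of_hasSum_qExpansion one_pos hq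
  refine ⟨{ toFun := theta B, slash_action_eq' := ?_, holo' := hd, bdd_at_cusps' := ?_ },
    fun τ => rfl⟩
  · intro γ hγ
    obtain ⟨γ', rfl⟩ := hγ
    exact hsl γ'
  · intro c hc
    rw [Subgroup.IsArithmetic.isCusp_iff_isCusp_SL2Z] at hc
    rw [OnePoint.isBoundedAt_iff_forall_SL2Z hc]
    intro γ hγ
    rw [hsl γ]
    exact hbd

theorem rep_zero (hB : UHyp B) : rep B 0 = 1 := by
  have : {x : Fin 24 → ℤ | qf B x = 2 * ((0 : ℕ) : ℤ)} = {0} := by
    ext x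
    simp only [Nat.cast_zero, mul_zero, Set.mem_ofPred_eq, Set.mem_singleton_iff]
    constructor
    · intro h
      by_contra hx
      have := hB.pos x hx
      omega
    · rintro rfl
      simp [qf]
  rw [rep, this, Set.ncard_singleton]

theorem rep_one (h2 : ∀ x : Fin 24 → ℤ, qf B x ≠ 2) : rep B 1 = 0 := by
  have : {x : Fin 24 → ℤ | qf B x = 2 * ((1 : ℕ) : ℤ)} = ∅ := by
    ext x
    simp only [Nat.cast_one, mul_one, Set.mem_ofPred_eq, Set.mem_empty_iff_false, iff_false]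
    exact h2 x
  rw [rep, this, Set.ncard_empty]

/-- C13 (from the other pieces) -/
theorem counts_of (hB : UHyp B) (h2 : ∀ x : Fin 24 → ℤ, qf B x ≠ 2)
    (hq : ∀ τ : ℍ, HasSum (fun m : ℕ => (rep B m : ℂ) • Function.Periodic.qParam 1 (τ : ℂ) ^ m)
      (theta B τ))
    (f : ModularForm 𝒮ℒ 12) (hf : ∀ τ : ℍ, f τ = theta B τ)
    (h4 : (qExpansion 1 E₄).coeff 0 = 1 ∧ (qExpansion 1 E₄).coeff 1 = 240 ∧
      (qExpansion 1 E₄).coeff 2 = 2160 ∧ (qExpansion 1 E₄).coeff 3 = 6720 ∧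
      (qExpansion 1 E₄).coeff 4 = 17520)
    (h6 : (qExpansion 1 E₆).coeff 0 = 1 ∧ (qExpansion 1 E₆).coeff 1 = -504 ∧
      (qExpansion 1 E₆).coeff 2 = -16632 ∧ (qExpansion 1 E₆).coeff 3 = -122976 ∧
      (qExpansion 1 E₆).coeff 4 = -532728)
    (hps : ∀ p4 p6 : PowerSeries ℂ,
      (p4.coeff 0 = 1 ∧ p4.coeff 1 = 240 ∧ p4.coeff 2 = 2160 ∧ p4.coeff 3 = 6720 ∧
        p4.coeff 4 = 17520) →
      (p6.coeff 0 = 1 ∧ p6.coeff 1 = -504 ∧ p6.coeff 2 = -16632 ∧ p6.coeff 3 = -122976 ∧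
        p6.coeff 4 = -532728) →
      ((7 / 12 : ℂ) • p4 ^ 3 + (5 / 12 : ℂ) • p6 ^ 2).coeff 0 = 1 ∧
      ((7 / 12 : ℂ) • p4 ^ 3 + (5 / 12 : ℂ) • p6 ^ 2).coeff 1 = 0 ∧
      ((7 / 12 : ℂ) • p4 ^ 3 + (5 / 12 : ℂ) • p6 ^ 2).coeff 2 = 196560 ∧
      ((7 / 12 : ℂ) • p4 ^ 3 + (5 / 12 : ℂ) • p6 ^ 2).coeff 3 = 16773120 ∧
      ((7 / 12 : ℂ) • p4 ^ 3 + (5 / 12 : ℂ) • p6 ^ 2).coeff 4 = 398034000) :
    rep B 2 = 196560 ∧ rep B 3 = 16773120 ∧ rep B 4 = 398034000 := by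
  have hc : ∀ m : ℕ, (rep B m : ℂ) = (qExpansion 1 f).coeff m := fun m =>
    ModularFormClass.qExpansion_coeff_unique one_pos one_mem_strictPeriods_SL (f := f)
      (fun τ => by rw [hf]; exact hq τ) m
  set E43 : ModularForm 𝒮ℒ 12 :=
    ModularForm.mcast (by norm_num : (4 : ℤ) + 4 + 4 = 12) ((E₄.mul E₄).mul E₄) with hE43
  set E62 : ModularForm 𝒮ℒ 12 :=
    ModularForm.mcast (by norm_num : (6 : ℤ) + 6 = 12) (E₆.mul E₆) with hE62
  have q43 : qExpansion 1 E43 = qExpansion 1 E₄ ^ 3 := by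
    rw [hE43, ModularForm.qExpansion_mcast,
      ModularForm.qExpansion_mul one_pos one_mem_strictPeriods_SL,
      ModularForm.qExpansion_mul one_pos one_mem_strictPeriods_SL]
    ring
  have q62 : qExpansion 1 E62 = qExpansion 1 E₆ ^ 2 := by
    rw [hE62, ModularForm.qExpansion_mcast,
      ModularForm.qExpansion_mul one_pos one_mem_strictPeriods_SL]
    ring
  set P : PowerSeries ℂ := (7 / 12 : ℂ) • qExpansion 1 E₄ ^ 3 + (5 / 12 : ℂ) • qExpansion 1 E₆ ^ 2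
    with hP
  obtain ⟨P0, P1, P2, P3, P4⟩ := hps _ _ h4 h6
  set g : ModularForm 𝒮ℒ 12 := f - ((7 / 12 : ℂ) • E43 + (5 / 12 : ℂ) • E62) with hg
  have qg : qExpansion 1 g = qExpansion 1 f - P := by
    rw [hg, FunLike.coe_sub,
      ModularForm.qExpansion_sub one_pos one_mem_strictPeriods_SL f
        ((7 / 12 : ℂ) • E43 + (5 / 12 : ℂ) • E62), FunLike.coe_add,
      ModularForm.qExpansion_add one_pos one_mem_strictPeriods_SL ((7 / 12 : ℂ) • E43)
        ((5 / 12 : ℂ) • E62), FunLike.coe_smul, FunLike.coe_smul,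
      ModularForm.qExpansion_smul one_pos one_mem_strictPeriods_SL (7 / 12 : ℂ) E43,
      ModularForm.qExpansion_smul one_pos one_mem_strictPeriods_SL (5 / 12 : ℂ) E62, q43, q62]
  have g0 : g = 0 := by
    apply ModularForm.sturm_bound_levelOne
    have h2le : ((2 : ℕ) : ℕ∞) ≤ (qExpansion 1 g).order := by
      apply PowerSeries.nat_le_order
      intro i hi
      interval_cases i
      · rw [qg, map_sub, ← hc 0, rep_zero hB, P0]; simp
      · rw [qg, map_sub, ← hc 1, rep_one h2, P1]; simp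
    refine lt_of_lt_of_le ?_ h2le
    have h1 : (12 : ℤ).toNat / 12 = 1 := by decide
    rw [h1]
    exact_mod_cast (by norm_num : (1 : ℕ) < 2)
  have hfP : qExpansion 1 f = P := by
    have : qExpansion 1 g = 0 := by rw [g0]; exact qExpansion_zero 1
    rw [qg] at this
    exact sub_eq_zero.mp this
  refine ⟨?_, ?_, ?_⟩
  · have := hc 2
    rw [hfP, P2] at this
    exact_mod_cast this
  · have := hc 3
    rw [hfP, P3] at this
    exact_mod_cast this
  · have := hc 4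
    rw [hfP, P4] at this
    exact_mod_cast this


theorem summable_Q {n : ℕ} (T : Tri n) (ρ : ℝ) (hρ : 0 < ρ) :
    Summable (fun x : Fin n → ℤ => Real.exp (-ρ * T.Q (fun i => (x i : ℝ)))) := by
  obtain ⟨c, hc, hco⟩ := Cfsg.Agent.Lib.Helper65.THA1.coercive T
  exact Cfsg.Agent.Lib.Helper79.THB3.summable_Q_of T hc hco
    (fun c' hc' z => Cfsg.Agent.Lib.Helper96.THB2.summable_gauss hc' z) hρ

theorem summable_Qd {n : ℕ} (T : Tri n) (ρ : ℝ) (hρ : 0 < ρ) (z : Fin n → ℝ) :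
    Summable (fun ξ : Fin n → ℤ => Real.exp (-ρ * T.Qd (fun i => (ξ i : ℝ) - z i))) := by
  obtain ⟨c, hc, hco⟩ := Cfsg.Agent.Lib.Helper65.THA2.coercive_dual T
  exact Cfsg.Agent.Lib.Helper79.THB4.summable_Qd_of T hc hco
    (fun c' hc' z => Cfsg.Agent.Lib.Helper96.THB2.summable_gauss hc' z) hρ z

theorem inv {n : ℕ} (T : Tri n) (t : ℂ) (ht : 0 < t.re) (z : Fin n → ℝ) :
    ∑' x : Fin n → ℤ, cexp (-(π : ℂ) * t * ((T.Q (fun i => (x i : ℝ)) : ℝ) : ℂ) +
        2 * π * Complex.I * ((∑ i, (x i : ℝ) * z i : ℝ) : ℂ)) =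
      (T.c : ℂ) * ((t ^ (1 / 2 : ℂ)) ^ n)⁻¹ *
        ∑' ξ : Fin n → ℤ, cexp (-(π : ℂ) / t * ((T.Qd (fun i => (ξ i : ℝ) - z i) : ℝ) : ℂ)) :=
  Cfsg.Agent.Lib.Helper18.THB6.inv_of
    (fun c hc z => Cfsg.Agent.Lib.Helper79.THB1.summable_gauss_one hc z)
    (fun T ρ hρ => summable_Q T ρ hρ) (fun T ρ hρ z => summable_Qd T ρ hρ z)
    (fun t ht d hd s z => Cfsg.Agent.Lib.Helper89.THB5.inv_one t ht d hd s z) T t ht z

/-- An even unimodular lattice of rank 24 without vectors of norm 2 has 196560, 16773120 and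
398034000 vectors of norms 4, 6 and 8. -/
theorem counts (hB : UHyp B) (h2 : ∀ x : Fin 24 → ℤ, qf B x ≠ 2) :
    rep B 2 = 196560 ∧ rep B 3 = 16773120 ∧ rep B 4 = 398034000 := by
  obtain ⟨T, hTQ, hTg⟩ := Cfsg.Agent.Lib.Helper51.THC1.exists_tri_of_uhyp_of
    (fun A hA hpos => Cfsg.Agent.Lib.Helper77.THA4.exists_tri A hA hpos)
    (fun B hB hpos hdet => Cfsg.Agent.Lib.Helper65.THA5.real_posdef B hB hpos hdet) hB
  have hsum : ∀ ρ : ℝ, 0 < ρ →
      Summable (fun x : Fin 24 → ℤ => Real.exp (-ρ * (qf B x : ℝ))) := by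
    intro ρ hρ
    have := summable_Q T ρ hρ
    simpa only [hTQ] using this
  obtain ⟨c, hc, hco⟩ := Cfsg.Agent.Lib.Helper65.THA1.coercive T
  have hfin : ∀ m : ℤ, {x : Fin 24 → ℤ | qf B x = m}.Finite := fun m =>
    Cfsg.Agent.Lib.Helper92.THC3.finite_level_of T hTQ hc hco m
  have hinvB : ∀ t : ℂ, 0 < t.re → gsum B (1 / t) = t ^ 12 * gsum B t := fun t ht =>
    Cfsg.Agent.Lib.Helper77.THC4.gsum_inv_of hB T hTQ hTg (fun t ht z => inv T t ht z)
      (Cfsg.Agent.Lib.Helper65.THA3.Qd_grad T) hsum t ht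
  have hq : ∀ τ : ℍ, HasSum
      (fun m : ℕ => (rep B m : ℂ) • Function.Periodic.qParam 1 (τ : ℂ) ^ m) (theta B τ) :=
    fun τ => Cfsg.Agent.Lib.Helper65.THC5.hasSum_theta_of hB hsum hfin τ
  have hd := mdiff_of_hasSum hq
  obtain ⟨f, hf⟩ := exists_modularForm_of hq hd (theta_slash_T hB) (theta_slash_S_of hinvB)
  exact counts_of hB h2 hq f hf Cfsg.Agent.Lib.Helper38.THC10.E4_coeffs
    Cfsg.Agent.Lib.Helper38.THC10.E6_coeffs
    (fun p4 p6 h4 h6 => Cfsg.Agent.Lib.Helper79.THC12.ps_coeffs p4 p6 h4 h6)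

end Cfsg.Agent.Lib.Helper10.TH
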