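import Mathlib
import Cfsg.Prelude.Def_GeometricClasses
import Cfsg.Prelude.Def_LieClassical
import Cfsg.Agent.Lib.Helper71.Asch0
import Cfsg.Agent.Lib.Helper71.Asch5
import Cfsg.Agent.Lib.Helper71.Asch8

/-! Project SPG (helper71), sub-project TIF, piece T1b. -/

set_option autoImplicit false

namespace Cfsg.Agent.Lib.Helper10.TIFT1b

open Matrix Cfsg.Geo Cfsg.Agent.Lib.Helper71.Asch

variable {n : ℕ} {F : Type*} [Field F] [Fintype F]

/-- T1b: the factor group `R` of a subgroup `S` whose span is `P * iota i (M_m(F)) * Q`. -/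
theorem T1b {m k : ℕ} (P : Matrix (Fin n) (Fin k → Fin m) F)
    (Q : Matrix (Fin k → Fin m) (Fin n) F) (hPQ : P * Q = 1) (hQP : Q * P = 1) (i : Fin k)
    (S : Subgroup (GL (Fin n) F))
    (hsP : ∀ X : Matrix (Fin n) (Fin n) F, X ∈ Submodule.span F (matrixSet S) ↔
      ∃ A : Matrix (Fin m) (Fin m) F, X = P * iota i A * Q) :
    ∃ R : Subgroup (GL (Fin m) F), Submodule.span F (matrixSet R) = ⊤ ∧
      (∀ A ∈ R, ∃ x ∈ S, x.1 = P * iota i A.1 * Q) ∧
      (∀ x ∈ S, ∃ A ∈ R, x.1 = P * iota i A.1 * Q) := by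
  classical
  -- the map `φ A = P * iota i A * Q`
  have hφmul : ∀ A B : Matrix (Fin m) (Fin m) F,
      (P * iota i A * Q) * (P * iota i B * Q) = P * iota i (A * B) * Q := by
    intro A B
    calc (P * iota i A * Q) * (P * iota i B * Q)
        = P * iota i A * (Q * P) * iota i B * Q := by simp only [Matrix.mul_assoc]
      _ = P * (iota i A * iota i B) * Q := by rw [hQP, Matrix.mul_one]; simp only [Matrix.mul_assoc]
      _ = P * iota i (A * B) * Q := by rw [iota_mul]
  have hφone : P * iota i (1 : Matrix (Fin m) (Fin m) F) * Q = 1 := by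
    rw [iota_one, Matrix.mul_one, hPQ]
  have hφinj : ∀ A B : Matrix (Fin m) (Fin m) F,
      P * iota i A * Q = P * iota i B * Q → A = B := by
    intro A B h
    have h1 : Q * (P * iota i A * Q) * P = Q * (P * iota i B * Q) * P := by rw [h]
    have e : ∀ C : Matrix (Fin m) (Fin m) F, Q * (P * iota i C * Q) * P = iota i C := by
      intro C
      calc Q * (P * iota i C * Q) * P = (Q * P) * iota i C * (Q * P) := by
            simp only [Matrix.mul_assoc]
        _ = iota i C := by rw [hQP, Matrix.one_mul, Matrix.mul_one]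
    rw [e, e] at h1
    exact iota_injective i h1
  let R : Subgroup (GL (Fin m) F) :=
    { carrier := {A | ∃ x ∈ S, x.1 = P * iota i A.1 * Q}
      one_mem' := ⟨1, S.one_mem, by rw [Units.val_one, Units.val_one, hφone]⟩
      mul_mem' := by
        rintro A B ⟨x, hx, hxA⟩ ⟨y, hy, hyB⟩
        refine ⟨x * y, S.mul_mem hx hy, ?_⟩
        rw [Units.val_mul, Units.val_mul, hxA, hyB, hφmul]
      inv_mem' := by
        rintro A ⟨x, hx, hxA⟩
        refine ⟨x⁻¹, S.inv_mem hx, ?_⟩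
        have h1 : (P * iota i (A⁻¹ : GL (Fin m) F).1 * Q) * x.1 = 1 := by
          rw [hxA, hφmul, Units.inv_mul, hφone]
        calc (x⁻¹ : GL (Fin n) F).1 = 1 * (x⁻¹ : GL (Fin n) F).1 := (Matrix.one_mul _).symm
          _ = (P * iota i (A⁻¹ : GL (Fin m) F).1 * Q) * x.1 * (x⁻¹ : GL (Fin n) F).1 := by rw [h1]
          _ = P * iota i (A⁻¹ : GL (Fin m) F).1 * Q := by
              rw [Matrix.mul_assoc, Units.mul_inv, Matrix.mul_one] }
  have hR2 : ∀ A ∈ R, ∃ x ∈ S, x.1 = P * iota i A.1 * Q := fun A hA => hA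
  have hR3 : ∀ x ∈ S, ∃ A ∈ R, x.1 = P * iota i A.1 * Q := by
    intro x hx
    have hx1 : x.1 ∈ Submodule.span F (matrixSet S) := Submodule.subset_span ⟨x, hx, rfl⟩
    have hx2 : (x⁻¹ : GL (Fin n) F).1 ∈ Submodule.span F (matrixSet S) :=
      Submodule.subset_span ⟨x⁻¹, S.inv_mem hx, rfl⟩
    obtain ⟨A, hA⟩ := (hsP _).mp hx1
    obtain ⟨A', hA'⟩ := (hsP _).mp hx2
    have h1 : A * A' = 1 := by
      apply hφinj
      rw [← hφmul, ← hA, ← hA', Units.mul_inv, hφone]
    have h2 : A' * A = 1 := by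
      apply hφinj
      rw [← hφmul, ← hA, ← hA', Units.inv_mul, hφone]
    exact ⟨⟨A, A', h1, h2⟩, ⟨x, hx, hA⟩, hA⟩
  refine ⟨R, ?_, hR2, hR3⟩
  -- the span of `R`
  let φL : Matrix (Fin m) (Fin m) F →ₗ[F] Matrix (Fin n) (Fin n) F :=
    { toFun := fun A => P * iota i A * Q
      map_add' := fun A B => by rw [iota_add, Matrix.mul_add, Matrix.add_mul]
      map_smul' := fun c A => by
        rw [iota_smul, Matrix.mul_smul, Matrix.smul_mul, RingHom.id_apply] }
  have himg : matrixSet S = φL '' matrixSet R := by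
    ext X
    constructor
    · rintro ⟨x, hx, rfl⟩
      obtain ⟨A, hA, hxA⟩ := hR3 x hx
      exact ⟨A.1, ⟨A, hA, rfl⟩, hxA.symm⟩
    · rintro ⟨B, ⟨A, hA, rfl⟩, rfl⟩
      obtain ⟨x, hx, hxA⟩ := hR2 A hA
      exact ⟨x, hx, hxA⟩
  rw [eq_top_iff]
  intro B _
  have hB : φL B ∈ Submodule.span F (matrixSet S) := (hsP _).mpr ⟨B, rfl⟩
  rw [himg, ← Submodule.map_span] at hB
  obtain ⟨B', hB', hBB'⟩ := hB
  have : B' = B := hφinj B' B hBB'
  rw [← this]
  exact hB'

end Cfsg.Agent.Lib.Helper10.TIFT1b
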