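import Mathlib

/-!
# S5982 piece UF-KERDIM (helper10, for helper96)

For a matrix `M` with `M ^ r = 1` and `r` invertible in `K`, the dimension of the fixed space
`ker (M - 1)` is the multiplicity of the root `1` in the characteristic polynomial.
-/

set_option autoImplicit false

namespace Cfsg.Agent.Lib.Helper10.Uf

open Polynomial Matrix

theorem finrank_ker_sub_one {K : Type*} [Field K] {n : ℕ} (M : Matrix (Fin n) (Fin n) K) (r : ℕ)
    (hr0 : (r : K) ≠ 0) (hM : M ^ r = 1) (m : ℕ) (g : K[X])
    (hchar : M.charpoly = (X - 1) ^ m * g) (hg : g.eval 1 ≠ 0) :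
    Module.finrank K (LinearMap.ker (Matrix.toLin' M - 1)) = m := by
  have hss : Module.End.IsSemisimple (Matrix.toLin' M) := by
    have hsep : (X ^ r - C (1 : K) : K[X]).Separable := separable_X_pow_sub_C 1 hr0 one_ne_zero
    apply Module.End.isSemisimple_of_squarefree_aeval_eq_zero hsep.squarefree
    rw [map_sub, map_pow, aeval_X, aeval_C, ← Matrix.toLin'_pow, hM]
    apply LinearMap.ext
    intro v
    simp [Algebra.algebraMap_eq_smul_one]
  have h1 : Module.End.eigenspace (Matrix.toLin' M) 1 = LinearMap.ker (Matrix.toLin' M - 1) := by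
    rw [Module.End.eigenspace_def]
    simp
  have hg0 : g ≠ 0 := by
    rintro rfl
    simp at hg
  have hne : ((X - C (1 : K)) ^ m * g : K[X]) ≠ 0 :=
    mul_ne_zero (pow_ne_zero _ (X_sub_C_ne_zero 1)) hg0
  rw [← h1, ← (Module.End.isFinitelySemisimple_iff_isSemisimple.mpr hss).maxGenEigenspace_eq_eigenspace,
    LinearMap.finrank_maxGenEigenspace_eq, Matrix.charpoly_toLin', hchar]
  have hC : (X - 1 : K[X]) = X - C (1 : K) := by simp
  rw [hC, rootMultiplicity_mul hne, rootMultiplicity_X_sub_C_pow,
    rootMultiplicity_eq_zero (by simpa [IsRoot] using hg), add_zero]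

end Cfsg.Agent.Lib.Helper10.Uf
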