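import Cfsg.Agent.Lib.Helper22.W2Defs
import Cfsg.Agent.S0720

/-!
# Piece NB3 of the W2 project (helper22, S4707): `nb3`

A primitive, not 2-transitive group of degree 10 has rank 3 with subdegrees 3 and 6 (S0720 with
`p = 5`), hence the structure `Nb G`.
-/

set_option autoImplicit false

namespace Cfsg.Agent.Lib.Helper10.W2

open Cfsg Cfsg.Agent.Lib.Helper22.W2
open scoped ComplexConjugate

universe u

variable {α : Type*} [Fintype α] [DecidableEq α]

theorem nb3_fix (G : Subgroup (Equiv.Perm α)) (x b : α)
    (h : x ∈ MulAction.orbit (MulAction.stabilizer G x) b) : b = x := by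
  obtain ⟨k, hk⟩ := h
  have h1 : (k : G) • x = x := MulAction.mem_stabilizer_iff.mp k.2
  have h2 : (k : G) • b = x := hk
  have h3 : (k : G) • b = (k : G) • x := by rw [h1]; exact h2
  exact MulAction.injective (k : G) h3

theorem nb3_aux (G : Subgroup (Equiv.Perm α)) (x y₃ y₆ : α) (h3x : y₃ ≠ x)
    (h3 : Nat.card (MulAction.orbit (MulAction.stabilizer G x) y₃) = 3)
    (h6 : Nat.card (MulAction.orbit (MulAction.stabilizer G x) y₆) = 6)
    (hall : ∀ z : α, z = x ∨ z ∈ MulAction.orbit (MulAction.stabilizer G x) y₃ ∨
      z ∈ MulAction.orbit (MulAction.stabilizer G x) y₆) :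
    Nat.card {y : α // adj G x y} = 3 ∧
    (∀ y y' : α, adj G x y → adj G x y' → ∃ h : G, h • x = x ∧ h • y = y') ∧
    (∀ y y' : α, y ≠ x → y' ≠ x → ¬ adj G x y → ¬ adj G x y' →
      ∃ h : G, h • x = x ∧ h • y = y') := by
  have hadj : ∀ z : α, adj G x z ↔ z ∈ MulAction.orbit (MulAction.stabilizer G x) y₃ := by
    intro z
    constructor
    · rintro ⟨hzx, hz3⟩
      rcases hall z with h | h | h
      · exact absurd h hzx
      · exact h
      · rw [MulAction.orbit_eq_iff.mpr h, h6] at hz3
        omega
    · intro hz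
      refine ⟨?_, ?_⟩
      · intro hzx
        rw [hzx] at hz
        exact h3x (nb3_fix G x y₃ hz)
      · rw [MulAction.orbit_eq_iff.mpr hz, h3]
  have trans : ∀ (b y y' : α), y ∈ MulAction.orbit (MulAction.stabilizer G x) b →
      y' ∈ MulAction.orbit (MulAction.stabilizer G x) b → ∃ h : G, h • x = x ∧ h • y = y' := by
    intro b y y' hy hy'
    have h1 : y' ∈ MulAction.orbit (MulAction.stabilizer G x) y := by
      rw [MulAction.orbit_eq_iff.mpr hy]; exact hy'
    obtain ⟨h, hh⟩ := h1
    exact ⟨(h : G), MulAction.mem_stabilizer_iff.mp h.2, hh⟩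
  refine ⟨?_, ?_, ?_⟩
  · rw [← h3]
    exact Nat.card_congr (Equiv.subtypeEquivRight hadj)
  · intro y y' hy hy'
    exact trans y₃ y y' ((hadj y).mp hy) ((hadj y').mp hy')
  · intro y y' hyx hy'x hy hy'
    have m : ∀ z, z ≠ x → ¬ adj G x z → z ∈ MulAction.orbit (MulAction.stabilizer G x) y₆ := by
      intro z hzx hz
      rcases hall z with h | h | h
      · exact absurd h hzx
      · exact absurd ((hadj z).mpr h) hz
      · exact h
    exact trans y₆ y y' (m y hyx hy) (m y' hy'x hy')

/-- PIECE NB3 -/
theorem nb3 (hα : Fintype.card α = 10) (G : Subgroup (Equiv.Perm α))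
    (hprim : MulAction.IsPreprimitive G α) (hnot2 : ¬ MulAction.IsMultiplyPretransitive G α 2) :
    Nb G := by
  intro x
  have h5 : Nat.Prime 5 := by norm_num
  rcases Cfsg.Agent.S0720.result h5 (by rw [hα]) G hprim x with h2 | ⟨hrank, a, ha0, hpa, hsub⟩
  · exact absurd h2 hnot2
  have ha1 : a = 1 := by nlinarith
  subst ha1
  have hsz : ∀ b : α, b ≠ x → Nat.card (MulAction.orbit (MulAction.stabilizer G x) b) = 3 ∨
      Nat.card (MulAction.orbit (MulAction.stabilizer G x) b) = 6 := by
    intro b hb
    simpa using hsub b hb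
  obtain ⟨y, hy⟩ : ∃ y : α, y ≠ x :=
    Fintype.exists_ne_of_one_lt_card (by rw [hα]; norm_num) x
  obtain ⟨y', hy'x, hy'⟩ : ∃ y' : α, y' ≠ x ∧
      y' ∉ MulAction.orbit (MulAction.stabilizer G x) y := by
    by_contra hcon
    push_neg at hcon
    have huniv : (Set.univ : Set α)
        = insert x (MulAction.orbit (MulAction.stabilizer G x) y) := by
      ext z
      simp only [Set.mem_univ, Set.mem_insert_iff, true_iff]
      by_cases hz : z = x
      · exact Or.inl hz
      · exact Or.inr (hcon z hz)
    have hc : (Set.univ : Set α).ncard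
        ≤ (MulAction.orbit (MulAction.stabilizer G x) y).ncard + 1 := by
      rw [huniv]; exact Set.ncard_insert_le _ _
    rw [Set.ncard_univ, Nat.card_eq_fintype_card, hα, ← Nat.card_coe_set_eq] at hc
    rcases hsz y hy with h | h <;> omega
  have hall : ∀ z : α, z = x ∨ z ∈ MulAction.orbit (MulAction.stabilizer G x) y ∨
      z ∈ MulAction.orbit (MulAction.stabilizer G x) y' := by
    classical
    haveI : Fintype (MulAction.orbitRel.Quotient (MulAction.stabilizer G x) α) :=
      Fintype.ofFinite _
    have hq : ∀ b c : α,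
        (Quotient.mk'' b : MulAction.orbitRel.Quotient (MulAction.stabilizer G x) α)
          = Quotient.mk'' c ↔ b ∈ MulAction.orbit (MulAction.stabilizer G x) c := by
      intro b c
      rw [Quotient.eq'']
      exact MulAction.orbitRel_apply
    have hScard : ({Quotient.mk'' x, Quotient.mk'' y, Quotient.mk'' y'} :
        Finset (MulAction.orbitRel.Quotient (MulAction.stabilizer G x) α)).card = 3 := by
      rw [Finset.card_eq_three]
      refine ⟨_, _, _, ?_, ?_, ?_, rfl⟩
      · rw [Ne, hq]; exact fun h => hy (nb3_fix G x y h)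
      · rw [Ne, hq]; exact fun h => hy'x (nb3_fix G x y' h)
      · rw [Ne, hq]
        intro h
        apply hy'
        rw [MulAction.orbit_eq_iff.mpr h]
        exact MulAction.mem_orbit_self y'
    have hSuniv := Finset.eq_univ_of_card _
      (by rw [hScard, ← Nat.card_eq_fintype_card, hrank] :
        ({Quotient.mk'' x, Quotient.mk'' y, Quotient.mk'' y'} :
        Finset (MulAction.orbitRel.Quotient (MulAction.stabilizer G x) α)).card
          = Fintype.card (MulAction.orbitRel.Quotient (MulAction.stabilizer G x) α))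
    intro z
    have hz : (Quotient.mk'' z : MulAction.orbitRel.Quotient (MulAction.stabilizer G x) α)
        ∈ ({Quotient.mk'' x, Quotient.mk'' y, Quotient.mk'' y'} :
        Finset (MulAction.orbitRel.Quotient (MulAction.stabilizer G x) α)) := by
      rw [hSuniv]; exact Finset.mem_univ _
    rw [Finset.mem_insert, Finset.mem_insert, Finset.mem_singleton, hq, hq, hq] at hz
    rcases hz with h | h | h
    · left
      obtain ⟨k, hk⟩ := h
      have h1 : (k : G) • x = x := MulAction.mem_stabilizer_iff.mp k.2
      have h2 : (k : G) • x = z := hk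
      rw [← h2, h1]
    · exact Or.inr (Or.inl h)
    · exact Or.inr (Or.inr h)
  have hdisj : Disjoint (MulAction.orbit (MulAction.stabilizer G x) y)
      (MulAction.orbit (MulAction.stabilizer G x) y') := by
    rw [Set.disjoint_left]
    intro z hz hz'
    apply hy'
    have e1 := MulAction.orbit_eq_iff.mpr hz
    have e2 := MulAction.orbit_eq_iff.mpr hz'
    rw [← e1, e2]
    exact MulAction.mem_orbit_self y'
  have huniv : (Set.univ : Set α) = insert x (MulAction.orbit (MulAction.stabilizer G x) y ∪
      MulAction.orbit (MulAction.stabilizer G x) y') := by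
    ext z
    simp only [Set.mem_univ, Set.mem_insert_iff, Set.mem_union, true_iff]
    exact hall z
  have hxn : x ∉ MulAction.orbit (MulAction.stabilizer G x) y ∪
      MulAction.orbit (MulAction.stabilizer G x) y' := by
    rw [Set.mem_union]
    rintro (h | h)
    · exact hy (nb3_fix G x y h)
    · exact hy'x (nb3_fix G x y' h)
  have hcount : Nat.card (MulAction.orbit (MulAction.stabilizer G x) y)
      + Nat.card (MulAction.orbit (MulAction.stabilizer G x) y') + 1 = 10 := by
    have h1 : (Set.univ : Set α).ncard = 10 := by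
      rw [Set.ncard_univ, Nat.card_eq_fintype_card, hα]
    rw [huniv, Set.ncard_insert_of_notMem hxn, Set.ncard_union_eq hdisj] at h1
    rw [Nat.card_coe_set_eq, Nat.card_coe_set_eq]
    exact h1
  rcases hsz y hy with h | h <;> rcases hsz y' hy'x with h' | h'
  · omega
  · exact nb3_aux G x y y' hy h h' hall
  · refine nb3_aux G x y' y hy'x h' h (fun z => ?_)
    rcases hall z with h | h | h
    · exact Or.inl h
    · exact Or.inr (Or.inr h)
    · exact Or.inr (Or.inl h)
  · omega

end Cfsg.Agent.Lib.Helper10.W2
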